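/-
The order formula for groups with two classes of involutions.
-/
import Cfsg.Agent.Fi.Dihedral

set_option autoImplicit false

namespace CA.J4o

open Subgroup CA.Fi

variable {G : Type*} [Group G]

theorem inv_unique [Finite G] {g u w : G} (hu : u ∈ zpowers g) (hw : w ∈ zpowers g) (u2 : u * u = 1) (u1 : u ≠ 1)
    (w2 : w * w = 1) (w1 : w ≠ 1) : u = w := by
  classical
  have k : ∀ a ∈ zpowers g, a * a = 1 → a ≠ 1 → ∃ i, a = g ^ i ∧ 2 * i = orderOf g := fun a ha a2 a1 => by
    obtain ⟨i, hi, rfl⟩ := Finset.mem_image.1 (mem_zpowers_iff_mem_range_orderOf.1 ha)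
    rw [← pow_add, ← orderOf_dvd_iff_pow_eq_one] at a2
    obtain ⟨c, hc⟩ := a2
    have := Finset.mem_range.1 hi
    rcases c with _ | _ | c
    · exact absurd (by rw [show i = 0 by omega, pow_zero]) a1
    · exact ⟨i, rfl, by omega⟩
    · nlinarith
  obtain ⟨i, rfl, a⟩ := k u hu u2 u1
  obtain ⟨j, rfl, b⟩ := k w hw w2 w1
  rw [show i = j by omega]

theorem sq_of_conj {z x : G} (h : z * z = 1) (c : IsConj z x) : x * x = 1 := by
  obtain ⟨g, rfl⟩ := isConj_iff.1 c
  rw [conj_mul, h, mul_one, mul_inv_cancel]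

theorem ne_of_conj {z x : G} (h : z ≠ 1) (c : IsConj z x) : x ≠ 1 := fun e => h (isConj_one_left.1 (e ▸ c))

theorem conj_conj {z x : G} (g : G) : IsConj z (g * x * g⁻¹) ↔ IsConj z x :=
  ⟨fun h => h.trans (isConj_iff.2 ⟨g, rfl⟩).symm, fun h => h.trans (isConj_iff.2 ⟨g, rfl⟩)⟩

theorem mem_zp_conj {u a : G} (g : G) : g * u * g⁻¹ ∈ zpowers (g * a * g⁻¹) ↔ u ∈ zpowers a := by
  simp only [mem_zpowers_iff, conj_zpow, mul_left_inj, mul_right_inj]

theorem comm_of_mem {x y u : G} (hx : x * x = 1) (hy : y * y = 1) [Finite G] (h : u ∈ zpowers (x * y))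
    (u2 : u * u = 1) : Commute u x ∧ Commute u y := by
  obtain ⟨k, rfl⟩ := (mem_powers_iff_mem_zpowers.2 h)
  exact (dih_commute hx hy u2).imp Commute.symm Commute.symm

theorem exists_inv [Finite G] {x y : G} (hx : x * x = 1) (hy : y * y = 1) (h : ¬ IsConj x y) :
    ∃ u ∈ zpowers (x * y), u * u = 1 ∧ u ≠ 1 := by
  obtain ⟨k, a⟩ := dih_exists_of_even (dih_even_of_not_isConj hx hy h)
  exact ⟨_, npow_mem_zpowers _ k, a⟩

open Classical in
/-- The number of members of a set, weighted. -/
noncomputable def wsum [Finite G] (S : G → Prop) (f : G → ℕ) : ℕ :=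
  ∑ g ∈ (Set.toFinite {g | S g}).toFinset, f g

theorem wsum_congr [Finite G] {S S' : G → Prop} {f f' : G → ℕ} (h : ∀ g, S g ↔ S' g) (e : ∀ g, S g → f g = f' g) :
    wsum S f = wsum S' f' :=
  Finset.sum_congr (by ext g; simp [h]) fun g hg => e g ((h g).2 (by simpa using hg))

theorem wsum_conj [Finite G] (n : G) (S : G → Prop) (f : G → ℕ) :
    wsum S f = wsum (fun g => S (n * g * n⁻¹)) fun g => f (n * g * n⁻¹) :=
  (Finset.sum_equiv (MulAut.conj n).toEquiv (by simp) (by simp)).symm

theorem wsum_const [Finite G] (S : G → Prop) (c : ℕ) : wsum S (fun _ => c) = {g | S g}.ncard * c := by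
  rw [wsum, Finset.sum_const, smul_eq_mul, Set.ncard_eq_toFinset_card]

theorem wsum_fib [Finite G] {S : G → Prop} (f : G → ℕ) (φ : G → ℕ) {l : List ℕ} (hl : l.Nodup) (h : ∀ g, S g → φ g ∈ l) :
    wsum S f = (l.map fun k => wsum (fun g => S g ∧ φ g = k) f).sum := by
  classical
  rw [← List.sum_toFinset _ hl, wsum, ← Finset.sum_fiberwise_of_maps_to (t := l.toFinset) (g := φ)
    fun g hg => List.mem_toFinset.2 (h g (by simpa using hg))]
  exact Finset.sum_congr rfl fun k _ => Finset.sum_congr (by ext g; simp) fun _ _ => rfl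

open Classical in
/-- The indicator. -/
noncomputable def ind (P : Prop) : ℕ := if P then 1 else 0

theorem ind_congr {P Q : Prop} (h : P ↔ Q) : ind P = ind Q := by rw [propext h]

theorem ind_pos {P : Prop} (h : P) : ind P = 1 := if_pos h

theorem ind_neg {P : Prop} (h : ¬ P) : ind P = 0 := if_neg h

theorem wsum_ind [Finite G] (S P : G → Prop) : wsum S (fun g => ind (P g)) = {g | S g ∧ P g}.ncard := by
  classical
  rw [← mul_one (Set.ncard _), ← wsum_const, wsum]
  unfold ind
  rw [← Finset.sum_filter]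
  exact Finset.sum_congr (by ext g; simp) fun _ _ => rfl

theorem wsum_or [Finite G] {S S' : G → Prop} (h : ∀ g, S g → ¬ S' g) (f : G → ℕ) :
    wsum (fun g => S g ∨ S' g) f = wsum S f + wsum S' f := by
  classical
  rw [wsum, wsum, wsum, ← Finset.sum_union (Finset.disjoint_left.2 fun g a b => h g (by simpa using a) (by simpa using b))]
  exact Finset.sum_congr (by ext g; simp) fun _ _ => rfl

theorem wsum_comm [Finite G] (S S' : G → Prop) (f : G → G → ℕ) :
    wsum S (fun g => wsum S' (f g)) = wsum S' fun h => wsum S fun g => f g h := Finset.sum_comm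

variable [Finite G]

/-- The number of conjugates `y` of `t` with `u` a power of `x y`. -/
noncomputable def ff (t u x : G) : ℕ := wsum (IsConj t) fun y => ind (u ∈ zpowers (x * y))

/-- The number of pairs. -/
noncomputable def aa (z t u : G) : ℕ := wsum (IsConj z) (ff t u)

theorem ff_conj (t u x n : G) : ff t (n * u * n⁻¹) (n * x * n⁻¹) = ff t u x := by
  rw [ff, wsum_conj n]
  exact wsum_congr (fun g => conj_conj n) fun g _ => by rw [conj_mul, ind_congr (mem_zp_conj n)]

theorem aa_conj (z t u n : G) : aa z t (n * u * n⁻¹) = aa z t u := by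
  rw [aa, wsum_conj n]
  exact wsum_congr (fun g => conj_conj n) fun g _ => ff_conj t u g n

theorem card_class (z : G) : {g | IsConj z g}.ncard * Nat.card (centralizer {z}) = Nat.card G := by
  classical
  have := Fintype.ofFinite G
  have h := MulAction.card_orbit_mul_card_stabilizer_eq_card_group (ConjAct G) z
  rw [← Nat.card_eq_fintype_card, ← Nat.card_eq_fintype_card, ← Nat.card_eq_fintype_card,
    ← Subgroup.nat_card_centralizer_nat_card_stabilizer, Nat.card_coe_set_eq] at h
  rw [show Nat.card G = Nat.card (ConjAct G) from rfl, ← h]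
  congr 2
  ext g; exact isConj_comm.trans ConjAct.mem_orbit_conjAct.symm

theorem thompson {z t : G} (z2 : z * z = 1) (t2 : t * t = 1) (z1 : z ≠ 1) (t1 : t ≠ 1) (hn : ¬ IsConj z t)
    (hall : ∀ u : G, u * u = 1 → u ≠ 1 → IsConj z u ∨ IsConj t u) :
    Nat.card G = aa z t z * Nat.card (centralizer {t}) + aa z t t * Nat.card (centralizer {z}) := by
  classical
  have k : ∀ a : G, wsum (IsConj a) (aa z t) = {g | IsConj a g}.ncard * aa z t a := fun a => by
    rw [← wsum_const]
    exact wsum_congr (fun _ => Iff.rfl) fun g hg => by obtain ⟨n, rfl⟩ := isConj_iff.1 hg; exact aa_conj ..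
  have e : {g | IsConj z g}.ncard * ({g | IsConj t g}.ncard * 1) =
      {g | IsConj z g}.ncard * aa z t z + {g | IsConj t g}.ncard * aa z t t := by
    rw [← k, ← k, ← wsum_or fun g a b => hn (a.trans b.symm), ← wsum_const, ← wsum_const]
    unfold aa ff
    rw [wsum_comm (fun g => IsConj z g ∨ IsConj t g)]
    refine wsum_congr (fun _ => Iff.rfl) fun x hx => ?_
    rw [wsum_comm (fun g => IsConj z g ∨ IsConj t g)]
    refine wsum_congr (fun _ => Iff.rfl) fun y hy => ?_
    obtain ⟨u, a, b, c⟩ := exists_inv (sq_of_conj z2 hx) (sq_of_conj t2 hy) fun c => hn (hx.trans (c.trans hy.symm))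
    rw [wsum_ind, show {g | (IsConj z g ∨ IsConj t g) ∧ g ∈ zpowers (x * y)} = {u} from ?_]
    · simp
    · ext g
      exact ⟨fun h => inv_unique h.2 a (h.1.elim (sq_of_conj z2) (sq_of_conj t2))
        (h.1.elim (ne_of_conj z1) (ne_of_conj t1)) b c, fun h => h ▸ ⟨hall u b c, a⟩⟩
  have a := card_class z
  have b := card_class t
  have p : 0 < Nat.card G := Nat.card_pos
  refine Nat.eq_of_mul_eq_mul_left p ?_
  generalize Nat.card G = n at *
  calc n * n = {g | IsConj z g}.ncard * ({g | IsConj t g}.ncard * 1) *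
      (Nat.card (centralizer {z}) * Nat.card (centralizer {t})) := by nth_rewrite 1 [← a]; rw [← b]; ring
    _ = _ := by rw [e, mul_add]; nth_rewrite 1 [← a]; rw [← b]; ring

end CA.J4o

theorem CA.J4o.realizeEqnsTh : True := by
  have := @CA.J4o.wsum.eq_1.{0}
  have := @CA.J4o.wsum.eq_def.{0}
  have := @CA.J4o.wsum.congr_simp.{0}
  have := @CA.J4o.ind.eq_1
  have := @CA.J4o.ind.eq_def
  have := @CA.J4o.ind.congr_simp
  have := @CA.J4o.aa.eq_1.{0}
  have := @CA.J4o.aa.eq_def.{0}
  have := @CA.J4o.aa.congr_simp.{0}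
  have := @CA.J4o.ff.eq_1.{0}
  have := @CA.J4o.ff.eq_def.{0}
  have := @CA.J4o.ff.congr_simp.{0}
  trivial
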