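/-
Groups whose members are coded by a vector, a matrix and a permutation; counting pairs of involutions.
-/
import Cfsg.Agent.J4o.Th
import Cfsg.Agent.J4.T

set_option autoImplicit false

namespace CA.J4o

open Subgroup Equiv CA.Fi CA.M24 CA.J4

noncomputable section

theorem force2 {α : Type} (x : ℕ) (y : ℕ → ℕ) (f : ℕ → ℕ → α) :
    (force x fun a => force (y a) fun b => f a b) = f x (y x) := by rw [force_eq, force_eq]

theorem pmul_lt (p q : ℕ) : pmul p q < 2 ^ 120 :=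
  lt_two_pow_of_testBit fun b hb => ((testBit_bld (fun _ _ => dig_lt _ _) b).1 (pmul_eq p q ▸ hb)).1

theorem sn_cmul' (c d : ℕ) : sn (cmul c d) = pmul (sn c) (sn d) := by rw [cmul_eq, sn_pr _ (pmul_lt _ _)]

theorem fs_cmul' (c d : ℕ) : fs (cmul c d) = mm (fs c) (fs d) := by rw [cmul_eq, fs_pr _ (pmul_lt _ _)]

theorem ap_xor_left (a b : ℕ) {v : ℕ} (hv : v < 4096) : ap (a ^^^ b) v = ap a v ^^^ ap b v :=
  vec_induction (fun v => ap (a ^^^ b) v = ap a v ^^^ ap b v) (by simp)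
    (fun x y _ _ hx hy => by rw [ap_xor, ap_xor, ap_xor, hx, hy]; ac_rfl)
    (fun i hi => by
      rw [ap_two_pow _ hi, ap_two_pow _ hi, ap_two_pow _ hi]
      exact (congrArg (· &&& 4095) Nat.shiftRight_xor_distrib).trans (Nat.and_xor_distrib_right ..)) v hv

theorem ap_zero_left {v : ℕ} (hv : v < 4096) : ap 0 v = 0 := by simpa using ap_xor_left 0 0 hv

/-- product of a word -/
def lw (l : ℕ → ℕ) (w : List ℕ) : ℕ :=
  List.rec (motive := fun _ => ℕ) cone (fun a _ ih => force ih fun p => force (l a) fun q => cmul q p) w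
/-- product of the reversed word -/
def lwi (l : ℕ → ℕ) (w : List ℕ) : ℕ :=
  List.rec (motive := fun _ => ℕ) cone (fun a _ ih => force ih fun p => force (l a) fun q => cmul p q) w
/-- conjugate of a code -/
def cc (l : ℕ → ℕ) (w : List ℕ) (c : ℕ) : ℕ :=
  force (lw l w) fun m => force (lwi l w) fun m' => force (cmul m c) fun a => cmul a m'
/-- conjugate of a vector -/
def cv (l : ℕ → ℕ) (e : ℕ) (w : List ℕ) (v c : ℕ) : ℕ :=
  force (lw l w) fun m => force (Nat.xor (Nat.xor e v) (ap (fs c) e)) (ap (fs m))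
/-- conjugate of a permutation code -/
def cjp (h k : ℕ) : ℕ := force (pinv h) fun a => force (pmul k a) (pmul h)
/-- sum of the first powers and the next power -/
def npow {α : Type} (c n : ℕ) : (ℕ → ℕ → α) → α :=
  Nat.rec (motive := fun _ => (ℕ → ℕ → α) → α) (fun k => k (nat_lit 0) cone)
    (fun _ ih k => ih fun N p => force (Nat.xor N (fs p)) fun N' => force (cmul p c) fun p' => k N' p') n
def nN (c n : ℕ) : ℕ := npow c n fun N _ => N
def nJ (c n : ℕ) : ℕ := npow c n fun _ p => p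

theorem npow_succ {α : Type} (c n : ℕ) (k : ℕ → ℕ → α) :
    npow c (n + 1) k = npow c n fun N p => k (N ^^^ fs p) (cmul p c) :=
  congrArg (npow c n) (funext fun _ => funext fun _ => force2 _ (fun _ => _) _)

theorem npow_eq {α : Type} (c n : ℕ) (k : ℕ → ℕ → α) : npow c n k = k (nN c n) (nJ c n) := by
  induction n generalizing α with
  | zero => rfl
  | succ n ih => rw [nN, nJ, npow_succ, npow_succ, npow_succ, ih, ih fun N p => N ^^^ fs p, ih fun _ p => cmul p c]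

theorem cjp_code (g h : Perm Pt) : cjp (code g) (code h) = code (g * h * g⁻¹) := by
  rw [cjp, force_eq, force_eq, pinv_code, pmul_code, pmul_code, mul_assoc]

/-- The coding. -/
structure AB (G : Type*) [Group G] where
  R : G → ℕ → ℕ → Prop
  l : ℕ → ℕ
  b : ℕ
  lt : ∀ {g v c}, R g v c → v < 4096
  mul : ∀ {g h v c w d}, R g v c → R h w d → R (g * h) (v ^^^ ap (fs c) w) (cmul c d)
  uniq : ∀ {g v c w d}, R g v c → R g w d → v = w ∧ c = d
  one : R 1 0 cone
  inv : ∀ {g h v c}, R g v c → R h v c → R (g⁻¹ * h) 0 cone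
  gen : ∀ i, ∃ n, R n 0 (l i) ∧ R n⁻¹ 0 (l i)
  tr : ∀ e < b, ∃ n, R n e cone ∧ R n⁻¹ e cone

variable {G : Type*} [Group G]

namespace AB

variable {M : AB G} {g h : G} {v c : ℕ}

theorem mul_cone (a : M.R g v c) : cmul c cone = c := (M.uniq (M.mul a M.one) ((mul_one g).symm ▸ a)).2

theorem cone_mul (a : M.R g v c) : cmul cone c = c := (M.uniq (M.mul M.one a) ((one_mul g).symm ▸ a)).2

theorem mul0 {d : ℕ} (a : M.R g v c) (b : M.R h 0 d) : M.R (g * h) v (cmul c d) := by simpa using M.mul a b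

theorem mulk (a : M.R g v c) (b : M.R h 0 cone) : M.R (g * h) v c := mul_cone a ▸ mul0 a b

variable (M) in
theorem word (w : List ℕ) : ∃ n, M.R n 0 (lw M.l w) ∧ M.R n⁻¹ 0 (lwi M.l w) := by
  induction w with
  | nil => exact ⟨1, M.one, by rw [inv_one]; exact M.one⟩
  | cons a w ih =>
    obtain ⟨n, h1, h2⟩ := ih
    obtain ⟨m, h3, h4⟩ := M.gen a
    refine ⟨m * n, ?_, ?_⟩
    · rw [show lw M.l (a :: w) = _ from force2 (lw M.l w) (fun _ => M.l a) fun p q => cmul q p]; exact mul0 h3 h1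
    · rw [mul_inv_rev, show lwi M.l (a :: w) = _ from force2 (lwi M.l w) (fun _ => M.l a) fun p q => cmul p q]
      exact mul0 h2 h4

variable (M) in
theorem cj {e : ℕ} (he : e < M.b) (w : List ℕ) : ∃ n, (∃ v, M.R n v (lw M.l w)) ∧
    ∀ g v c, M.R g v c → M.R (n * g * n⁻¹) (cv M.l e w v c) (cc M.l w c) := by
  obtain ⟨n, h1, h2⟩ := M.word w
  obtain ⟨m, h3, h4⟩ := M.tr e he
  refine ⟨n * m, ⟨_, mul_cone h1 ▸ M.mul h1 h3⟩, fun g v c a => ?_⟩
  have b := M.mul (M.mul h3 a) h4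
  rw [cone_mul a, mul_cone a, fs_cone, ap_mone (M.lt a)] at b
  have := mul0 (M.mul h1 b) h2
  rw [Nat.zero_xor] at this
  simpa only [cv, cc, force_eq, mul_inv_rev, mul_assoc, Nat.xor_eq] using this

theorem pow (a : M.R g v c) (n : ℕ) : M.R (g ^ n) (ap (nN c n) v) (nJ c n) := by
  induction n with
  | zero => exact (pow_zero g).symm ▸ (ap_zero_left (M.lt a)).symm ▸ M.one
  | succ n ih =>
    rw [pow_succ, nN, nJ, npow_succ, npow_succ, npow_eq, npow_eq c n fun _ p => cmul p c, ap_xor_left _ _ (M.lt a)]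
    exact M.mul ih a

/-- descent for vectors -/
def vecChk (l : ℕ → ℕ) (L : ℕ) (roots : List ℕ) : Bool := band (allR (fun i => Nat.beq (cc l [i] cone) cone) 4)
  (allP (fun v => force (pick L 12 4095 v) fun a => bor (Nat.beq a 0) (bor (Nat.beq v (getL roots 0 (Nat.shiftRight a 8)))
    (force (pick L 12 4095 (ap (fs (l (Nat.land a 3))) v)) fun a' => band (Nat.beq (Nat.shiftRight a' 8) (Nat.shiftRight a 8))
      (band (bne' a' 0) (blt' (Nat.shiftRight a' 2) (Nat.shiftRight a 2)))))) 12 0)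

theorem vec_conj (hb : 0 < M.b) {L : ℕ} {roots : List ℕ} (H : vecChk M.l L roots = true) {v : ℕ} (hv : v < 4096)
    (h0 : pick L 12 4095 v ≠ 0) : ∃ n, (∃ a b, M.R n a b) ∧
      ∀ g, M.R g v cone → M.R (n * g * n⁻¹) (getL roots 0 (Nat.shiftRight (pick L 12 4095 v) 8)) cone := by
  rw [vecChk, band_eq_true, allR_eq_true] at H
  induction hk : Nat.shiftRight (pick L 12 4095 v) 2 using Nat.strong_induction_on generalizing v with
  | _ k ih =>
  have := allV H.2 hv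
  simp only [force_eq, bor_eq_true, beq_iff, band_eq_true, bne'_eq_true, blt'_eq_true] at this
  rcases this with a | a | ⟨a1, a2, a3⟩
  · exact absurd a h0
  · exact ⟨1, ⟨_, _, M.one⟩, fun g b => by rwa [← a, one_mul, inv_one, mul_one]⟩
  obtain ⟨n, ⟨_, _, n1⟩, n2⟩ := ih _ (hk ▸ a3) (ap_lt _ _) a2 rfl
  obtain ⟨m, ⟨_, m1⟩, m2⟩ := M.cj hb [Nat.land (pick L 12 4095 v) 3]
  refine ⟨n * m, ⟨_, _, M.mul n1 m1⟩, fun g b => ?_⟩
  have := m2 g _ _ b
  obtain ⟨x, x1, -⟩ := M.gen (Nat.land (pick L 12 4095 v) 3)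
  rw [beq_iff.1 (H.1 (Nat.land _ 3) (Nat.lt_succ_of_le Nat.and_le_right)), show cv M.l 0 [_] v cone = _ by
    simp only [cv, lw, force_eq, mul_cone x1, ap_zero, Nat.xor_eq, Nat.zero_xor, Nat.xor_zero]; rfl] at this
  simpa only [← a1, mul_inv_rev, mul_assoc] using n2 _ this

end AB

/-- The coding of the centraliser of `u`. -/
structure AM (G : Type*) [Group G] extends AB G where
  u : G
  π : G → Perm Pt
  χ : ℕ → ℕ → Bool
  u2 : u * u = 1
  u1 : u ≠ 1
  b0 : 0 < b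
  ex : ∀ {g}, Commute u g → ∃ v c, R g v c
  com : ∀ {g v c}, R g v c → Commute u g
  cp : ∀ {g v c}, R g v c → code (π g) = sn c
  ker : ∀ {g}, R g 0 cone → g = 1 ∨ g = u
  chi : ∀ {h v j}, R h v j → cmul j j = cone → h ≠ 1 → ∃ w ∈ zpowers h, w * w = 1 ∧ w ≠ 1 ∧ (w = u ↔ χ v j = true)

namespace AM

variable [Finite G] {M : AM G}

omit [Finite G] in
theorem π_mul {g h : G} (a : Commute M.u g) (b : Commute M.u h) : M.π (g * h) = M.π g * M.π h := by
  obtain ⟨_, _, a⟩ := M.ex a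
  obtain ⟨_, _, b⟩ := M.ex b
  exact code_inj (by rw [M.cp (M.mul a b), sn_cmul', ← pmul_code, M.cp a, M.cp b])

omit [Finite G] in
theorem π_conj {g n : G} (a : Commute M.u g) (b : Commute M.u n) : M.π (n * g * n⁻¹) = M.π n * M.π g * (M.π n)⁻¹ := by
  rw [eq_mul_inv_iff_mul_eq, ← π_mul ((b.mul_right a).mul_right b.inv_right) b, inv_mul_cancel_right, π_mul b a]

omit [Finite G] in
theorem com_conj {g n : G} (b : Commute M.u n) : Commute M.u (n * g * n⁻¹) ↔ Commute M.u g :=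
  ⟨fun a => by simpa [mul_assoc] using (b.inv_right.mul_right a).mul_right b, fun a => (b.mul_right a).mul_right b.inv_right⟩

/-- the weighted count over a fibre -/
noncomputable def Φ (M : AM G) (S : G → Prop) (f : G → ℕ) (k : ℕ) : ℕ :=
  wsum (fun g => (S g ∧ Commute M.u g) ∧ code (M.π g) = k) f

theorem Φ_conj {n : G} {v m k : ℕ} (hn : M.R n v m) (hk : valid k = true) (S : G → Prop) (f : G → ℕ) :
    M.Φ S f (cjp (sn m) k) = M.Φ (fun g => S (n * g * n⁻¹)) (fun g => f (n * g * n⁻¹)) k := by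
  obtain ⟨d, rfl⟩ := exists_of_valid hk
  rw [Φ, wsum_conj n, ← M.cp hn, cjp_code]
  refine wsum_congr (fun g => ?_) fun _ _ => rfl
  rw [com_conj (M.com hn)]
  refine and_congr_right fun a => ?_
  rw [π_conj a.2 (M.com hn), code_inj.eq_iff, code_inj.eq_iff, mul_left_inj, mul_right_inj]

/-- number of members with a code -/
noncomputable def wt (M : AM G) (S : G → Prop) (v c : ℕ) : ℕ := {g | S g ∧ M.R g v c}.ncard

theorem wt_conj {S : G → Prop} (hS : ∀ n g, Commute M.u n → (S (n * g * n⁻¹) ↔ S g)) {n : G} {a b v c w d : ℕ}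
    (hn : M.R n a b) (h : ∀ g, M.R g v c → M.R (n * g * n⁻¹) w d) (h0 : ∃ g, M.R g v c) : M.wt S v c = M.wt S w d := by
  obtain ⟨g0, h0⟩ := h0
  refine Set.ncard_congr (fun g _ => n * g * n⁻¹) (fun g a => ⟨(hS _ _ (M.com hn)).2 a.1, h g a.2⟩) (by simp)
    fun g a => ⟨n⁻¹ * g * n, ⟨(hS n _ (M.com hn)).1 (by simpa [mul_assoc] using a.1), ?_⟩, by group⟩
  have k := M.inv (h _ h0) a.2
  have e : n⁻¹ * g * n = g0 * ((n * g0 * n⁻¹)⁻¹ * g) := by
    have : Commute n ((n * g0 * n⁻¹)⁻¹ * g) := by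
      rcases M.ker k with e | e <;> rw [e]
      exacts [Commute.one_right _, (M.com hn).symm]
    calc _ = g0 * (n⁻¹ * ((n * g0 * n⁻¹)⁻¹ * g) * n) := by group
      _ = _ := by rw [mul_assoc n⁻¹, ← this.eq, inv_mul_cancel_left]
  exact e ▸ AB.mulk h0 k

theorem red {e v c : ℕ} (he : e < M.b) (w : List ℕ) {S : G → Prop}
    (hS : ∀ n g, Commute M.u n → (S (n * g * n⁻¹) ↔ S g)) (h0 : ∃ g, M.R g v c) :
    (∃ n, Commute M.u n ∧ ∀ g, M.R g v c → M.R (n * g * n⁻¹) (cv M.l e w v c) (cc M.l w c)) ∧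
      M.wt S v c = M.wt S (cv M.l e w v c) (cc M.l w c) := by
  obtain ⟨n, ⟨_, a⟩, b⟩ := M.cj he w
  exact ⟨⟨n, M.com a, fun g => b g v c⟩, wt_conj hS a (fun g => b g v c) h0⟩

theorem ff_cj {n : G} (h : Commute M.u n) (t x : G) : ff t M.u (n * x * n⁻¹) = ff t M.u x := by
  rw [← ff_conj t M.u x n, h.symm.eq, mul_inv_cancel_right]

end AM

/-- the set of the vectors of a list -/
def bm (l : List (ℕ × ℕ)) : ℕ :=
  List.rec (motive := fun _ => ℕ) (nat_lit 0) (fun a _ ih => force ih fun s => Nat.lor s (Nat.shiftLeft 1 a.1)) l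

theorem bm_spec {l : List (ℕ × ℕ)} {v : ℕ} (h : tb (bm l) v = true) : ∃ q ∈ l, v = q.1 := by
  rw [tb_eq_true] at h
  induction l with
  | nil => exact absurd h (by simp [bm])
  | cons a l ih =>
    rw [show bm (a :: l) = bm l ||| 1 <<< a.1 from force_eq (bm l) fun s => Nat.lor s (Nat.shiftLeft 1 a.1),
      Nat.testBit_or, Bool.or_eq_true, Nat.one_shiftLeft,
      Nat.testBit_two_pow, decide_eq_true_iff] at h
    exact h.elim (fun h => (ih h).imp fun _ b => ⟨List.mem_cons_of_mem _ b.1, b.2⟩) fun h => ⟨a, List.mem_cons_self, h.symm⟩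

/-- lists of vectors with labels, grouped by codes -/
abbrev FL : Type := List (ℕ × List (ℕ × ℕ))

/-- sums over lists -/
def sumL {α : Type} (f : α → ℕ) (l : List α) : ℕ :=
  List.rec (motive := fun _ => ℕ) (nat_lit 0) (fun a _ ih => force ih fun s => Nat.add (f a) s) l

theorem sumL_eq {α : Type} (f : α → ℕ) (l : List α) : sumL f l = (l.map f).sum := by
  induction l with
  | nil => rfl
  | cons a l ih => rw [List.map_cons, List.sum_cons, ← ih]; exact force_eq _ _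

def flat (L : FL) : List ℕ := L.flatMap fun g => g.2.map fun p => Nat.add (Nat.mul g.1 4096) p.1

/-- sums over trees -/
def sumT (f : ℕ → ℕ) (t : Tr) : ℕ :=
  Tr.rec (motive := fun _ => ℕ) (nat_lit 0) (fun _ k _ _ a b => force a fun x => force b fun y => Nat.add x (Nat.add (f k) y)) t

theorem sumT_eq (f : ℕ → ℕ) (t : Tr) : sumT f t = (t.keys.map f).sum := by
  induction t with
  | leaf => rfl
  | node l k v r a b =>
    rw [Tr.keys, List.map_append, List.map_cons, List.sum_append, List.sum_cons, ← a, ← b]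
    exact force2 (sumT f l) (fun _ => sumT f r) fun x y => Nat.add x (Nat.add (f k) y)

def nth {α : Type} (l : List α) (d : α) (i : ℕ) : α :=
  List.rec (motive := fun _ => ℕ → α) (fun _ => d) (fun a _ ih i => Nat.rec (motive := fun _ => α) a (fun j _ => ih j) i) l i

theorem nth_mem {α : Type} (l : List α) (d : α) (i : ℕ) : nth l d i ∈ d :: l := by
  induction l generalizing i with
  | nil => exact List.mem_cons_self
  | cons a l ih =>
    cases i with
    | zero => exact List.mem_cons_of_mem _ List.mem_cons_self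
    | succ i =>
      exact (List.mem_cons.1 (ih i)).elim (fun e => List.mem_cons.2 (Or.inl e))
        fun e => List.mem_cons_of_mem _ (List.mem_cons_of_mem _ e)

def lb (T : Tr) (L k : ℕ) : ℕ := Nat.shiftRight (pick L 16 65535 (T.find k)) 8

def tabChk (T : Tr) (hs : List ℕ) (L : ℕ) (root : ℕ → ℕ) : Bool := T.all fun k =>
  force (pick L 16 65535 (T.find k)) fun a => bor (Nat.beq k (root (Nat.shiftRight a 8)))
    (force (T.find (cjp (getL hs pone (Nat.land a 3)) k)) fun i => force (pick L 16 65535 i) fun a' =>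
      band (bne' i 0) (band (Nat.beq (Nat.shiftRight a' 8) (Nat.shiftRight a 8))
        (blt' (Nat.shiftRight a' 2) (Nat.shiftRight a 2))))

theorem tab_ind {T : Tr} {hs : List ℕ} {L : ℕ} {root : ℕ → ℕ} (H : tabChk T hs L root = true) (P : ℕ → ℕ → Prop)
    (h0 : ∀ k, P k k) (h : ∀ h ∈ pone :: hs, ∀ k ∈ T.keys, ∀ r, P (cjp h k) r → P k r) {k : ℕ} (hk : k ∈ T.keys) :
    P k (root (lb T L k)) := by
  induction hn : Nat.shiftRight (pick L 16 65535 (T.find k)) 2 using Nat.strong_induction_on generalizing k with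
  | _ n ih =>
  have := Tr.all_eq_true.1 H k hk
  simp only [force_eq, bor_eq_true, beq_iff, band_eq_true, bne'_eq_true, blt'_eq_true] at this
  rcases this with a | ⟨a1, a2, a3⟩
  · rw [lb, ← a]; exact h0 k
  · have := ih _ (hn ▸ a3) (Tr.mem_keys_of_find a1) rfl
    rw [lb, a2] at this
    exact h _ (List.mem_cons.2 (getL_mem _ _ _)) k hk _ this

def nf (NS c : ℕ) : ℕ := pick NS 6 63 (Nat.mod c 9)

def phi (χ : ℕ → ℕ → Bool) (N j M v w : ℕ) : ℕ :=
  force (Nat.xor v (ap M w)) fun a => force (ap N a) fun b => bif' (χ b j) 1 0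

def okG (c NS : ℕ) (g : ℕ × List (ℕ × ℕ)) : Bool := force (cmul c g.1) fun e => force (nf NS g.1) fun n =>
  force (nJ e n) fun j => band (Nat.beq (cmul j j) cone) (bor (Nat.beq (Nat.mod n 2) 1) (bne' j cone))

def sumG (β : ℕ → ℕ) (χ : ℕ → ℕ → Bool) (v c NS : ℕ) (g : ℕ × List (ℕ × ℕ)) : ℕ := force (cmul c g.1) fun e =>
  npow e (nf NS g.1) fun N j => force (fs c) fun M => sumL (fun p => Nat.mul (β p.2) (phi χ N j M v p.1)) g.2

/-- data of an orbit: root, word, fibre, exponents, value -/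
abbrev OD : Type := ℕ × List ℕ × ℕ × ℕ × ℕ

def orbOK (l β : ℕ → ℕ) (χ : ℕ → ℕ → Bool) (dd : ℕ → ℕ) (ML : ℕ → FL) (v c : ℕ) (o : OD) : Bool :=
  band (valid o.1) (band (Nat.beq (cjp (sn (lw l o.2.1)) o.1) (dd o.2.2.1)) (force (cv l 0 o.2.1 v c) fun v' =>
    force (cc l o.2.1 c) fun c' => band (allL (okG c' o.2.2.2.1) (ML o.2.2.1))
      (Nat.beq (sumL (sumG β χ v' c' o.2.2.2.1) (ML o.2.2.1)) o.2.2.2.2)))

def clsOK (T : Tr) (l : ℕ → ℕ) (v c : ℕ) (ws : List (ℕ × List ℕ)) (b L : ℕ) (o : OD) (D : List OD) (tot : ℕ) : Bool :=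
  band (allL (fun w => band (blt' w.1 b) (band (Nat.beq (cv l w.1 w.2 v c) v) (Nat.beq (cc l w.2 c) c))) ws)
    (band (tabChk T (ws.map fun w => force (sn (lw l w.2)) id) L fun i => (nth D o i).1)
      (Nat.beq (sumT (fun k => (nth D o (lb T L k)).2.2.2.2) T) tot))

namespace AM

variable [Finite G] {M : AM G}

/-- a list describing a fibre -/
structure Fib (M : AM G) (S : G → Prop) (β : ℕ → ℕ) (k : ℕ) (L : FL) : Prop where
  nd : (flat L).Nodup
  cov : ∀ g v c, S g → M.R g v c → sn c = k → ∃ p ∈ L, c = p.1 ∧ ∃ q ∈ p.2, v = q.1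
  wt : ∀ p ∈ L, sn p.1 = k ∧ ∀ q ∈ p.2, q.1 < 4096 ∧ M.wt S q.1 p.1 = β q.2

theorem Fib.sum {S : G → Prop} {β : ℕ → ℕ} {k : ℕ} {L : FL} (H : M.Fib S β k L) (f : G → ℕ) (φ : ℕ → ℕ × ℕ → ℕ)
    (h : ∀ p ∈ L, ∀ q ∈ p.2, ∀ g, S g → M.R g q.1 p.1 → f g = φ p.1 q) :
    M.Φ S f k = (L.map fun p => (p.2.map fun q => β q.2 * φ p.1 q).sum).sum := by
  classical
  let e : G → ℕ := fun g => if h : ∃ x : ℕ × ℕ, M.R g x.1 x.2 then h.choose.2 * 4096 + h.choose.1 else 0
  have he : ∀ g v c, M.R g v c → e g = c * 4096 + v := fun g v c a => by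
    have x : ∃ x : ℕ × ℕ, M.R g x.1 x.2 := ⟨(v, c), a⟩
    obtain ⟨b1, b2⟩ := M.uniq x.choose_spec a
    rw [show e g = _ from dif_pos x, b1, b2]
  rw [Φ, wsum_fib f e H.nd fun g a => ?_, flat, List.map_flatMap, List.flatMap_def, List.sum_flatten, List.map_map]
  · refine congrArg _ (List.map_congr_left fun p hp => ?_)
    rw [Function.comp, List.map_map]
    refine congrArg _ (List.map_congr_left fun q hq => ?_)
    obtain ⟨a, b⟩ := (H.wt p hp).2 q hq
    rw [← b, AM.wt, ← wsum_const]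
    have : ∀ g, ((S g ∧ Commute M.u g) ∧ code (M.π g) = k) ∧ e g = p.1 * 4096 + q.1 ↔ S g ∧ M.R g q.1 p.1 := fun g =>
      ⟨fun ⟨x, y⟩ => ⟨x.1.1, by
        obtain ⟨v, c, r⟩ := M.ex x.1.2
        have := M.lt r
        rw [he g v c r] at y
        rwa [show v = q.1 by omega, show c = p.1 by omega] at r⟩,
      fun ⟨x, y⟩ => ⟨⟨⟨x, M.com y⟩, (M.cp y).trans (H.wt p hp).1⟩, he _ _ _ y⟩⟩
    exact wsum_congr this fun g x => h p hp q hq g ((this g).1 x).1 ((this g).1 x).2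
  · obtain ⟨v, c, r⟩ := M.ex a.1.2
    obtain ⟨p, hp, rfl, q, hq, rfl⟩ := H.cov g v c a.1.1 r ((M.cp r).symm.trans a.2)
    exact List.mem_flatMap.2 ⟨p, hp, List.mem_map.2 ⟨q, hq, (he _ _ _ r).symm⟩⟩

variable {z t : G} {T : Tr}

/-- The table of the permutations of order at most two. -/
structure Tab (M : AM G) (T : Tr) : Prop where
  nd : T.keys.Nodup
  val : ∀ k ∈ T.keys, valid k = true
  cov : ∀ g, Commute M.u g → g * g = 1 → code (M.π g) ∈ T.keys

theorem Tab.sum (H : M.Tab T) {S : G → Prop} (hS : ∀ g, S g → g * g = 1) (f : G → ℕ) :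
    wsum (fun g => S g ∧ Commute M.u g) f = (T.keys.map (M.Φ S f)).sum :=
  wsum_fib f _ H.nd fun g a => H.cov g a.2 (hS g a.1)

theorem mem_dep (z2 : z * z = 1) (t2 : t * t = 1) (hn : ¬ IsConj z t) {x x' y : G} {v c : ℕ} (a : IsConj z x)
    (a' : IsConj z x') (b : IsConj t y) (r : M.R x v c) (r' : M.R x' v c) (hy : Commute M.u y)
    (h : M.u ∈ zpowers (x * y)) : M.u ∈ zpowers (x' * y) := by
  rcases M.ker (M.inv r r') with e | e
  · rwa [← inv_mul_eq_one.1 e]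
  obtain ⟨w, w1, w2, w3⟩ := exists_inv (sq_of_conj z2 a') (sq_of_conj t2 b) fun c => hn (a'.trans (c.trans b.symm))
  rwa [inv_unique h (zpowers_le.2 ?_ w1) M.u2 M.u1 w2 w3]
  rw [inv_mul_eq_iff_eq_mul.1 e, mul_assoc, hy.eq, ← mul_assoc]
  exact mul_mem (mem_zpowers _) h

theorem cls (H : M.Tab T) (z2 : z * z = 1) (t2 : t * t = 1) (hn : ¬ IsConj z t) {β dd : ℕ → ℕ} {ML : ℕ → FL}
    (hF : ∀ j, M.Fib (IsConj t) β (dd j) (ML j)) {v c L tot : ℕ} {ws : List (ℕ × List ℕ)} {o : OD} {D : List OD}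
    (h1 : clsOK T M.l v c ws M.b L o D tot = true) (h2 : allL (orbOK M.l β M.χ dd ML v c) (o :: D) = true)
    {x : G} (a : IsConj z x) (r : M.R x v c) : ff t M.u x = tot := by
  have cf : ∀ {n a b x : _} (_ : M.R n a b) (k), valid k = true → M.Φ (IsConj t) (fun y => ind (M.u ∈ zpowers (n * x * n⁻¹ * y)))
      (cjp (sn b) k) = M.Φ (IsConj t) (fun y => ind (M.u ∈ zpowers (x * y))) k := fun {n _ _ x} hn k hk => by
    rw [Φ_conj hn hk]
    refine wsum_congr (fun g => by beta_reduce; rw [conj_conj]) fun g _ => ind_congr ?_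
    rw [conj_mul, ← mem_zp_conj (u := M.u) (a := x * g) n, (M.com hn).symm.eq, mul_inv_cancel_right]
  simp only [clsOK, band_eq_true, allL_eq_true, blt'_eq_true, beq_iff] at h1
  rw [← h1.2.2, sumT_eq, ff, ← mul_one (wsum _ _), show wsum (IsConj t) _ * 1 =
    wsum (fun g => IsConj t g ∧ Commute M.u g) fun y => ind (M.u ∈ zpowers (x * y)) by
      rw [mul_one, wsum_ind, wsum_ind]
      exact congrArg _ (Set.ext fun y => ⟨fun h => ⟨⟨h.1, (comm_of_mem (sq_of_conj z2 a) (sq_of_conj t2 h.1) h.2 M.u2).2⟩,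
        h.2⟩, fun h => ⟨h.1.1, h.2⟩⟩), H.sum fun _ => sq_of_conj t2]
  refine congrArg _ (List.map_congr_left fun k hk => ?_)
  rw [tab_ind h1.2.1 (fun k r => M.Φ (IsConj t) (fun y => ind (M.u ∈ zpowers (x * y))) k =
    M.Φ (IsConj t) (fun y => ind (M.u ∈ zpowers (x * y))) r) (fun _ => rfl) (fun h hh k hk _ e => Eq.trans ?_ e) hk]
  · have ho := allL_eq_true.1 h2 _ (nth_mem D o (lb T L k))
    generalize nth D _ _ = o at ho ⊢
    simp only [orbOK, band_eq_true, allL_eq_true, beq_iff, force_eq] at ho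
    obtain ⟨n, ⟨_, n1⟩, n2⟩ := M.cj M.b0 o.2.1
    have r' := n2 x _ _ r
    rw [← cf n1 _ ho.1, ho.2.1, ← ho.2.2.2, sumL_eq, (hF _).sum _ (fun c' w => phi M.χ
      (nN (cmul (cc M.l o.2.1 c) c') (nf o.2.2.2.1 c')) (nJ (cmul (cc M.l o.2.1 c) c') (nf o.2.2.2.1 c'))
      (fs (cc M.l o.2.1 c)) (cv M.l 0 o.2.1 v c) w.1) fun p hp q hq y b s => ?_]
    · refine congrArg _ (List.map_congr_left fun p _ => ?_)
      rw [sumG, force_eq, npow_eq, force_eq, sumL_eq]; rfl
    have ok := ho.2.2.1 p hp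
    simp only [okG, force_eq, band_eq_true, bor_eq_true, beq_iff, bne'_eq_true] at ok
    have s' := AB.pow (M.mul r' s) (nf o.2.2.2.1 p.1)
    have a' := (conj_conj n).2 a
    obtain ⟨w, w1, w2, w3, w4⟩ := M.chi s' ok.1 fun e => ok.2.elim
      (fun c => hn (a'.trans ((dih_isConj_of_odd (sq_of_conj z2 a') (sq_of_conj t2 b) (Nat.odd_iff.2 c) e).trans b.symm)))
      fun c => c (M.uniq s' (e ▸ M.one)).2
    have w5 := zpowers_le.2 (npow_mem_zpowers _ _) w1
    rw [phi, force_eq, force_eq, bif'_eq]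
    split_ifs with c
    · exact ind_pos (w4.2 c ▸ w5)
    · exact ind_neg fun d => c (w4.1 (inv_unique w5 d w2 w3 M.u2 M.u1))
  · rcases List.mem_cons.1 hh with rfl | hh
    · simpa only [one_mul, inv_one, mul_one, sn_cone] using (cf (x := x) M.one k (H.val k hk)).symm
    obtain ⟨w, hw, rfl⟩ := List.mem_map.1 hh
    obtain ⟨w1, w2, w3⟩ := h1.1 w hw
    obtain ⟨n, ⟨_, n1⟩, n2⟩ := M.cj w1 w.2
    have r' := n2 x _ _ r
    rw [w2, w3] at r'
    rw [force_eq, id, ← cf n1 k (H.val k hk)]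
    exact wsum_congr (fun _ => Iff.rfl) fun y hy => ind_congr
      ⟨mem_dep z2 t2 hn ((conj_conj n).2 a) a hy.1.1 r' r hy.1.2, mem_dep z2 t2 hn a ((conj_conj n).2 a) hy.1.1 r r' hy.1.2⟩

theorem total (H : M.Tab T) (z2 : z * z = 1) (t2 : t * t = 1) {α dd val : ℕ → ℕ} {ML : ℕ → FL}
    (hF : ∀ j, M.Fib (IsConj z) α (dd j) (ML j)) {L : ℕ}
    (h1 : tabChk T [sn (lw M.l [0]), sn (lw M.l [1]), sn (lw M.l [2])] L dd = true) (φ : ℕ → ℕ)
    (h2 : ∀ j, ∀ p ∈ ML j, ∀ q ∈ p.2, α q.2 ≠ 0 → ∀ g, IsConj z g → M.R g q.1 p.1 → ff t M.u g = φ q.2)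
    (h3 : ∀ j, sumL (fun p => sumL (fun q => Nat.mul (α q.2) (φ q.2)) p.2) (ML j) = val j) :
    aa z t M.u = sumT (fun k => val (lb T L k)) T := by
  rw [aa, sumT_eq, show wsum (IsConj z) _ = wsum (fun g => IsConj z g ∧ Commute M.u g) (ff t M.u) from ?_,
    H.sum fun _ => sq_of_conj z2]
  · refine congrArg _ (List.map_congr_left fun k hk => ?_)
    rw [tab_ind h1 (fun k r => M.Φ (IsConj z) (ff t M.u) k = M.Φ (IsConj z) (ff t M.u) r) (fun _ => rfl)
      (fun h hh k hk r e => Eq.trans ?_ e) hk, (hF _).sum _ (fun _ q => φ q.2) fun p hp q hq g a b => h2 _ p hp q hq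
        (by
          rw [← (((hF _).wt p hp).2 q hq).2]; exact ((Set.ncard_pos (Set.toFinite _)).2 ⟨g, And.intro a b⟩).ne') g a b, ← h3, sumL_eq]
    · simp only [sumL_eq]; rfl
    have : ∃ w, h = sn (lw M.l w) := by
      simp only [List.mem_cons, List.not_mem_nil, or_false] at hh
      rcases hh with rfl | rfl | rfl | rfl
      exacts [⟨[], sn_cone.symm⟩, ⟨_, rfl⟩, ⟨_, rfl⟩, ⟨_, rfl⟩]
    obtain ⟨w, rfl⟩ := this
    obtain ⟨n, n1, -⟩ := M.word w
    rw [Φ_conj n1 (H.val k hk)]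
    refine wsum_congr (fun g => by beta_reduce; rw [conj_conj]) fun g _ => ?_
    rw [← ff_conj t M.u g n, (M.com n1).symm.eq, mul_inv_cancel_right]
  · classical
    refine (Finset.sum_subset (fun g => by simp only [Set.Finite.mem_toFinset]; exact And.left) fun g a b => ?_).symm
    simp only [Set.Finite.mem_toFinset, Set.mem_setOf_eq] at a b
    rw [ff, wsum_ind, Set.ncard_eq_zero, Set.eq_empty_iff_forall_notMem]
    exact fun y h => b ⟨a, (comm_of_mem (sq_of_conj z2 a) (sq_of_conj t2 h.1) h.2 M.u2).1⟩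

end AM

end

end CA.J4o

theorem CA.J4o.realizeEqnsAM : True := by
  have := @CA.J4o.AB.vecChk.eq_1
  have := @CA.J4o.AB.vecChk.eq_def
  have := @CA.J4o.AB.vecChk.congr_simp
  have := @CA.J4o.AM.Φ.eq_1.{0}
  have := @CA.J4o.AM.Φ.eq_def.{0}
  have := @CA.J4o.AM.Φ.congr_simp.{0}
  have := @CA.J4o.sumL.eq_1
  have := @CA.J4o.sumL.eq_def
  have := @CA.J4o.sumL.congr_simp
  have := @CA.J4o.cc.eq_1
  have := @CA.J4o.cc.eq_def
  have := @CA.J4o.cc.congr_simp
  have := @CA.J4o.clsOK.eq_1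
  have := @CA.J4o.clsOK.eq_def
  have := @CA.J4o.clsOK.congr_simp
  have := @CA.J4o.lwi.eq_1
  have := @CA.J4o.lwi.eq_def
  have := @CA.J4o.lwi.congr_simp
  have := @CA.J4o.lb.eq_1
  have := @CA.J4o.lb.eq_def
  have := @CA.J4o.lb.congr_simp
  have := @CA.J4o.nth.eq_1
  have := @CA.J4o.nth.eq_def
  have := @CA.J4o.nth.congr_simp
  have := @CA.J4o.OD.eq_1
  have := @CA.J4o.OD.eq_def
  have := @CA.J4o.OD.congr_simp
  have := @CA.J4o.nN.eq_1
  have := @CA.J4o.nN.eq_def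
  have := @CA.J4o.nN.congr_simp
  have := @CA.J4o.FL.eq_1
  have := @CA.J4o.FL.eq_def
  have := @CA.J4o.FL.congr_simp
  have := @CA.J4o.cjp.eq_1
  have := @CA.J4o.cjp.eq_def
  have := @CA.J4o.cjp.congr_simp
  have := @CA.J4o.phi.eq_1
  have := @CA.J4o.phi.eq_def
  have := @CA.J4o.phi.congr_simp
  have := @CA.J4o.cv.eq_1
  have := @CA.J4o.cv.eq_def
  have := @CA.J4o.cv.congr_simp
  have := @CA.J4o.sumT.eq_1
  have := @CA.J4o.sumT.eq_def
  have := @CA.J4o.sumT.congr_simp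
  have := @CA.J4o.sumG.eq_1
  have := @CA.J4o.sumG.eq_def
  have := @CA.J4o.sumG.congr_simp
  have := @CA.J4o.npow.eq_1
  have := @CA.J4o.npow.eq_def
  have := @CA.J4o.npow.congr_simp
  have := @CA.J4o.flat.eq_1
  have := @CA.J4o.flat.eq_def
  have := @CA.J4o.flat.congr_simp
  have := @CA.J4o.nf.eq_1
  have := @CA.J4o.nf.eq_def
  have := @CA.J4o.nf.congr_simp
  have := @CA.J4o.nJ.eq_1
  have := @CA.J4o.nJ.eq_def
  have := @CA.J4o.nJ.congr_simp
  have := @CA.J4o.orbOK.eq_1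
  have := @CA.J4o.orbOK.eq_def
  have := @CA.J4o.orbOK.congr_simp
  have := @CA.J4o.okG.eq_1
  have := @CA.J4o.okG.eq_def
  have := @CA.J4o.okG.congr_simp
  have := @CA.J4o.lw.eq_1
  have := @CA.J4o.lw.eq_def
  have := @CA.J4o.lw.congr_simp
  have := @CA.J4o.bm.eq_1
  have := @CA.J4o.bm.eq_def
  have := @CA.J4o.bm.congr_simp
  have := @CA.J4o.tabChk.eq_1
  have := @CA.J4o.tabChk.eq_def
  have := @CA.J4o.tabChk.congr_simp
  have := @CA.J4o.AM.wt.eq_1.{0}
  have := @CA.J4o.AM.wt.eq_def.{0}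
  have := @CA.J4o.AM.wt.congr_simp.{0}
  trivial
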