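/-
The normaliser of a subgroup of order seven.
-/
import Cfsg.Agent.J4o.CenD

set_option autoImplicit false
set_option maxRecDepth 100000
set_option linter.unusedSectionVars false

namespace CA.J4.HM

open CA.M24 CA.Fi CA.FG CA.J4o Cfsg Subgroup Equiv

noncomputable section

variable {G : Type*} [Group G] [Finite G] {X : HM G} [hF : Fact X.Fu]

theorem Rq.ord {f : G} {v c p : ℕ} (hp : p.Prime) (r : X.Rq f v c) (e : f ^ p = 1) (h : c ≠ cone) : orderOf f = p :=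
  have := Fact.mk hp
  orderOf_eq_prime e fun a => h (r.unique (a ▸ X.rq_one)).2

theorem RN.ord {f : G} {v c p : ℕ} (hp : p.Prime) (r : X.RN f v c) (e : f ^ p = 1) (h : c ≠ cone) : orderOf f = p :=
  have := Fact.mk hp
  orderOf_eq_prime e fun a => h (r.unique (a ▸ RN.one)).2

theorem RN.fix {g : G} {k c x : ℕ} (r : X.RN g k c) (hx : x < 2048) : Commute g (X.ev x) ↔ ap (fs c) x = x := by
  obtain ⟨p, -, a, b⟩ := r.th
  rw [b.fix hx, a.ap x hx]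

theorem RN.tc {g : G} {k c : ℕ} (r : X.RN g k c) : Commute X.t g := X.amN.com r

theorem IsV.uniq {A B : Subgroup G} (hA : X.IsV A) (hB : X.IsV B) {y : G} (h : IsConj X.t y) (a : y ∈ A) (b : y ∈ B) :
    A = B := by
  obtain ⟨g, rfl⟩ := isConj_iff.1 h
  exact conjg_inj.1 (X.uniq_t (hA.conjg g⁻¹) (hB.conjg g⁻¹) (mem_conjg_inv.2 a) (mem_conjg_inv.2 b))

theorem norm_of_t {n : G} (h : n * X.t * n⁻¹ ∈ X.V) : n ∈ 𝒩(X.V) :=
  conjg_eq_self_iff.1 ((X.isV.conjg n).uniq X.isV (isConj_iff.2 ⟨n, rfl⟩) (conj_mem_conjg n X.t_mem) h)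

theorem ln_card {S : Subgroup G} {z' t' : G} {a c i j n a' c' i' j' n' : ℕ} (h : LN X.z X.t S X.z z' a c i j n)
    (h' : LN X.z X.t S X.t t' a' c' i' j' n') : Nat.card 𝒩(S) = a * n' + a' * n :=
  LN.card X.z_sq X.t_sq X.z_ne X.t_ne X.not_conj_t (fun _ a b => (X.inv_cases a).resolve_left b) h h'

variable (X)

theorem lnH7 : ∃ s, X.RC s dH7.cf ∧ orderOf s = 7 ∧ LN X.z X.t (zpowers s) X.z X.z 9 84 4 3 252 := by
  obtain ⟨f, r, e, -, -, -, -, h⟩ := ldH (X := X) dH7_chk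
  rw [dH7_val.1, dH7_val.2.1, dH7_val.2.2.1, dH7_val.2.2.2] at h
  have o := r.rq.ord (p := 7) (by norm_num) e (by decide +kernel)
  exact ⟨f, r, o, LN.mk' (q := 259522560) (by norm_num) o r.zc h (by rw [X.card_H]) (by rw [X.card_H]; norm_num)⟩

theorem lnN7 : ∃ s, X.RN s 0 dN7.cf ∧ orderOf s = 7 ∧ LN X.z X.t (zpowers s) X.t X.t 4 56 2 3 168 := by
  obtain ⟨f, r, e, -, h⟩ := ldN (X := X) dN7_chk
  rw [dN7_val.1, dN7_val.2.1, dN7_val.2.2.1, dN7_val.2.2.2] at h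
  have o := r.ord (p := 7) (by norm_num) e (by decide +kernel)
  exact ⟨f, r, o, LN.mk' (q := 32440320) (by norm_num) o r.tc h (by rw [X.card_Ct]) (by rw [X.card_Ct]; norm_num)⟩

include hF in
theorem not_49 : ¬ 7 * 7 ∣ Nat.card G := by rw [X.card_G]; norm_num

variable {X}

theorem ln7 {S : Subgroup G} (h : Nat.card S = 7) : (∃ z', LN X.z X.t S X.z z' 9 84 4 3 252) ∧
    ∃ t', LN X.z X.t S X.t t' 4 56 2 3 168 := by
  obtain ⟨s, -, a, b⟩ := X.lnH7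
  obtain ⟨s', -, a', b'⟩ := X.lnN7
  obtain ⟨g, e⟩ := conj_of_card (by norm_num) ((Nat.card_zpowers s).trans a) h X.not_49
  obtain ⟨g', e'⟩ := conj_of_card (by norm_num) ((Nat.card_zpowers s').trans a') h X.not_49
  exact ⟨⟨_, e ▸ b.conj g⟩, _, e' ▸ b'.conj g'⟩

include hF in
theorem card_N7 {S : Subgroup G} (h : Nat.card S = 7) : Nat.card 𝒩(S) = 2520 := by
  obtain ⟨⟨_, a⟩, _, b⟩ := ln7 (X := X) h
  exact ln_card a b

include hF in
theorem card_C7 {S : Subgroup G} (h : Nat.card S = 7) : Nat.card 𝒞(S) = 840 := by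
  obtain ⟨⟨_, a⟩, _, b⟩ := ln7 (X := X) h
  have c := card_mul_relIndex (cent_le_norm S)
  have d := relIndex_cent_dvd_pred (by norm_num) h (le_refl 𝒩(S))
  have e := a.le_rel
  obtain ⟨k, f⟩ := b.ld.card ▸ card_dvd_of_le (inf_le_left : 𝒞(S) ⊓ 𝒞[_] ≤ _)
  rw [card_N7 (X := X) h] at c
  generalize (𝒞(S)).relIndex 𝒩(S) = m at c d e
  generalize Nat.card 𝒞(S) = n at c f ⊢
  have : 3 ≤ m := by omega
  have : m ≤ 6 := Nat.le_of_dvd (by norm_num) d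
  interval_cases m <;> omega

variable (X) in
include hF in
theorem sym5 : ∃ S : Subgroup G, Nat.card S = 7 ∧ ∃ I, IsInternalDirectProduct S I 𝒞(S) ∧
    Nonempty (I ≃* Perm (Fin 5)) := by
  obtain ⟨s, r, o, b⟩ := X.lnN7
  have h := (Nat.card_zpowers s).trans o
  obtain ⟨⟨z', a⟩, -⟩ := ln7 (X := X) h
  obtain ⟨I, hI, cI⟩ := exists_dprod (by norm_num) h X.not_49
  refine ⟨_, h, I, hI, ?_⟩
  have cN := card_N7 (X := X) h
  have hv : ∀ x < 2048, X.ev x ∈ 𝒞(zpowers s) ↔ ap (fs dN7.cf) x = x := fun x hx => by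
    rw [cent_zpowers, mem_cent_iff, Commute.symm_iff, r.fix hx]
  have vt : ∀ w ∈ X.V, w ∈ 𝒞(zpowers s) → w = 1 ∨ IsConj X.t w := by
    rintro _ ⟨x, hx, rfl⟩ c
    have := all11 (by decide +kernel : allP (fun x => bimp (Nat.beq (ap (fs dN7.cf) x) x) (bor (Nat.beq x 0) (dc x)))
      11 0 = true) hx
    simp only [bimp_eq_true, beq_iff, bor_eq_true] at this
    exact (this ((hv x hx).1 c)).imp (fun e => by rw [e, X.ev_zero]) (conj_t_of hx)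
  have cM : Nat.card ↥(𝒩(zpowers s) ⊓ 𝒩(X.V)) = 504 := by
    rw [← ncard_conj _ X.t, inf_assoc, inf_of_le_right X.cent_t, b.norm, ncard_sumR (fun m a n b => X.ev_inj a b) _
      (fun x => band (Nat.beq (ap (fs dN7.cf) x) x) (dc x)) (by rintro _ ⟨c, d, rfl⟩; exact conj_mem_of_mem_norm d.2 X.t_mem)
      fun x hx => ?_]
    · decide +kernel
    rw [band_eq_true, beq_iff, ← hv x hx]
    refine ⟨fun ⟨c, d, e⟩ => ⟨e ▸ conj_mem_of_mem_norm (norm_cent le_rfl d.1) b.mem, dc_of hx (isConj_iff.2 ⟨c, e⟩)⟩,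
      fun d => ?_⟩
    obtain ⟨n, e, f⟩ := b.fuse _ d.1 (conj_t_of hx d.2)
    exact ⟨n, ⟨e, norm_of_t (f ▸ X.ev_mem hx)⟩, f⟩
  have c15 := b.ncard
  have cC := card_C7 (X := X) h
  generalize zpowers s = S at *
  let K : Subgroup G := 𝒞(S) ⊓ (((𝒩(X.V)).subgroupOf 𝒩(S)).normalCore.map (𝒩(S)).subtype)
  have mK : ∀ g, g ∈ K ↔ g ∈ 𝒞(S) ∧ ∀ n ∈ 𝒩(S), n * g * n⁻¹ ∈ 𝒩(X.V) := fun g =>
    and_congr_right fun c => ⟨fun ⟨y, d, e⟩ n hn => e ▸ d ⟨n, hn⟩, fun d => ⟨⟨g, cent_le_norm S c⟩, fun n => d n n.2, rfl⟩⟩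
  have kc : ∀ g ∈ K, ∀ n ∈ 𝒩(S), n * g * n⁻¹ ∈ K := fun g hg n hn => (mK _).2
    ⟨conj_mem_of_mem_norm (norm_cent le_rfl hn) hg.1, fun m hm => by
      simpa [mul_assoc] using ((mK g).1 hg).2 _ (mul_mem hm hn)⟩
  have kc' : ∀ g, ∀ n ∈ 𝒩(S), n * g * n⁻¹ ∈ K → g ∈ K := fun g n hn hg => by
    simpa [mul_assoc] using kc _ hg _ (inv_mem hn)
  have k1 : ∀ g ∈ K, g ∈ 𝒩(X.V) := fun g hg => by simpa using ((mK g).1 hg).2 1 (one_mem _)
  have big : ∀ u, {x | (IsConj X.t x ∧ x ∈ 𝒞(S)) ∧ Commute u x}.ncard = 3 →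
      ¬ ∀ x ∈ 𝒞(S), IsConj X.t x → Commute u x := fun u e f => by
    have := Set.ncard_le_ncard (s := {x | IsConj X.t x ∧ x ∈ 𝒞(S)})
      (t := {x | (IsConj X.t x ∧ x ∈ 𝒞(S)) ∧ Commute u x}) fun x hx => ⟨hx, f x hx.2 hx.1⟩
    omega
  have s1 : X.t ∉ K := fun hk => big _ b.ld.nt fun y c d => by
    obtain ⟨n, hn, rfl⟩ := b.fuse y c d
    have w1 := mul_mem X.t_mem (conj_mem_of_mem_norm (k1 _ (kc _ hk n hn)) X.t_mem)
    rcases vt _ w1 (mul_mem b.mem (mul_mem (mul_mem c b.mem) (inv_mem c))) with e | e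
    · exact (conj_eq_iff_commute.1 ((eq_inv_of_mul_eq_one_right e).trans (inv_eq_of_mul_eq_one_left X.t_sq))).symm
    refine X.V_comm X.t_mem ((X.isV.uniq (X.isV.conjg n) e w1 (mem_conjg.2 ?_)).ge (conj_mem_conjg n X.t_mem))
    have := mul_mem (conj_mem_of_mem_norm (k1 _ (kc _ hk _ (inv_mem hn))) X.t_mem) (inv_mem X.t_mem)
    rw [inv_inv, mul_inv_rev, mul_inv_rev, inv_inv, inv_eq_of_mul_eq_one_left X.t_sq] at this
    simpa [mul_assoc, inv_eq_of_mul_eq_one_left X.t_sq] using this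
  have s2 : ∀ g ∈ K, Commute g X.t := fun g hg => by
    rcases vt _ (mul_mem (conj_mem_of_mem_norm (k1 g hg) X.t_mem) (inv_mem X.t_mem))
      (mul_mem (mul_mem (mul_mem hg.1 b.mem) (inv_mem hg.1)) (inv_mem b.mem)) with e | e
    · exact conj_eq_iff_commute.1 (mul_inv_eq_one.1 e)
    have m := mul_mem hg (kc _ (inv_mem hg) _ (cent_le_norm S b.mem))
    rw [← mul_assoc, ← mul_assoc] at m
    obtain ⟨n, hn, f⟩ := b.fuse _ m.1 e
    exact absurd (kc' _ n hn (f ▸ m)) s1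
  have s3 : ∀ u ∈ K, u * u = 1 → u = 1 := fun u hu e => by
    rcases X.inv_cases e with c | c | c
    · exact c
    · obtain ⟨n, hn, rfl⟩ := a.fuse u hu.1 c
      refine absurd (fun y c d => ?_) (big _ a.ld.nt)
      obtain ⟨m, hm, rfl⟩ := b.fuse y c d
      simpa [mul_assoc] using (Commute.conj_iff m).2 (s2 _ (kc _ (kc' _ n hn hu) _ (inv_mem hm)))
    · obtain ⟨n, hn, rfl⟩ := b.fuse u hu.1 c
      exact absurd (kc' _ n hn hu) s1
  let ψ := (MulAction.toPermHom 𝒩(S) (𝒩(S) ⧸ (𝒩(X.V)).subgroupOf 𝒩(S))).comp (inclusion (hI.2.1.trans (cent_le_norm S)))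
  have c5 : Nat.card (𝒩(S) ⧸ (𝒩(X.V)).subgroupOf 𝒩(S)) = 5 := by
    have := card_inf_mul_relIndex 𝒩(X.V) 𝒩(S)
    rw [inf_comm, cM, cN] at this
    change (𝒩(X.V)).relIndex 𝒩(S) = 5
    omega
  have cI : Nat.card I = 120 := by omega
  have inj : Function.Injective ψ := (injective_iff_map_eq_one _).2 fun g hg => by
    have m : g.1 ∈ K := ⟨hI.2.1 g.2, _, (normalCore_eq_ker _).ge hg, rfl⟩
    have d1 := cI ▸ orderOf_dvd_card_of_mem g.2
    have d2 := b.ld.card ▸ orderOf_dvd_card_of_mem (mem_inf.2 ⟨m.1, mem_cent_iff.2 (s2 _ m)⟩)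
    have d := orderOf_dvd_iff_pow_eq_one.1 ((Nat.dvd_gcd d1 d2).trans (by norm_num : _ ∣ 8))
    have e1 := s3 _ (pow_mem m 4) (by rwa [← pow_add])
    have e2 := s3 _ (pow_mem m 2) (by rwa [← pow_add])
    exact Subtype.ext (s3 _ m (by rwa [← pow_two]))
  exact ⟨(MulEquiv.ofBijective ψ ((Nat.bijective_iff_injective_and_card ψ).2 ⟨inj, by
    rw [Nat.card_perm, c5, cI]; rfl⟩)).trans (Equiv.permCongrHom (Finite.equivFinOfCardEq c5))⟩

variable (X) in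
include hF in
theorem s5573 {S : Subgroup G} (h : Nat.card S = 7) : ¬ 49 ∣ Nat.card G ∧
    (∃ I, IsInternalDirectProduct S I 𝒞(S) ∧ Nonempty (I ≃* Perm (Fin 5))) ∧
    Nat.card 𝒩(S) = 3 * Nat.card 𝒞(S) ∧ Nat.card 𝒩(S) = 2 ^ 3 * 3 ^ 2 * 5 * 7 := by
  obtain ⟨S0, a, I, b, ⟨e⟩⟩ := X.sym5
  refine ⟨X.not_49, ?_, by rw [card_N7 (X := X) h, card_C7 (X := X) h], card_N7 (X := X) h⟩
  obtain ⟨g, rfl⟩ := conj_of_card (by norm_num) a h X.not_49
  exact ⟨_, dprod_conj b g, ⟨((MulAut.conj g).subgroupMap I).symm.trans e⟩⟩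

end

end CA.J4.HM
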