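/-
The normaliser of a subgroup of order five.
-/
import Cfsg.Agent.J4o.Sev
import Cfsg.Agent.J4.Tri2
import Cfsg.Agent.TG.Four

set_option autoImplicit false
set_option maxRecDepth 100000
set_option linter.unusedSectionVars false

namespace CA.J4.HM

open CA.M24 CA.Fi CA.FG CA.J4o Cfsg Subgroup Equiv

noncomputable section

variable {G : Type*} [Group G] [Finite G] {X : HM G} [hF : Fact X.Fu]

/-- a non-split extension of an eight-group by `L₃(2)` -/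
def NS (J : Type*) [Group J] : Prop := ∃ (E : Subgroup J) (_ : E.Normal), IsElementaryAbelian 2 E ∧ Nat.card E = 8 ∧
  Nonempty (J ⧸ E ≃* SL3) ∧ ∀ K : Subgroup J, ¬ E.IsComplement' K

theorem NS.tr {J J' : Type*} [Group J] [Group J'] [Finite J] (e : J ≃* J') (h : NS J) : NS J' := by
  obtain ⟨E, n, a, b, ⟨c⟩, d⟩ := h
  have n' := n.map (e : J →* J') e.surjective
  have := a.1
  have k : Nat.card (E.map (e : J →* J')) = 8 := (card_map_of_injective e.injective).trans b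
  have c' := (QuotientGroup.congr E _ e rfl).symm.trans c
  refine ⟨E.map (e : J →* J'), n', ⟨map_isMulCommutative _ _, ?_⟩, k, ⟨c'⟩, fun K hK =>
    d (K.map (e.symm : J' →* J)) (isComplement'_of_card_mul_and_disjoint ?_ (disjoint_def.2 ?_))⟩
  · rintro _ ⟨x, hx, rfl⟩
    rw [← map_pow, a.2 x hx, map_one]
  · rw [card_map_of_injective e.symm.injective, Nat.card_congr e.toEquiv, ← hK.card_mul, k, b]
  · rintro _ x ⟨y, hy, rfl⟩
    rw [disjoint_def.1 hK.disjoint ⟨_, x, e.apply_symm_apply y⟩ hy, map_one]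

variable (X)

theorem lnH5 : ∃ s, X.RC s dH5.cf ∧ orderOf s = 5 ∧ LN X.z X.t (zpowers s) X.z X.z 48 960 7 36 3840 := by
  obtain ⟨f, r, e, -, -, -, -, h⟩ := ldH (X := X) dH5_chk
  rw [dH5_val.1, dH5_val.2.1, dH5_val.2.2.1, dH5_val.2.2.2] at h
  have o := r.rq.ord (p := 5) (by norm_num) e (by decide +kernel)
  exact ⟨f, r, o, LN.mk' (q := 22708224) (by norm_num) o r.zc h (by rw [X.card_H]) (by rw [X.card_H]; norm_num)⟩

theorem lnN5 : ∃ s, X.RN s 0 dN5.cf ∧ orderOf s = 5 ∧ LN X.z X.t (zpowers s) X.t X.t 3 80 3 8 320 := by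
  obtain ⟨f, r, e, -, h⟩ := ldN (X := X) dN5_chk
  rw [dN5_val.1, dN5_val.2.1, dN5_val.2.2.1, dN5_val.2.2.2] at h
  have o := r.ord (p := 5) (by norm_num) e (by decide +kernel)
  exact ⟨f, r, o, LN.mk' (q := 22708224) (by norm_num) o r.tc h (by rw [X.card_Ct]) (by rw [X.card_Ct]; norm_num)⟩

include hF in
theorem not_25 : ¬ 5 * 5 ∣ Nat.card G := by rw [X.card_G]; norm_num

variable {X}

theorem ln5 {S : Subgroup G} (h : Nat.card S = 5) : (∃ z', LN X.z X.t S X.z z' 48 960 7 36 3840) ∧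
    ∃ t', LN X.z X.t S X.t t' 3 80 3 8 320 := by
  obtain ⟨s, -, a, b⟩ := X.lnH5
  obtain ⟨s', -, a', b'⟩ := X.lnN5
  obtain ⟨g, e⟩ := conj_of_card (by norm_num) ((Nat.card_zpowers s).trans a) h X.not_25
  obtain ⟨g', e'⟩ := conj_of_card (by norm_num) ((Nat.card_zpowers s').trans a') h X.not_25
  exact ⟨⟨_, e ▸ b.conj g⟩, _, e' ▸ b'.conj g'⟩

include hF in
theorem card_N5 {S : Subgroup G} (h : Nat.card S = 5) : Nat.card 𝒩(S) = 26880 := by
  obtain ⟨⟨_, a⟩, _, b⟩ := ln5 (X := X) h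
  exact ln_card a b

include hF in
theorem card_C5 {S : Subgroup G} (h : Nat.card S = 5) : Nat.card 𝒞(S) = 6720 := by
  obtain ⟨⟨_, a⟩, -⟩ := ln5 (X := X) h
  have c := card_mul_relIndex (cent_le_norm S)
  have d := Nat.le_of_dvd (by norm_num) (relIndex_cent_dvd_pred (by norm_num) h (le_refl 𝒩(S)))
  have e := a.le_rel
  rw [card_N5 (X := X) h, show (𝒞(S)).relIndex 𝒩(S) = 4 by omega] at c
  omega

theorem perm5 : ∀ a b : Perm (Fin 5), a ^ 5 = 1 → a * b = b * a → a = 1 ∨ b ^ 5 = 1 := by decide +kernel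

variable (X) in
include hF in
theorem ns5 : ∃ S : Subgroup G, Nat.card S = 5 ∧ ∃ J, IsInternalDirectProduct S J 𝒞(S) ∧ NS J := by
  obtain ⟨S, h, -, hM⟩ := X.syl_N (.inl rfl)
  have cN := card_N5 (X := X) h
  replace hM := hM cN.le
  obtain ⟨J, hJ, cJ⟩ := exists_dprod (by norm_num) h X.not_25
  rw [card_C5 (X := X) h] at cJ
  replace cJ : Nat.card J = 1344 := by omega
  refine ⟨S, h, J, hJ, ?_⟩
  obtain ⟨c, φ, h1, h2, h3⟩ := X.exists_φ
  have SM := le_normalizer.trans hM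
  have JM := hJ.2.1.trans ((cent_le_norm S).trans hM)
  have p5 : ∀ x ∈ S, x ^ 5 = 1 := fun x hx => congrArg Subtype.val (h ▸ pow_card_eq_one' (x := (⟨x, hx⟩ : S)))
  have f5 : ∀ x (hx : x ∈ S), φ ⟨x, SM hx⟩ ^ 5 = 1 := fun x hx => by
    rw [← map_pow, show (⟨x, SM hx⟩ : 𝒩(X.ZZ)) ^ 5 = 1 from Subtype.ext (p5 x hx), map_one]
  have ZC : X.ZZ ≤ 𝒞(S) := fun y hy => mem_cent_subgroup_iff.2 fun x hx =>
    (mem_cent_subgroup_iff.1 (h3 _ (snd_five (f5 x hx))) y hy).symm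
  have l2 : ∀ x ∈ S, x ∈ X.LL → x = 1 := fun x a b => by simpa using pow_gcd_eq_one.2 ⟨p5 x a, X.LL_four b⟩
  have c1 := (card_subgroupOf SM).trans h
  have c2 := card_map_mul_card_inf_ker (S.subgroupOf _) φ
  rw [c1, show φ.ker ⊓ S.subgroupOf _ = ⊥ from eq_bot_iff.2 fun x hx => Subtype.ext (l2 _ hx.2 (h2.le hx.1)), card_bot,
    mul_one] at c2
  have c4 := card_norm_ge h1 Nat.prime_five (sylow_of_sq Nat.prime_five c1 le_top fun e => X.not_25
    (e.trans (by rw [card_top]; exact card_subgroup_dvd_card _)))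
  have c5 := norm_F53 (.inl rfl) c2
  rw [← subgroupOf_normalizer_eq SM, card_subgroupOf hM, cN] at c4
  have LZ : X.LL ⊓ 𝒞(S) ≤ X.ZZ := (eq_of_le_of_card_ge (le_inf X.ZZ_le_LL ZC) (by
    have := card_le_of_le (show (X.LL ⊓ 𝒞(S)).subgroupOf _ ≤ φ.ker ⊓ (𝒩(S)).subgroupOf _ from fun y hy =>
      ⟨h2.ge hy.1, cent_le_norm S hy.2⟩)
    rw [card_subgroupOf (inf_le_right.trans ((cent_le_norm S).trans hM))] at this
    rw [X.card_ZZ]
    simp only [if_true] at c5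
    nlinarith)).ge
  have z2 : ∀ y ∈ X.ZZ, y ^ 2 = 1 := fun y hy => (pow_two y).trans (X.V_sq (X.ZZ_le_V hy))
  have zc : IsMulCommutative X.ZZ := ⟨⟨fun a b => Subtype.ext (X.V_comm (X.ZZ_le_V a.2) (X.ZZ_le_V b.2))⟩⟩
  have ZJ : X.ZZ ≤ J := fun y hy => by
    obtain ⟨q, hq, j, hj, e⟩ := (mem_sup_of_left_le_norm (norm_of_cent fun q hq j hj => (hJ.2.2.1 q hq j hj).symm)).1
      (hJ.2.2.2.2.ge (ZC hy))
    have e1 := z2 y hy
    rw [← e, (show Commute q j from hJ.2.2.1 q hq j hj).mul_pow] at e1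
    have e2 := pow_gcd_eq_one.2 ⟨mem_bot.1 (hJ.2.2.2.1.le ⟨pow_mem hq _, eq_inv_of_mul_eq_one_left e1 ▸
      inv_mem (pow_mem hj _)⟩), p5 q hq⟩
    rwa [← e, show q = 1 by simpa using e2, one_mul]
  let ψ := (MonoidHom.snd _ _).comp (φ.comp (inclusion JM))
  have k : ψ.ker = X.ZZ.subgroupOf J := le_antisymm (fun j hj => by
    obtain ⟨x, hx, x1⟩ := (S.bot_or_exists_ne_one).resolve_left fun e => by rw [e, card_bot] at h; omega
    have e : φ ⟨x, SM hx⟩ * φ (inclusion JM j) = φ (inclusion JM j) * φ ⟨x, SM hx⟩ := by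
      rw [← map_mul, ← map_mul]; exact congrArg φ (Subtype.ext (hJ.2.2.1 x hx j j.2))
    rcases perm5 _ _ (Prod.ext_iff.1 (f5 x hx)).1 (Prod.ext_iff.1 e).1 with a | a
    · exact absurd (l2 x hx (h2.le (Prod.ext a (snd_five (f5 x hx)) : φ ⟨x, SM hx⟩ = 1))) x1
    have b : (φ (inclusion JM j)).1 ^ 1344 = 1 := by
      rw [← Prod.pow_fst, ← map_pow, ← map_pow, ← cJ, pow_card_eq_one', map_one, map_one]; rfl
    exact LZ ⟨h2.le (Prod.ext (by simpa using pow_gcd_eq_one.2 ⟨a, b⟩) hj : φ (inclusion JM j) = 1), hJ.2.1 j.2⟩)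
    fun j hj => congrArg Prod.snd (h2.ge (X.ZZ_le_LL hj) : φ (inclusion JM j) = 1)
  have c8 : Nat.card ψ.ker = 8 := by rw [k, card_subgroupOf ZJ, X.card_ZZ]
  have n := ψ.ker.card_mul_index
  rw [index_ker, c8, cJ] at n
  refine ⟨ψ.ker, inferInstance, ⟨⟨⟨fun a b => Subtype.ext (Subtype.ext (X.V_comm (X.ZZ_le_V (k.le a.2))
    (X.ZZ_le_V (k.le b.2))))⟩⟩, fun a b => Subtype.ext (z2 _ (k.le b))⟩, c8, ⟨QuotientGroup.quotientKerEquivOfSurjective ψ
      (MonoidHom.range_eq_top.1 (eq_top_of_card_eq _ (by rw [card_SL3]; omega)))⟩, fun K hK => ?_⟩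
  have cK := hK.card_mul
  rw [c8, cJ, ← card_map_of_injective (f := J.subtype) (subtype_injective _)] at cK
  obtain ⟨T, TK, cT⟩ := exists_le_card_eq_pow (H := K.map J.subtype) Nat.prime_two (k := 3) (by omega)
  have dj : ∀ y ∈ T, y ∈ X.ZZ → y = 1 := fun y a b => by
    obtain ⟨j, hj, rfl⟩ := TK a
    exact congrArg Subtype.val (disjoint_def.1 hK.disjoint (k.ge b) hj)
  have TJ := TK.trans (map_subtype_le _)
  obtain ⟨τ, t1, t2, t3, t4⟩ := BG.P04.exists_central_order_p Nat.prime_two (have := Fact.mk Nat.prime_two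
    IsPGroup.of_card cT) le_rfl le_normalizer fun e => by rw [e, card_bot] at cT; omega
  obtain ⟨⟨z', a⟩, t', b⟩ := ln5 (X := X) h
  have tC := hJ.2.1 (TJ t1)
  rcases X.inv_cases ((pow_two τ).symm.trans t3) with e | e | e
  · exact t2 e
  · have c7 := a.ncard
    have : (X.ZZ : Set G) \ {1} = {x | IsConj X.z x ∧ x ∈ 𝒞(S)} := Set.eq_of_subset_of_ncard_le (fun y hy =>
      ⟨(X.trans_ZZ hy.1 hy.2).elim fun c d => isConj_iff.2 ⟨c, d.2⟩, ZC hy.1⟩) (by
        rw [Set.ncard_diff_singleton_of_mem (one_mem _), show (X.ZZ : Set G).ncard = 8 from X.card_ZZ]; omega)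
    exact t2 (dj τ t1 (this.ge ⟨e, tC⟩).1)
  obtain ⟨n, hn, rfl⟩ := b.fuse τ tC e
  have c80 := (b.ld.conj n).card
  rw [conjg_eq_self_iff.2 (norm_cent le_rfl hn)] at c80
  generalize n * t' * n⁻¹ = τ at *
  have d1 := TG.Four.card_le_sq zc z2 (JM (TJ t1)) t3
  have d2 := card_dvd_of_le (inf_le_left : X.ZZ ⊓ 𝒞[τ] ≤ _)
  have TC : T ≤ 𝒞[τ] := fun y hy => mem_cent_iff.2 (mem_cent_subgroup_iff.1 t4 y hy).symm
  have d3 := card_dvd_of_le (show T ⊔ X.ZZ ⊓ 𝒞[τ] ≤ 𝒞(S) ⊓ 𝒞[τ] from sup_le (le_inf (TJ.trans hJ.2.1) TC)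
    (inf_le_inf_right _ ZC))
  rw [card_sup_of_inf_eq_bot (.inl (norm_inf (TJ.trans JM) (TC.trans le_normalizer)))
    (eq_bot_iff.2 fun y hy => dj y hy.1 hy.2.1), c80, cT] at d3
  rw [X.card_ZZ] at d1 d2
  have := Nat.le_of_dvd (by norm_num) d2
  generalize Nat.card ↥(X.ZZ ⊓ 𝒞[τ]) = m at *
  interval_cases m <;> omega

theorem frob20 {f r : G} (hf : orderOf f = 5) (r4 : r ^ 4 = 1) (e : r * f * r⁻¹ = f ^ 2) :
    ∃ R : Subgroup G, zpowers f ≤ R ∧ R ≤ 𝒩(zpowers f) ∧ Nat.card R = 20 ∧ R ⊓ 𝒞(zpowers f) = zpowers f := by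
  classical
  have n : zpowers r ≤ 𝒩(zpowers f) := zpowers_le.2 (mem_norm_of_forall (by
    rintro _ ⟨k, rfl⟩
    rw [← conj_zpow, e]; exact zpow_mem (pow_mem (mem_zpowers f) _) _))
  have a : ∀ i : ℕ, r ^ i * f * (r ^ i)⁻¹ = f ^ 2 ^ i := fun i => by
    induction i with
    | zero => simp
    | succ i ih => rw [pow_succ', mul_inv_rev, show r * r ^ i * f * ((r ^ i)⁻¹ * r⁻¹) = r * (r ^ i * f * (r ^ i)⁻¹) * r⁻¹ by
        group, ih, ← conj_pow, e, ← pow_mul, pow_succ']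
  have b : ∀ i < 4, Commute (r ^ i) f → i = 0 := fun i hi c => by
    have := (pow_eq_pow_iff_modEq.1 ((a i).symm.trans ((conj_eq_iff_commute.2 c).trans (pow_one f).symm)))
    rw [hf] at this
    unfold Nat.ModEq at this
    interval_cases i <;> simp_all
  have o : orderOf r = 4 := by
    have := Nat.le_of_dvd (by norm_num) (orderOf_dvd_of_pow_eq_one r4)
    by_contra c
    exact (orderOf_pos r).ne' (b _ (by omega) (by rw [pow_orderOf_eq_one]; exact Commute.one_left f))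
  have c : zpowers f ≤ 𝒞(zpowers f) := by
    rw [cent_zpowers]; exact zpowers_le.2 (mem_cent_iff.2 (Commute.refl f))
  refine ⟨zpowers f ⊔ zpowers r, le_sup_left, sup_le le_normalizer n, ?_, le_antisymm (fun x hx => ?_) (le_inf le_sup_left c)⟩
  · rw [card_sup_of_inf_eq_bot (.inr n) (inf_eq_bot_of_coprime ?_), Nat.card_zpowers, Nat.card_zpowers, hf, o]
    rw [Nat.card_zpowers, Nat.card_zpowers, hf, o]; norm_num
  obtain ⟨q, hq, y, hy, rfl⟩ := (mem_sup_of_right_le_norm n).1 hx.1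
  obtain ⟨i, hi, rfl⟩ := Finset.mem_image.1 ((mem_zpowers_iff_mem_range_orderOf).1 hy)
  have := (mul_mem_cancel_left (c hq)).1 hx.2
  rw [cent_zpowers, mem_cent_iff] at this
  rwa [b i (o ▸ Finset.mem_range.1 hi) this, pow_zero, mul_one]

variable (X) in
include hF in
theorem s5572 {S : Subgroup G} (h : Nat.card S = 5) : ¬ 25 ∣ Nat.card G ∧
    (∃ J, IsInternalDirectProduct S J 𝒞(S) ∧ NS J) ∧
    (∃ R : Subgroup G, S ≤ R ∧ R ≤ 𝒩(S) ∧ Nat.card R = 20 ∧ R ⊓ 𝒞(S) = S) ∧ Nat.card 𝒩(S) = 2 ^ 8 * 3 * 5 * 7 := by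
  refine ⟨X.not_25, ?_, ?_, card_N5 (X := X) h⟩
  · obtain ⟨S0, a, I, b, e⟩ := X.ns5
    obtain ⟨g, rfl⟩ := conj_of_card (by norm_num) a h X.not_25
    exact ⟨_, dprod_conj b g, e.tr ((MulAut.conj g).subgroupMap I)⟩
  obtain ⟨_, -, I, -, ⟨e⟩⟩ := X.sym5
  let ι := I.subtype.comp e.symm.toMonoidHom
  have o : orderOf (ι (finRotate 5)) = 5 := (orderOf_injective ι (Subtype.val_injective.comp e.symm.injective) _).trans
    (have := Fact.mk Nat.prime_five; orderOf_eq_prime (by decide) (by decide))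
  obtain ⟨R, a, b, c, d⟩ := frob20 (r := ι (swap 1 2 * swap 2 4 * swap 4 3)) o (by rw [← map_pow, ← map_one ι]; exact congrArg ι (by decide))
    (by rw [← map_pow, ← map_inv, ← map_mul, ← map_mul]; exact congrArg ι (by decide))
  obtain ⟨g, rfl⟩ := conj_of_card (by norm_num) ((Nat.card_zpowers _).trans o) h X.not_25
  exact ⟨R :^ g, conjg_mono g a, conjg_norm _ g ▸ conjg_mono g b, (card_conjg _ _).trans c, by
    rw [← conjg_cent, ← conjg_inf, d]⟩

end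

end CA.J4.HM

theorem CA.J4o.realizeEqnsFiv : True := by
  have := @CA.J4.HM.NS.eq_1.{0}
  have := @CA.J4.HM.NS.eq_def.{0}
  have := @CA.J4.HM.NS.congr_simp.{0}
  trivial
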