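/-
An involution isolated in the centraliser of an element of odd prime order.
-/
import Cfsg.Agent.J4o.Fiv

set_option autoImplicit false
set_option linter.unusedSectionVars false

namespace CA.J4o

open CA.Fi CA.FG CA.J4 Cfsg Subgroup

noncomputable section

variable {G : Type*} [Group G] [Finite G]

theorem comm_cyc {a b y z : G} (ha : a ∈ 𝒩(zpowers y)) (hb : b ∈ 𝒩(zpowers y)) (e : a * b = b * a * z) : Commute z y := by
  obtain ⟨i, c⟩ := conj_mem_of_mem_norm ha (mem_zpowers y)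
  obtain ⟨j, d⟩ := conj_mem_of_mem_norm hb (mem_zpowers y)
  have f : a * (b * y * b⁻¹) * a⁻¹ = b * (a * y * a⁻¹) * b⁻¹ := by
    rw [← c, ← d]
    simp only [← conj_zpow, ← c, ← d, ← zpow_mul, mul_comm]
  have g : z = (b * a)⁻¹ * (a * b) := by rw [e]; group
  rw [← conj_eq_iff_commute, g]
  calc _ = (b * a)⁻¹ * (a * (b * y * b⁻¹) * a⁻¹) * (b * a) := by group
    _ = y := by rw [f]; group

theorem inv_or {j x : G} {p : ℕ} (hp : p.Prime) (hx : orderOf x = p) (hj : j ∈ 𝒩(zpowers x)) (j2 : j * j = 1) :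
    Commute j x ∨ j * x * j⁻¹ = x⁻¹ := by
  have a := conj_mem_of_mem_norm hj (mem_zpowers x)
  by_cases e : x * (j * x * j⁻¹) = 1
  · exact .inr (eq_inv_of_mul_eq_one_right e)
  have b := eq_zpowers_of_card_prime (by rwa [Nat.card_zpowers, hx]) (mul_mem (mem_zpowers x) a) e
  refine .inl (mem_cent_iff.1 (cent_singleton_le_of_mem_zpowers (b ▸ mem_zpowers x) (mem_cent_iff.2
    (conj_eq_iff_commute.1 ?_))))
  obtain ⟨i, c⟩ := a
  rw [cjm, show j * (j * x * j⁻¹) * j⁻¹ = j * j * x * (j * j)⁻¹ by group, j2, one_mul, inv_one, mul_one, ← c]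
  exact ((Commute.refl x).zpow_left i).eq

theorem pdvd {P : Subgroup G} {q a m : ℕ} (hq : q.Prime) (hP : IsPGrp q P) (h : Nat.card P ∣ q ^ a * m) (hm : ¬ q ∣ m) :
    ∃ k ≤ a, Nat.card P = q ^ k :=
  (Nat.dvd_prime_pow hq).1 ((hP.coprime_of_not_dvd hm).dvd_of_dvd_mul_right h)

theorem prime_G {q : ℕ} (hq : q.Prime) (h : q ∣ 86775571046077562880) : q ∈ [2, 3, 5, 7, 11, 23, 29, 31, 37, 43] := by
  rw [show 86775571046077562880 = 2 ^ 21 * 3 ^ 3 * 5 * 7 * 11 ^ 3 * 23 * 29 * 31 * 37 * 43 by norm_num] at h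
  have k : ∀ {r}, r.Prime → (q ∣ r ↔ q = r) := Nat.prime_dvd_prime_iff_eq hq
  simp only [hq.dvd_mul, hq.prime.dvd_pow_iff_dvd (by norm_num : 21 ≠ 0), hq.prime.dvd_pow_iff_dvd (by norm_num : 3 ≠ 0),
    k Nat.prime_two, k Nat.prime_three, k Nat.prime_five, k (by norm_num : Nat.Prime 7), k (by norm_num : Nat.Prime 11),
    k (by norm_num : Nat.Prime 23), k (by norm_num : Nat.Prime 29), k (by norm_num : Nat.Prime 31),
    k (by norm_num : Nat.Prime 37), k (by norm_num : Nat.Prime 43)] at h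
  simp only [List.mem_cons, List.not_mem_nil, or_false]
  tauto

theorem le_zp {w : G} {p : ℕ} (hp : p.Prime) (hw : orderOf w = p) {D A : Subgroup G} (h : D ≤ A) (hA : A ≤ 𝒞[w])
    (wA : w ∈ A) (h2 : ¬ p * p ∣ Nat.card A) (hD : Nat.card D ∣ p) : D ≤ zpowers w :=
  (sylow_of_sq hp ((Nat.card_zpowers w).trans hw) (zpowers_le.2 wA) h2).le_of_normal (norm_zpowers_of_cent hA)
    ((piNat_singleton_self hp).of_dvd hD) h

theorem card_two {x w : G} {p : ℕ} (hp : p.Prime) (hx : orderOf x = p) (hw : orderOf w = p) (c : Commute x w)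
    (h : x ∉ zpowers w) {A : Subgroup G} (a : x ∈ A) (b : w ∈ A) : p * p ∣ Nat.card A := by
  have := BG.P04.card_sup_zpowers hp (norm_zpowers_of_cent le_rfl (mem_cent_iff.2 c)) h
    (by rw [← hx, pow_orderOf_eq_one]; exact one_mem _)
  rw [Nat.card_zpowers, hw] at this
  exact this ▸ card_dvd_of_le (sup_le (zpowers_le.2 b) (zpowers_le.2 a))

/-- `O` is the odd core of the centraliser of `w`, in which the involution `u` is isolated -/
structure OZ (p : ℕ) (w u : G) (O : Subgroup G) : Prop where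
  hp : p.Prime
  ow : orderOf w = p
  u2 : u * u = 1
  uw : Commute u w
  le : O ≤ 𝒞[w]
  odd : ¬ 2 ∣ Nat.card O
  norm : 𝒩(zpowers w) ≤ 𝒩(O)
  card : Nat.card O * Nat.card ↥(𝒞[w] ⊓ 𝒞[u]) = Nat.card 𝒞[w] * p
  fix : ∀ g ∈ O, Commute u g → g ∈ zpowers w
  mem : w ∈ O

theorem exists_OZ {p : ℕ} {w u : G} (hp : p.Prime) (p2 : p ≠ 2) (ow : orderOf w = p) (u2 : u * u = 1) (u1 : u ≠ 1)
    (uw : Commute u w) (iso : ∀ y, y * y = 1 → Commute y w → Commute u y → y = 1 ∨ y = u)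
    (hfix : ∀ O, O ⊲ 𝒞[w] → ¬ 2 ∣ Nat.card O → O ⊓ 𝒞[u] ≤ zpowers w) : ∃ O, OZ p w u O := by
  have := Fact.mk Nat.prime_two
  have a := Blk.Zstar_sup_of (H := 𝒞[w]) (orderOf_eq_prime ((pow_two u).trans u2) u1) (mem_cent_iff.2 uw) fun g hg e =>
    (iso _ (sq_of_conj u2 (isConj_iff.2 ⟨g, rfl⟩)) (mem_cent_iff.1 (mul_mem (mul_mem hg (mem_cent_iff.2 uw)) (inv_mem hg)))
      e).resolve_left (ne_of_conj u1 (isConj_iff.2 ⟨g, rfl⟩))
  have n := pcore_normal {2}ᶜ 𝒞[w]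
  have o := (piGrp_compl_singleton_iff Nat.prime_two).1 (pcore_piGrp {2}ᶜ 𝒞[w])
  have m : w ∈ pPrimeCoreOf 2 𝒞[w] := pcore_max ⟨zpowers_le.2 (mem_cent_singleton_self w), norm_zpowers_of_cent le_rfl⟩
    (by rw [IsPiGrp, Nat.card_zpowers, ow]; exact (piNat_prime_iff hp).2 p2) (mem_zpowers w)
  refine ⟨_, hp, ow, u2, uw, n.1, o, norm_pcore _ (cent_zpowers w ▸ norm_cent le_rfl), ?_,
    fun g hg e => hfix _ n o ⟨hg, mem_cent_iff.2 e.symm⟩, m⟩
  rw [← card_sup_mul_card_inf (.inr (inf_le_left.trans n.2)), a, ← inf_assoc, inf_of_le_left n.1,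
    le_antisymm (hfix _ n o) (zpowers_le.2 ⟨m, mem_cent_iff.2 uw.symm⟩), Nat.card_zpowers, ow]

namespace OZ

variable {p : ℕ} {w u : G} {O : Subgroup G} (h : OZ p w u O)
include h

theorem conj (g : G) : OZ p (g * w * g⁻¹) (g * u * g⁻¹) (O :^ g) where
  hp := h.hp
  ow := (orderOf_conj w g).trans h.ow
  u2 := by rw [← cjm, h.u2]; simp
  uw := (Commute.conj_iff g).2 h.uw
  le := conjg_cent1 w g ▸ conjg_mono g h.le
  odd := card_conjg O g ▸ h.odd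
  norm := by rw [← conjg_zpowers, ← conjg_norm, ← conjg_norm]; exact conjg_mono g h.norm
  card := by rw [← conjg_cent1, ← conjg_cent1, ← conjg_inf, card_conjg, card_conjg, card_conjg, h.card]
  fix x hx e := by
    obtain ⟨y, hy, rfl⟩ := mem_conjg'.1 hx
    exact (mem_zp_conj g).2 (h.fix y hy ((Commute.conj_iff g).1 e))
  mem := conj_mem_conjg g h.mem

theorem cn {g : G} (e : Commute g w) : g ∈ 𝒩(O) := h.norm (norm_zpowers_of_cent le_rfl (mem_cent_iff.2 e))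

theorem cen {g c : G} (hg : g ∈ O) (hc : c ∈ zpowers w) : Commute g c :=
  mem_cent_iff.1 (cent_singleton_le_of_mem_zpowers hc (h.le hg))

theorem zp {c : G} (hc : c ∈ zpowers w) : c ^ p = 1 := by
  rw [← h.ow, ← Nat.card_zpowers]; exact pow_card_eq_one_of_mem hc

theorem eq_one {g : G} (hg : g ∈ O) (e : g * g = 1) : g = 1 := by
  have := pow_gcd_eq_one.2 ⟨(pow_two g).trans e, pow_card_eq_one_of_mem hg⟩
  rwa [((Nat.Prime.coprime_iff_not_dvd Nat.prime_two).2 h.odd).gcd_eq_one, pow_one] at this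

theorem dec {g : G} (hg : g ∈ O) : ∃ k ∈ O, ∃ c ∈ zpowers w, u * k * u⁻¹ = k⁻¹ ∧ g = k * c := by
  obtain ⟨n, e⟩ : ∃ n, Nat.card O + 1 = n * 2 := ⟨(Nat.card O + 1) / 2, by have := h.odd; omega⟩
  have a := mul_mem hg (conj_mem_of_mem_norm (h.cn h.uw) (inv_mem hg))
  have ui := inv_eq_of_mul_eq_one_right h.u2
  have b : u * (g * (u * g⁻¹ * u⁻¹)) * u⁻¹ = (g * (u * g⁻¹ * u⁻¹))⁻¹ := by
    rw [cjm, show u * (u * g⁻¹ * u⁻¹) * u⁻¹ = u * u * g⁻¹ * (u * u)⁻¹ by group, h.u2]; group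
  have c : (g * (u * g⁻¹ * u⁻¹)) ^ n * (g * (u * g⁻¹ * u⁻¹)) ^ n = g * (u * g⁻¹ * u⁻¹) := by
    rw [← pow_two, ← pow_mul, ← e, pow_succ, pow_card_eq_one_of_mem a, one_mul]
  have d : u * (g * (u * g⁻¹ * u⁻¹)) ^ n * u⁻¹ = ((g * (u * g⁻¹ * u⁻¹)) ^ n)⁻¹ := by rw [← conj_pow, b, inv_pow]
  have m := pow_mem a n
  generalize (g * (u * g⁻¹ * u⁻¹)) ^ n = k at c d m
  refine ⟨k, m, k⁻¹ * g, h.fix _ (mul_mem (inv_mem m) hg) (conj_eq_iff_commute.1 ?_), d, by group⟩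
  rw [cjm, ← inv_inv (u * k⁻¹ * u⁻¹), show (u * k⁻¹ * u⁻¹)⁻¹ = u * k * u⁻¹ by group, d,
    show u * g * u⁻¹ = (g * (u * g⁻¹ * u⁻¹))⁻¹ * g by group, ← c]
  group

theorem inv' {g : G} (hg : g ∈ O) : ∃ c ∈ zpowers w, u * g * u⁻¹ = g⁻¹ * c := by
  obtain ⟨k, hk, c, hc, a, rfl⟩ := h.dec hg
  refine ⟨c * c, mul_mem hc hc, ?_⟩
  rw [cjm, a, conj_eq_iff_commute.2 (mem_cent_iff.1 (cent_singleton_le_of_mem_zpowers hc (mem_cent_iff.2 h.uw))),
    mul_inv_rev, ← (h.cen (inv_mem hk) (inv_mem hc)).eq]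
  group

theorem der {g k : G} (hg : g ∈ O) (hk : k ∈ O) : g * k * g⁻¹ * k⁻¹ ∈ zpowers w := by
  obtain ⟨c, hc, a⟩ := h.inv' (inv_mem hg)
  obtain ⟨d, hd, b⟩ := h.inv' (inv_mem hk)
  obtain ⟨e, he, f⟩ := h.inv' (mul_mem (inv_mem hg) (inv_mem hk))
  rw [cjm, a, b, mul_inv_rev, inv_inv, inv_inv, mul_assoc g, ← mul_assoc c, ← (h.cen hk hc).eq] at f
  have m := mul_mem he (inv_mem (mul_mem hc hd))
  rw [show g * k * g⁻¹ * k⁻¹ = g * (k * c * d) * (c * d)⁻¹ * (k * g)⁻¹ by group, f, mul_assoc (k * g),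
    (h.cen (mul_mem hk hg) m).eq, mul_inv_cancel_right]
  exact m

theorem cop {y : G} {q : ℕ} (hy : y ∈ O) (e : y ^ q = 1) (hq : q.Coprime p) :
    u * y * u⁻¹ = y⁻¹ ∧ ∀ g ∈ O, Commute g y := by
  have k : ∀ c ∈ zpowers w, ∀ a ∈ O, a ^ q = 1 → (a * c) ^ q = 1 → c = 1 := fun c hc a ha e f => by
    rw [(h.cen ha hc).mul_pow, e, one_mul] at f
    have := pow_gcd_eq_one.2 ⟨f, h.zp hc⟩
    rwa [hq.gcd_eq_one, pow_one] at this
  refine ⟨?_, fun g hg => conj_eq_iff_commute.1 (mul_inv_eq_one.1 (k _ (h.der hg hy) y hy e ?_))⟩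
  · obtain ⟨c, hc, a⟩ := h.inv' hy
    rw [a, k c hc _ (inv_mem hy) (by rw [inv_pow, e, inv_one]) (by rw [← a, conj_pow, e]; simp), mul_one]
  · rw [(h.cen hy (h.der hg hy)).eq, inv_mul_cancel_right, conj_pow, e]; simp

omit h in
/-- the elements inverted by the involution -/
def I (u : G) (hc : IsMulCommutative O) : Subgroup G where
  carrier := {y | y ∈ O ∧ u * y * u⁻¹ = y⁻¹}
  one_mem' := ⟨one_mem _, by simp⟩
  mul_mem' a b := ⟨mul_mem a.1 b.1, by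
    rw [cjm, a.2, b.2, ← mul_inv_rev, abelian_iff_forall.1 hc _ a.1 _ b.1]⟩
  inv_mem' a := ⟨inv_mem a.1, by rw [← conj_inv, a.2]⟩

theorem I_fix {y : G} (hy : y ∈ O) (a : u * y * u⁻¹ = y⁻¹) (b : Commute u y) : y = 1 :=
  h.eq_one hy (mul_eq_one_iff_eq_inv.2 ((conj_eq_iff_commute.2 b).symm.trans a))

theorem card_I (hc : IsMulCommutative O) : Nat.card (I u hc) * p = Nat.card O := by
  rw [← h.ow, ← Nat.card_zpowers, ← card_sup_of_inf_eq_bot (H := I u hc) (.inl ((show I u hc ≤ O from fun _ a => a.1).trans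
    (h.le.trans (norm_zpowers_of_cent le_rfl)))) (eq_bot_iff.2 fun y hy => h.I_fix hy.1.1 hy.1.2
      (mem_cent_iff.1 (cent_singleton_le_of_mem_zpowers hy.2 (mem_cent_iff.2 h.uw))))]
  rw [show I u hc ⊔ zpowers w = O from le_antisymm (sup_le (fun _ a => a.1) (zpowers_le.2 h.mem)) fun g hg => by
    obtain ⟨k, hk, c, hc, a, rfl⟩ := h.dec hg
    exact mul_mem_sup ⟨hk, a⟩ hc]

omit h in
theorem norm_I (hc : IsMulCommutative O) {g : G} (a : g ∈ 𝒩(O)) (b : Commute u g) : g ∈ 𝒩(I u hc) :=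
  mem_norm_of_forall fun y hy => ⟨conj_mem_of_mem_norm a hy.1, by
    rw [show u * (g * y * g⁻¹) * u⁻¹ = u * g * y * (u * g)⁻¹ by group, b.eq,
      show g * u * y * (g * u)⁻¹ = g * (u * y * u⁻¹) * g⁻¹ by group, hy.2]; group⟩

end OZ

end

end CA.J4o

theorem CA.J4o.realizeEqnsOZ : True := by
  have := @CA.J4o.OZ.I.eq_1.{0}
  have := @CA.J4o.OZ.I.eq_def.{0}
  have := @CA.J4o.OZ.I.congr_simp.{0}
  trivial
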