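/-
A presentation of `GL₂(3)`.
-/
import Cfsg.Agent.J4o.OZ

set_option autoImplicit false
set_option maxRecDepth 100000

namespace CA.J4o

open CA.Fi Matrix

variable {G : Type*} [Group G]

theorem hom_of_rules {H : Type*} [Group H] [Finite H] (s : ℕ → H) (g : ℕ → G) (k n : ℕ) (R : List (List ℕ × List ℕ))
    (NF : List (List ℕ)) (hs : ∀ r ∈ R, ev s r.1 = ev s r.2) (hg : ∀ r ∈ R, ev g r.1 = ev g r.2) (h0 : [] ∈ NF)
    (hk : ∀ w ∈ NF, ∀ i ∈ w, i < k) (cl : ∀ i < k, ∀ w ∈ NF, reduce R n (i :: w) ∈ NF) (nd : (NF.map (ev s)).Nodup)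
    (c : Nat.card H ≤ NF.length) : (∀ h, ∃ w ∈ NF, ev s w = h) ∧ ∃ φ : H →* G, ∀ i < k, φ (s i) = g i := by
  classical
  have := Fintype.ofFinite H
  have a : ∀ h, ∃ w ∈ NF, ev s w = h := fun h => List.mem_map.1 (List.mem_toFinset.1 ((Finset.eq_univ_of_card _
    (le_antisymm (Finset.card_le_univ _) (by
      rwa [List.toFinset_card_of_nodup nd, List.length_map, ← Nat.card_eq_fintype_card]))).ge (Finset.mem_univ h)))
  choose W m e using a
  have inj := List.inj_on_of_nodup_map nd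
  refine ⟨fun h => ⟨_, m h, e h⟩, exists_hom_of_words s g k W e (fun h => hk _ (m h)) (by rw [inj (m 1) h0 (e 1)]; rfl)
    fun i hi h => ?_⟩
  rw [inj (m _) (cl i hi _ (m h)) (by rw [e, ev_reduce hs, ev_cons, e]), ev_reduce hg, ev_cons]

abbrev GL23 : Type := GL (Fin 2) (ZMod 3)

def sG (i : ℕ) : GL23 := [⟨!![0, 1; 1, 0], !![0, 1; 1, 0], by decide, by decide⟩,
  ⟨!![2, 2; 1, 0], !![0, 1; 2, 2], by decide, by decide⟩, ⟨!![0, 2; 1, 0], !![0, 1; 2, 0], by decide, by decide⟩,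
  ⟨!![2, 2; 2, 1], !![1, 1; 1, 2], by decide, by decide⟩, -1].getD i 1

def rG : List (List ℕ × List ℕ) := [([0, 0], []), ([1, 1, 1], []), ([2, 2], [4]), ([3, 3], [4]), ([4, 4], []),
  ([1, 0], [0, 1, 1]), ([2, 0], [0, 2, 4]), ([3, 0], [0, 2, 3]), ([4, 0], [0, 4]), ([2, 1], [1, 3]), ([3, 1], [1, 2, 3, 4]),
  ([4, 1], [1, 4]), ([3, 2], [2, 3, 4]), ([4, 2], [2, 4]), ([4, 3], [3, 4])]

def nG : List (List ℕ) := [[], [0]].flatMap fun a => [[], [1], [1, 1]].flatMap fun b => [[], [2]].flatMap fun c =>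
  [[], [3]].flatMap fun d => [[], [4]].map fun e => a ++ b ++ c ++ d ++ e

theorem gl23 {g : ℕ → G} (hg : ∀ r ∈ rG, ev g r.1 = ev g r.2) (h : g 4 ≠ 1) {N : Subgroup G} (hN : ∀ i < 5, g i ∈ N) :
    ∃ K ≤ N, Nonempty (K ≃* GL23) := by
  obtain ⟨a, φ, b⟩ := hom_of_rules sG g 5 20 rG nG (by decide +kernel) hg (by decide +kernel) (by decide +kernel)
    (by decide +kernel) (by decide +kernel) (by rw [card_GL_field]; decide +kernel)
  refine ⟨φ.range, ?_, ⟨(MonoidHom.ofInjective ((injective_iff_map_eq_one φ).2 fun x e => ?_)).symm⟩⟩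
  · rintro _ ⟨x, rfl⟩
    obtain ⟨w, c, rfl⟩ := a x
    have := (by decide +kernel : ∀ w ∈ nG, ∀ i ∈ w, i < 5) w c
    clear c
    induction w with
    | nil => simp
    | cons i w ih =>
      rw [ev_cons, map_mul, b i (this i (by simp))]
      exact mul_mem (hN i (this i (by simp))) (ih fun j hj => this j (by simp [hj]))
  obtain ⟨w, c, rfl⟩ := a x
  refine ((by decide +kernel : ∀ w ∈ nG, ev sG w = 1 ∨ ∃ i < 5, ∃ k < 3,
    ev sG w * (sG i * ev sG w * (sG i)⁻¹) ^ k = sG 4 ∨ ((ev sG w)⁻¹ * (sG i * ev sG w * (sG i)⁻¹)) ^ k = sG 4) w c).resolve_right ?_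
  rintro ⟨i, -, k, -, d | d⟩ <;> exact h (by rw [← b 4 (by norm_num), ← d]; simp [e])

end CA.J4o

theorem CA.J4o.realizeEqnsGL23 : True := by
  have := @CA.J4o.nG.eq_1
  have := @CA.J4o.nG.eq_def
  have := @CA.J4o.nG.congr_simp
  have := @CA.J4o.GL23.eq_1
  have := @CA.J4o.GL23.eq_def
  have := @CA.J4o.GL23.congr_simp
  have := @CA.J4o.rG.eq_1
  have := @CA.J4o.rG.eq_def
  have := @CA.J4o.rG.congr_simp
  have := @CA.J4o.sG.eq_1
  have := @CA.J4o.sG.eq_def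
  have := @CA.J4o.sG.congr_simp
  trivial
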