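/-
The centralisers of the elements of order eleven.
-/
import Cfsg.Agent.J4o.OZ

set_option autoImplicit false
set_option maxRecDepth 100000
set_option linter.unusedSectionVars false

namespace CA.J4.HM

open CA.M24 CA.Fi CA.FG CA.J4o Cfsg Subgroup Equiv

noncomputable section

variable {G : Type*} [Group G] [Finite G] {X : HM G} [hF : Fact X.Fu]

theorem p11 : Nat.Prime 11 := by norm_num

theorem uq_of {u f : G} {i j : ℕ} (h : LD X.z X.t 𝒞(zpowers f) u i j 1 0 ∧ u = X.z ∨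
    LD X.z X.t 𝒞(zpowers f) u i j 0 1 ∧ u = X.t) (c : Commute u f) {y : G} (e : y * y = 1)
    (a : Commute y f) (b : Commute u y) : y = 1 ∨ y = u := by
  rw [cent_zpowers] at h
  have k : ∀ v, {x | (IsConj v x ∧ x ∈ 𝒞[f]) ∧ Commute u x}.ncard = 0 → ¬ IsConj v y := fun v e d =>
    ((Set.ncard_eq_zero (Set.toFinite _)).1 e).le ⟨⟨d, mem_cent_iff.2 a⟩, b⟩
  have l : {x | (IsConj u x ∧ x ∈ 𝒞[f]) ∧ Commute u x}.ncard = 1 → IsConj u y → y = u := fun e d => by
    obtain ⟨_, e⟩ := Set.ncard_eq_one.1 e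
    exact (e.le ⟨⟨d, mem_cent_iff.2 a⟩, b⟩).trans (e.le ⟨⟨IsConj.refl u, mem_cent_iff.2 c⟩, Commute.refl u⟩).symm
  refine (X.inv_cases e).imp_right fun d => ?_
  rcases h with ⟨h, rfl⟩ | ⟨h, rfl⟩
  · exact l h.nz (d.resolve_right (k _ h.nt))
  · exact l h.nt (d.resolve_left (k _ h.nz))

variable (X)

theorem lnH11 : ∃ s, X.RC s cA ∧ orderOf s = 11 ∧ LN X.z X.t (zpowers s) X.z X.z 0 264 1 0 2640 := by
  obtain ⟨f, r, e, -, -, -, -, h⟩ := ldH (X := X) dH11_chk
  rw [dH11_val.1, dH11_val.2.1, dH11_val.2.2.1, dH11_val.2.2.2] at h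
  have o := r.rq.ord (p := 11) p11 e (by decide +kernel)
  exact ⟨f, r, o, LN.mk' (q := 82575360) p11 o r.zc h (by rw [X.card_H]) (by rw [X.card_H]; norm_num)⟩

theorem lnN11 : ∃ s, X.RN s 0 dN11.cf ∧ orderOf s = 11 ∧ LN X.z X.t (zpowers s) X.t X.t 0 22 0 1 220 := by
  obtain ⟨f, r, e, -, h⟩ := ldN (X := X) dN11_chk
  rw [dN11_val.1, dN11_val.2.1, dN11_val.2.2.1, dN11_val.2.2.2] at h
  have o := r.ord (p := 11) p11 e (by decide +kernel)
  exact ⟨f, r, o, LN.mk' (q := 82575360) p11 o r.tc h (by rw [X.card_Ct]) (by rw [X.card_Ct]; norm_num)⟩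

include hF in
theorem dvd_G (A : Subgroup G) : Nat.card A ∣ 86775571046077562880 := X.card_G ▸ card_subgroup_dvd_card A

/-- the centre of a Sylow 11-subgroup -/
structure W11 (w u : G) (U : Subgroup G) : Prop where
  oz : OZ 11 w u U
  cj : IsConj X.z u
  card : Nat.card U = 1331
  cC : Nat.card 𝒞[w] = 31944
  cN : Nat.card 𝒩(zpowers w) = 319440

variable {X}

theorem W11.conj {w u : G} {U : Subgroup G} (h : X.W11 w u U) (g : G) : X.W11 (g * w * g⁻¹) (g * u * g⁻¹) (U :^ g) :=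
  ⟨h.oz.conj g, (conj_conj g).2 h.cj, (card_conjg U g).trans h.card, by rw [← conjg_cent1, card_conjg, h.cC], by
    rw [← conjg_zpowers, ← conjg_norm, card_conjg, h.cN]⟩

theorem W11.syl {w u : G} {U : Subgroup G} (h : X.W11 w u U) : IsSylowOf 11 U ⊤ :=
  sylow_mk le_top (pGrp_of_card_eq_pow (k := 3) p11 h.card) (by
    have := card_mul_relIndex (le_top (a := U))
    rw [h.card, card_top, X.card_G] at this
    omega)

include hF in
theorem three {y : G} (h : orderOf y = 3) : ∃ u, IsConj X.z u ∧ 𝒩(zpowers y) ≤ 𝒞[u] := by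
  obtain ⟨g, rfl⟩ := isConj_iff.1 (X.conj_ρ h)
  exact ⟨_, isConj_iff.2 ⟨g, rfl⟩, by rw [← conjg_zpowers, ← conjg_norm, ← conjg_cent1]; exact conjg_mono g X.norm_ρ⟩

theorem card_Cz {u : G} (h : IsConj X.z u) : Nat.card 𝒞[u] = 21799895040 := by
  obtain ⟨g, rfl⟩ := isConj_iff.1 h
  rw [← conjg_cent1, card_conjg, X.card_H]

theorem card_Ct' {u : G} (h : IsConj X.t u) : Nat.card 𝒞[u] = 1816657920 := by
  obtain ⟨g, rfl⟩ := isConj_iff.1 h
  rw [← conjg_cent1, card_conjg, X.card_Ct]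

include hF in
theorem card_Cinv {u : G} (h : u * u = 1) (h1 : u ≠ 1) : Nat.card 𝒞[u] ∣ 21799895040 := by
  rcases (X.inv_cases h).resolve_left h1 with a | a
  · rw [card_Cz a]
  · rw [card_Ct' a]; norm_num

include hF in
theorem card_C3 {y : G} (h : orderOf y = 3) : Nat.card 𝒞[y] ∣ 21799895040 := by
  obtain ⟨u, a, b⟩ := three (X := X) h
  exact card_Cz a ▸ card_dvd_of_le ((norm_zpowers_of_cent le_rfl).trans b)

variable (X) in
theorem exists_W11 : ∃ w U, X.RC w cA ∧ X.W11 w X.z U := by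
  obtain ⟨w, r, o, b⟩ := X.lnH11
  have uq := fun y => uq_of (y := y) (.inl ⟨b.ld, rfl⟩) r.zc
  have c264 := cent_zpowers w ▸ b.ld.card
  have ws : ∀ v ∈ [1024, 2048], Commute (X.s v) w := fun v hv => by
    have := (by decide +kernel : ∀ v ∈ [1024, 2048], v < 4096 ∧ ap (fs cA) v = v ∧ (sg (sn cA) * qq v + bb 0 v) % 2 = 0) v hv
    simpa using (r.rq.commute_s this.1 this.2.1 this.2.2 0).symm
  have wa := ws 1024 (by simp)
  have wb := ws 2048 (by simp)
  have ab := X.s_comm (v := 1024) (w := 2048) (by norm_num) (by norm_num)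
  rw [show bb 1024 2048 = 1 by decide +kernel, pow_one] at ab
  obtain ⟨U, h⟩ := exists_OZ p11 (by norm_num) o X.z_sq X.z_ne r.zc uq fun O n e => by
    have wρ := mem_cent_singleton_comm.1 (r.mem_C0 (by decide +kernel)).2
    have zρ := mem_cent_iff.2 X.zρ.symm
    have a := BG.P04.card_sup_zpowers (M := O ⊓ 𝒞[X.z]) Nat.prime_three (norm_inf (zpowers_le.2 (n.2 wρ))
      (zpowers_le.2 (le_normalizer zρ)) (mem_zpowers _)) (fun c => ?_) (X.ρ_cube ▸ one_mem _)
    · have d := c264 ▸ a ▸ card_dvd_of_le (sup_le (inf_le_inf_right _ n.1) (zpowers_le.2 ⟨wρ, zρ⟩))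
      refine le_zp p11 o (inf_le_inf_right _ n.1) inf_le_left ⟨mem_cent_singleton_self w, mem_cent_iff.2 r.zc.symm⟩
        (by rw [c264]; norm_num) (Nat.Coprime.dvd_of_dvd_mul_right (n := 2 ^ 3) (Nat.Coprime.pow_right _
          ((Nat.Prime.coprime_iff_not_dvd Nat.prime_two).2 fun f => e (f.trans (card_dvd_of_le inf_le_left))).symm)
            (Nat.dvd_of_mul_dvd_mul_right (by norm_num : 0 < 3) d))
    have m := X.s_mem (v := 1024) (by norm_num)
    have := (IsPiGrp.inf_eq_bot (pGrp_of_card_eq_pow (k := 13) Nat.prime_two X.card_EE)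
      ((piGrp_compl_singleton_iff Nat.prime_two).2 e)).le ⟨X.EE.mul_mem (X.conj_EE X.zρ m) (X.EE.inv_mem m), show _ ∈ O by
        rw [mul_assoc, mul_assoc, ← mul_assoc (X.s _)]
        exact O.mul_mem c.1 (conj_mem_of_mem_norm (n.2 (mem_cent_iff.2 wa)) (O.inv_mem c.1))⟩
    exact absurd (X.s_inj _ (by norm_num) (eq_z_of_EE m (conj_eq_iff_commute.1 (mul_inv_eq_one.1 this)).symm)) (by norm_num)
  have cyc : ∀ y ∈ U, X.z * y * X.z⁻¹ = y⁻¹ → X.s 1024 ∈ 𝒩(zpowers y) → X.s 2048 ∈ 𝒩(zpowers y) → y = 1 :=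
    fun y a b c d => h.I_fix a b (comm_cyc c d ab)
  have pU : IsPGrp 11 U := fun q hq d => by_contra fun e => by
    obtain ⟨y, hy, f⟩ := exists_mem_orderOf_eq hq d
    obtain ⟨i, c⟩ := h.cop hy (f ▸ pow_orderOf_eq_one y) ((Nat.coprime_primes hq p11).2 e)
    have y1 : y ≠ 1 := fun a => hq.one_lt.ne (by rw [← f, a, orderOf_one])
    by_cases q3 : q = 3
    · obtain ⟨u, a, n⟩ := three (X := X) (f.trans q3)
      have := (uq u (sq_of_conj X.z_sq a) (mem_cent_iff.1 (n (norm_zpowers_of_cent le_rfl (mem_cent_iff.2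
        (c w h.mem))))).symm (mem_cent_iff.1 (n (mem_norm_of_forall (by
          rintro _ ⟨k, rfl⟩
          rw [← conj_zpow, i]; exact zpow_mem (inv_mem (mem_zpowers y)) k))))).resolve_left (ne_of_conj X.z_ne a)
      exact y1 (h.I_fix hy i (mem_cent_iff.1 (this ▸ n (le_normalizer (mem_zpowers y)))).symm)
    have n := (sylow_of_sq hq ((Nat.card_zpowers y).trans f) (zpowers_le.2 hy) fun a => (by decide +kernel :
      ∀ q ∈ [2, 3, 5, 7, 11, 23, 29, 31, 37, 43], q ≠ 2 → q ≠ 3 → q ≠ 11 → ¬ q * q ∣ 86775571046077562880) q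
        (prime_G hq (d.trans (X.dvd_G U))) (fun a => h.odd (a ▸ d)) q3 e (a.trans (X.dvd_G U))).norm_le_norm
          (norm_zpowers_of_cent fun g hg => mem_cent_iff.2 (c g hg))
    exact y1 (cyc y hy i (n (h.cn wa)) (n (h.cn wb)))
  have c1 := h.card
  have c2 := card_mul_relIndex (cent_le_norm (zpowers w))
  have c3 := Nat.le_of_dvd (by norm_num) (relIndex_cent_dvd_pred p11 ((Nat.card_zpowers w).trans o) (le_refl 𝒩(zpowers w)))
  have c4 := b.le_rel
  rw [show (𝒞(zpowers w)).relIndex 𝒩(zpowers w) = 10 by omega, cent_zpowers] at c2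
  rw [c264] at c1
  obtain ⟨k, hk, e⟩ := pdvd (a := 3) (m := 65195770883604480) p11 pU (X.dvd_G U) (by norm_num)
  have c5 := o ▸ orderOf_dvd_card_of_mem h.mem
  suffices Nat.card U = 1331 from ⟨w, U, r, h, IsConj.refl _, this, by omega, by omega⟩
  interval_cases k
  · omega
  · have := (sylow_of_sylow_norm p11 le_top (sylow_of_sq p11 ((Nat.card_zpowers w).trans o) (le_inf le_top le_normalizer)
      (by rw [top_inf_eq]; omega))).not_dvd_index p11
    have d := card_mul_relIndex (le_top (a := zpowers w))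
    rw [card_top, X.card_G, Nat.card_zpowers, o] at d
    omega
  · have ab := abelian_of_card_le_sq p11 pU e.le
    have c := h.card_I ab
    have pI : (Nat.card (OZ.I X.z ab)).Prime := by rw [show Nat.card (OZ.I X.z ab) = 11 by omega]; exact p11
    obtain ⟨y, hy, y1⟩ := exists_mem_ne_one (ne_bot_of_card_prime pI)
    exact absurd (cyc y hy.1 hy.2 (eq_zpowers_of_card_prime pI hy y1 ▸ OZ.norm_I ab (h.cn wa) (X.zs _))
      (eq_zpowers_of_card_prime pI hy y1 ▸ OZ.norm_I ab (h.cn wb) (X.zs _))) y1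
  · exact e

variable (X) in
/-- an element of order eleven centralised by an involution of the second class -/
structure X11 (x : G) (O : Subgroup G) : Prop where
  oz : OZ 11 x X.t O
  uq : ∀ y, y * y = 1 → Commute y x → Commute X.t y → y = 1 ∨ y = X.t
  c22 : Nat.card ↥(𝒞[x] ⊓ 𝒞[X.t]) = 22
  n220 : Nat.card ↥(𝒩(zpowers x) ⊓ 𝒞[X.t]) = 220
  rn : X.RN x 0 dN11.cf

variable (X) in
theorem exists_X11 : ∃ x O, X.X11 x O := by
  obtain ⟨x, r, o, b⟩ := X.lnN11
  have uq := fun y => uq_of (y := y) (.inr ⟨b.ld, rfl⟩) r.tc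
  have c := cent_zpowers x ▸ b.ld.card
  obtain ⟨O, h⟩ := exists_OZ p11 (by norm_num) o X.t_sq X.t_ne r.tc uq fun O n e =>
    le_zp p11 o (inf_le_inf_right _ n.1) inf_le_left ⟨mem_cent_singleton_self x, mem_cent_iff.2 r.tc.symm⟩
      (by rw [c]; norm_num) (Nat.Coprime.dvd_of_dvd_mul_right (n := 2) ((Nat.Prime.coprime_iff_not_dvd Nat.prime_two).2
        fun f => e (f.trans (card_dvd_of_le inf_le_left))).symm (c ▸ card_dvd_of_le (inf_le_inf_right _ n.1) : _ ∣ 22))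
  exact ⟨x, O, h, uq, c, b.norm, r⟩

namespace X11

variable {x : G} {O : Subgroup G} (h : X.X11 x O)
include h

theorem card : Nat.card 𝒞[x] = 2 * Nat.card O := by
  have := h.oz.card
  rw [h.c22] at this
  omega

theorem mem {y : G} (c : Commute y x) (e : ¬ 2 ∣ orderOf y) : y ∈ O := by
  have a := card_mul_relIndex h.oz.le
  rw [h.card, mul_comm 2] at a
  exact mem_of_coprime_relIndex (mem_cent_iff.2 c) (fun g hg => h.oz.cn (mem_cent_iff.1 hg))
    (by rw [Nat.eq_of_mul_eq_mul_left Nat.card_pos a]; exact ((Nat.Prime.coprime_iff_not_dvd Nat.prime_two).2 e).symm)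

theorem cls {y : G} (e : y * y = 1) (y1 : y ≠ 1) (c : Commute y x) : ∃ g, Commute g x ∧ g * X.t * g⁻¹ = y := by
  have := Fact.mk Nat.prime_two
  have k : ∀ u : G, u * u = 1 → u ≠ 1 → Commute u x → IsSylowOf 2 (zpowers u) 𝒞[x] := fun u a b c =>
    sylow_of_sq Nat.prime_two ((Nat.card_zpowers u).trans (orderOf_eq_prime ((pow_two u).trans a) b))
      (zpowers_le.2 (mem_cent_iff.2 c)) (by have := h.oz.odd; rw [h.card]; omega)
  obtain ⟨g, hg, a⟩ := sylow_trans Nat.prime_two (k _ X.t_sq X.t_ne h.oz.uw) (k y e y1 c)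
  rw [conjg_zpowers] at a
  have b : IsConj X.t (g * X.t * g⁻¹) := isConj_iff.2 ⟨g, rfl⟩
  exact ⟨g, mem_cent_iff.1 hg, inv_unique (mem_zpowers _) (a ▸ mem_zpowers y) (sq_of_conj X.t_sq b) (ne_of_conj X.t_ne b) e y1⟩

theorem nw {w u : G} {U : Subgroup G} (k : X.W11 w u U) : x ∉ zpowers w := fun e => by
  obtain ⟨g, -, a⟩ := h.cls k.oz.u2 (ne_of_conj X.z_ne k.cj) (mem_cent_iff.1 (cent_singleton_le_of_mem_zpowers e
    (mem_cent_iff.2 k.oz.uw)))
  exact not_both k.cj (isConj_iff.2 ⟨g, a⟩)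

theorem exw : ∃ w u U, X.W11 w u U ∧ x ∈ U ∧ w ∈ O := by
  obtain ⟨w, U, -, k⟩ := X.exists_W11
  obtain ⟨g, -, a⟩ := sylow_subJ p11 k.syl (pGrp_of_card_eq p11 ((Nat.card_zpowers x).trans h.oz.ow)) le_top
  have k := k.conj g
  exact ⟨_, _, _, k, a (mem_zpowers x), h.mem (mem_cent_iff.1 (k.oz.le (a (mem_zpowers x)))).symm (by rw [k.oz.ow]; norm_num)⟩

theorem pO : IsPGrp 11 O := fun q hq d => by_contra fun e => by
  obtain ⟨w, u, U, k, a, b⟩ := h.exw
  obtain ⟨y, hy, f⟩ := exists_mem_orderOf_eq hq d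
  have c := (h.oz.cop hy (f ▸ pow_orderOf_eq_one y) ((Nat.coprime_primes hq p11).2 e)).2
  have i := k.cC ▸ f ▸ orderOf_dvd_card_of_mem (mem_cent_iff.2 (c w b).symm)
  have q3 : q = 3 := (by decide +kernel : ∀ q ∈ [2, 3, 5, 7, 11, 23, 29, 31, 37, 43], q ≠ 2 → q ≠ 11 → q ∣ 31944 → q = 3) q
    (prime_G hq (d.trans (X.dvd_G O))) (fun a => h.oz.odd (a ▸ d)) e i
  exact absurd ((card_two p11 h.oz.ow k.oz.ow (mem_cent_iff.1 (k.oz.le a)) (h.nw k) (mem_cent_iff.2 (c x h.oz.mem))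
    (mem_cent_iff.2 (c w b))).trans (card_C3 (X := X) (f.trans q3))) (by norm_num)

theorem cases : Nat.card O = 121 ∨ Nat.card O = 1331 ∧ IsMulCommutative O := by
  obtain ⟨w, u, U, k, a, b⟩ := h.exw
  obtain ⟨n, hn, e⟩ := pdvd (a := 3) (m := 65195770883604480) p11 h.pO (X.dvd_G O) (by norm_num)
  have c := card_two p11 h.oz.ow k.oz.ow (mem_cent_iff.1 (k.oz.le a)) (h.nw k) h.oz.mem b
  interval_cases n
  · omega
  · omega
  · exact .inl e
  obtain ⟨g, -, d⟩ := sylow_trans p11 k.syl (k.syl.of_card_eq le_top (e.trans k.card.symm))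
  have k := d ▸ k.conj g
  refine .inr ⟨e, abelian_iff_forall.2 fun y hy v hv => ?_⟩
  have := ((inf_eq_bot_or_le_of_card_prime (by rw [Nat.card_zpowers, h.oz.ow]; exact p11) _).resolve_right
    fun f => h.nw k (f (mem_zpowers x))).le ⟨h.oz.der hy hv, k.oz.der hy hv⟩
  rwa [mem_bot, mul_assoc, ← mul_inv_rev, mul_inv_eq_one] at this

end X11

end

end CA.J4.HM
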