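/-
Two elementary abelian groups of order `2 ^ 11` normalised by an element of order eleven.
-/
import Cfsg.Agent.J4o.Elv

set_option autoImplicit false
set_option maxRecDepth 100000
set_option linter.unusedSectionVars false

namespace CA.J4.HM

open CA.M24 CA.Fi CA.FG CA.J4o Cfsg Subgroup Equiv

noncomputable section

variable {G : Type*} [Group G] [Finite G] {X : HM G} [hF : Fact X.Fu]

theorem no1024' {R : Subgroup G} (h : R ≤ 𝒩(X.V)) (h0 : R ⊓ X.V = ⊥) (c : Nat.card R = 1024) (e : ∀ r ∈ R, r * r = 1) :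
    False := by
  have a := card_sup_of_inf_eq_bot (.inl h) h0
  rw [c, X.card_V] at a
  have b := card_mul_relIndex (sup_le h le_normalizer)
  rw [a, X.card_M] at b
  have m := ct_in.mono (M22_le_DD.trans DD_le)
  have m2 := perm_rel m m rfl
  have k := X.th_K ⟨_, m.perm_mem⟩
  obtain ⟨n, hn, d⟩ := sylow_subJ Nat.prime_two (sylow_mk (sup_le h le_normalizer) (pGrp_of_card_eq_pow (k := 21)
    Nat.prime_two a) (by omega)) (piGrp_zpowers_iff.2 ((pElt_iff Nat.prime_two).2 ⟨2, by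
      rw [← map_pow, ← map_one X.K]
      refine congrArg _ (Subtype.ext (code_inj ?_))
      change code (perm ct ^ (2 * 2)) = code 1
      rw [pow_mul, pow_two, pow_two, ← pmul_code, ← pmul_code, m.code_perm, code_one]
      decide +kernel⟩)) (zpowers_le.2 k.mem)
  obtain ⟨r, hr, v, hv, f⟩ := (mem_sup_of_left_le_norm h).1 (mem_conjg.1 (d (mem_zpowers _)))
  have := conj_mem_of_mem_norm hn (mul_mem (conj_mem_of_mem_norm' (h hr) hv) hv)
  rw [inv_eq_of_mul_eq_one_right (e r hr), mul_assoc (r * v), f, ← mul_assoc, ← mul_assoc, ← mul_assoc, ← mul_assoc,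
    ← mul_assoc, mul_inv_cancel, one_mul, mul_inv_cancel_right, mul_inv_cancel_right] at this
  have := congrArg code ((k.mul k).eq_one this)
  rw [← pmul_code, m.code_perm, code_one] at this
  exact absurd this (by decide +kernel)

theorem IsV.no1024 {B R : Subgroup G} (hB : X.IsV B) (h : R ≤ 𝒩(B)) (h0 : R ⊓ B = ⊥) (c : Nat.card R = 1024)
    (e : ∀ r ∈ R, r * r = 1) : False := by
  obtain ⟨g, rfl⟩ := hB
  exact no1024' (R := R :^ g⁻¹) (by rw [conjg_le_iff, inv_inv, conjg_norm]; exact h)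
    (by rw [← conjg_eq_bot (g := g), conjg_inf, conjg_cancel_inv, h0]) ((card_conjg _ _).trans c) (conjg_sq e _)

theorem dvd_M24 {S : Subgroup G} (h : S ≤ 𝒩(X.V)) (h0 : S ⊓ X.V = ⊥) : Nat.card S ∣ 244823040 := by
  have := card_dvd_of_le (sup_le h le_normalizer)
  rw [card_sup_of_inf_eq_bot (.inl h) h0, X.card_V, X.card_M] at this
  exact Nat.dvd_of_mul_dvd_mul_right (by norm_num : 0 < 2048) this

theorem L253 {S : Subgroup G} {x : G} (h : S ≤ 𝒩(X.V)) (h0 : S ⊓ X.V = ⊥) (hx : x ∈ S) (o : orderOf x = 11)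
    (hn : ∀ g ∈ S, g ∈ 𝒩(zpowers x) → g ∈ zpowers x) :
    Nat.card S = 11 ∨ Nat.card S = 253 ∧ ∃ Y ≤ S, Nat.card Y = 23 ∧ S ≤ 𝒩(Y) := by
  have d := dvd_M24 h h0
  have cx := (Nat.card_zpowers x).trans o
  have sd := BG.Burnside_normal_complement p11 (sylow_of_sq p11 cx (zpowers_le.2 hx) fun e => absurd (e.trans d)
    (by norm_num)) fun g hg => abelian_iff_le_cent.1 (abelian_zpowers x) (hn g hg.1 hg.2)
  have c := sd.card_mul
  have p : ¬ 11 ∣ Nat.card (pPrimeCoreOf 11 S) := (piGrp_compl_singleton_iff p11).1 (pcore_piGrp {11}ᶜ S)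
  rw [cx] at c
  generalize pPrimeCoreOf 11 S = R at sd c p
  have fp : ∀ A ≤ R, x ∈ 𝒩(A) → Nat.card A % 11 = 1 := fun A a b => by
    have := card_mod_cent p11 b (o ▸ pow_orderOf_eq_one x)
    rwa [show A ⊓ 𝒞[x] = ⊥ from eq_bot_iff.2 fun g hg => sd.inf_eq.le ⟨a hg.1, hn g (sd.left_le (a hg.1))
      (norm_zpowers_of_cent le_rfl hg.2)⟩, card_bot] at this
  have dR := fun A (a : A ≤ R) => (card_dvd_of_le (a.trans sd.left_le)).trans d
  have pR : IsPGrp 23 R := fun q hq e => by_contra fun q1 => by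
    obtain ⟨P, a, b⟩ := sol_coprime_Sylow_exists hq (.inr (sol_of_abelian (abelian_zpowers x))) sd.norm
      (by rw [cx]; exact ((Nat.Prime.coprime_iff_not_dvd p11).2 p).symm)
    have n := a.ne_bot' hq e
    by_cases q2 : q = 2
    · subst q2
      obtain ⟨r, E, hr, f, g, i, j, -⟩ := exists_norm_abelem n a.pGrp.sol b
      obtain rfl : r = 2 := (abelem_pGrp hr i).mem_of_piGrp g (a.pGrp.of_le f)
      obtain ⟨k, hk, l⟩ := pdvd (a := 10) (m := 239085) hr (abelem_pGrp hr i) (dR E (f.trans a.le)) (by norm_num)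
      have := fp E (f.trans a.le) (j (mem_zpowers x))
      have := one_lt_card g
      have E1 := (f.trans a.le).trans sd.left_le
      refine no1024' (E1.trans h) (eq_bot_iff.2 ((inf_le_inf_right _ E1).trans h0.le)) ?_ fun r hr => pow_two r ▸ i.2 r hr
      interval_cases k <;> omega
    obtain ⟨k, l⟩ := (pGrp_iff_card hq).1 a.pGrp
    have m := prime_G hq (e.trans (X.dvd_G R))
    have f := l ▸ dR P a.le
    exact (one_lt_card n).ne' (l.trans ((by decide +kernel : ∀ q ∈ [2, 3, 5, 7, 11, 23, 29, 31, 37, 43], q ≠ 2 → q ≠ 23 →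
      ∀ k < 4, q ^ k ∣ 244823040 → q ^ k % 11 = 1 → q ^ k = 1) q m q2 q1 k (by_contra fun g => (by decide +kernel :
        ∀ q ∈ [2, 3, 5, 7, 11, 23, 29, 31, 37, 43], q ≠ 2 → ¬ q ^ 4 ∣ 244823040) q m q2
          ((pow_dvd_pow q (not_lt.1 g)).trans f)) f (l ▸ fp P a.le (b (mem_zpowers x)))))
  obtain ⟨k, hk, l⟩ := pdvd (a := 1) (m := 10644480) (by norm_num) pR (dR R le_rfl) (by norm_num)
  interval_cases k
  · exact .inl (by omega)
  · exact .inr ⟨by omega, R, sd.left_le, l, sd.normal.2⟩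

variable (X) in
/-- the common normaliser of the two groups -/
structure PR (x u j : G) (S₁ Y : Subgroup G) : Prop where
  bot : 𝒩(X.V) ⊓ 𝒩(X.V :^ u) ⊓ X.V = ⊥
  jS : j ∈ 𝒩(X.V) ⊓ 𝒩(X.V :^ u)
  j2 : j * j = 1
  jx : j * x * j⁻¹ = x⁻¹
  jt : Commute j X.t
  ju : Commute j u
  le : S₁ ≤ 𝒩(X.V) ⊓ 𝒩(X.V :^ u)
  xS : x ∈ S₁
  card : Nat.card S₁ = 253
  Yle : Y ≤ S₁
  cY : Nat.card Y = 23
  nY : S₁ ≤ 𝒩(Y)
  ub : Nat.card ↥(𝒩(X.V) ⊓ 𝒩(X.V :^ u)) ≤ 6072
  lb : 2898 ≤ Nat.card ↥(𝒩(X.V) ⊓ 𝒩(X.V :^ u))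

variable (X) in
theorem index_M : (𝒩(X.V)).index = 173067389 := by
  have := (𝒩(X.V)).card_mul_index
  rw [X.card_M, X.card_G] at this
  omega

namespace X11

variable {x : G} {O : Subgroup G} (h : X.X11 x O)
include h

theorem irr {A : Subgroup G} (hA : A ≤ X.V) (n : x ∈ 𝒩(A)) (tA : X.t ∉ A) : A = ⊥ ∨ Nat.card A = 1024 := by
  have a := card_mod_cent p11 n (h.oz.zp (mem_zpowers x))
  rw [show A ⊓ 𝒞[x] = ⊥ from eq_bot_iff.2 fun g hg => (h.uq g (X.V_sq (hA hg.1)) (mem_cent_iff.1 hg.2)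
    (X.V_comm X.t_mem (hA hg.1))).resolve_right fun e => tA (e ▸ hg.1), card_bot] at a
  obtain ⟨k, hk, e⟩ := (Nat.dvd_prime_pow (m := 11) Nat.prime_two).1 (X.card_V ▸ card_dvd_of_le hA : _ ∣ 2048)
  unfold Nat.ModEq at a
  rw [← card_eq_one]
  interval_cases k <;> omega

theorem xV : x ∈ 𝒩(X.V) := X.cent_t (mem_cent_iff.2 h.oz.uw.symm)

theorem fixV {g : G} (a : g ∈ 𝒩(X.V)) (b : g ∈ 𝒩(zpowers x)) : Commute g X.t := by
  have c := conj_mem_of_mem_norm a X.t_mem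
  refine conj_eq_iff_commute.1 ((h.uq _ (X.V_sq c) ?_ (X.V_comm X.t_mem c)).resolve_left
    (ne_of_conj X.t_ne (isConj_iff.2 ⟨g, rfl⟩)))
  simpa [mul_assoc] using (Commute.conj_iff g).2 (mem_cent_iff.1 (cent_singleton_le_of_mem_zpowers
    (conj_mem_of_mem_norm' b (mem_zpowers x)) (mem_cent_iff.2 h.oz.uw)))

theorem pair {u : G} (hu : u ∈ O) (u1 : u ≠ 1) (tu : X.t * u * X.t⁻¹ = u⁻¹) : ∃ j S₁ Y, X.PR x u j S₁ Y := by
  have ux := h.oz.le hu
  have o := h.oz.ow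
  have xV' : x ∈ 𝒩(X.V :^ u) := by
    rw [← conjg_norm, ← conj_eq_iff_commute.2 (mem_cent_iff.1 ux)]; exact conj_mem_conjg u h.xV
  have cu : ∀ g ∈ 𝒩(X.V :^ u), g ∈ 𝒩(zpowers x) → Commute g X.t → Commute g u := fun g a b c => by
    have n := norm_zpowers_of_cent le_rfl ux
    have d := (Commute.conj_iff u).2 (h.fixV (mem_conjg.1 (conjg_norm _ u ▸ a)) (mul_mem (mul_mem (inv_mem n) b) n))
    rw [show u * (u⁻¹ * g * u) * u⁻¹ = g by group] at d
    have e := d.mul_right c.inv_right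
    rw [show u * X.t * u⁻¹ * X.t⁻¹ = u * (X.t * u * X.t⁻¹)⁻¹ by group, tu, inv_inv, ← pow_two] at e
    exact mem_cent_iff.1 (cent_singleton_le_of_mem_zpowers (mem_zpowers_pow_iff.2 ((Nat.Prime.coprime_iff_not_dvd
      Nat.prime_two).2 fun f => h.oz.odd (f.trans (orderOf_dvd_card_of_mem hu)))) (mem_cent_iff.2 e))
  have tS : X.t ∉ 𝒩(X.V :^ u) := fun a => u1 (h.oz.I_fix hu tu (cu _ a (norm_zpowers_of_cent le_rfl
    (mem_cent_iff.2 h.oz.uw)) (Commute.refl _)))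
  have nA : zpowers x ≤ 𝒩(𝒩(X.V) ⊓ 𝒩(X.V :^ u) ⊓ X.V) := norm_inf (norm_of_le (zpowers_le.2 ⟨h.xV, xV'⟩)) (zpowers_le.2 h.xV)
  have bot : 𝒩(X.V) ⊓ 𝒩(X.V :^ u) ⊓ X.V = ⊥ := (h.irr inf_le_right (nA (mem_zpowers x)) fun a => tS a.1.2).resolve_right
    fun c => by
      rcases h.irr (inf_le_left.trans inf_le_right) (norm_inf nA (zpowers_le.2 xV') (mem_zpowers x)) (fun a => tS a.1.1.2)
        with d | d
      · exact (X.isV.conjg u).no1024 (inf_le_left.trans inf_le_right) d c fun r hr => X.V_sq hr.2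
      have i := card_mul_relIndex (inf_le_left.trans inf_le_right : 𝒩(X.V) ⊓ 𝒩(X.V :^ u) ⊓ X.V ⊓ X.V :^ u ≤ _)
      rw [d, X.card_V] at i
      have k : ∀ v (hv : v < 2048), dc v = true → (⟨_, X.ev_mem hv⟩ : X.V) ∉
          (𝒩(X.V) ⊓ 𝒩(X.V :^ u) ⊓ X.V ⊓ X.V :^ u).subgroupOf X.V := fun v hv e f =>
        tS (le_normalizer ((X.isV.uniq (X.isV.conjg u) (conj_t_of hv e) f.1.2 f.2).le X.t_mem))
      have := (mul_mem_iff_of_index_two (by change relIndex _ _ = 2; omega)).2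
        (iff_of_false (k 12 (by norm_num) (by decide +kernel)) (k 68 (by norm_num) (by decide +kernel)))
      exact k 72 (by norm_num) (by decide +kernel) (by convert this using 1; exact Subtype.ext (X.ev_xor 12 68))
  have key : ∀ S ≤ 𝒩(X.V) ⊓ 𝒩(X.V :^ u), x ∈ S → (Nat.card S = 11 ∨ Nat.card S = 253 ∧ ∃ Y ≤ S, Nat.card Y = 23 ∧ S ≤ 𝒩(Y)) ∨
      ∃ j ∈ S, j * j = 1 ∧ j * x * j⁻¹ = x⁻¹ ∧ Commute j X.t ∧ Commute j u := fun S a b => by
    have c : ∀ g ∈ S ⊓ 𝒩(zpowers x), Commute g X.t := fun g hg => h.fixV (a hg.1).1 hg.2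
    have d := h.n220 ▸ card_dvd_of_le (le_inf inf_le_right fun g hg => mem_cent_iff.2 (c g hg))
    by_cases e : 2 ∣ Nat.card ↥(S ⊓ 𝒩(zpowers x))
    · obtain ⟨j, hj, e⟩ := exists_mem_orderOf_eq Nat.prime_two e
      have j2 := (pow_two j).symm.trans (e ▸ pow_orderOf_eq_one j)
      refine .inr ⟨j, hj.1, j2, (inv_or p11 o hj.2 j2).resolve_left fun f => ?_, c j hj, cu j (a hj.1).2 hj.2 (c j hj)⟩
      rcases h.uq j j2 f (c j hj).symm with rfl | rfl
      · simp at e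
      · exact tS (a hj.1).2
    have e' : ¬ 5 ∣ Nat.card ↥(S ⊓ 𝒩(zpowers x)) := fun e => by
      obtain ⟨f, hf, e⟩ := exists_mem_orderOf_eq Nat.prime_five e
      have := (IsPGrp.dvd_card (h.pO.of_le (zpowers_le.2 hu)) (ne_bot_of_mem (mem_zpowers u) u1)).trans (card_dvd_of_le
        (zpowers_le.2 (mem_cent_iff.2 (cu f (a hf.1).2 hf.2 (c f hf)).symm)))
      rw [← cent_zpowers, card_C5 (X := X) ((Nat.card_zpowers f).trans e)] at this
      omega
    refine .inl (L253 (a.trans inf_le_left) (eq_bot_iff.2 ((inf_le_inf_right _ a).trans bot.le)) b o fun g i k =>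
      (eq_of_le_of_card_ge (le_inf (zpowers_le.2 b) le_normalizer) ?_).ge ⟨i, k⟩)
    rw [Nat.card_zpowers, o]
    exact (by decide +kernel : ∀ n < 221, n ∣ 220 → ¬ 2 ∣ n → ¬ 5 ∣ n → n ≤ 11) _
      (Nat.lt_succ_of_le (Nat.le_of_dvd (by norm_num) d)) d e e'
  have lb : 2898 ≤ Nat.card ↥(𝒩(X.V) ⊓ 𝒩(X.V :^ u)) := by
    have a := card_inf_mul_relIndex 𝒩(X.V :^ u) 𝒩(X.V)
    have b := relIndex_le_of_le_right (le_top (a := 𝒩(X.V))) (relIndex_pos 𝒩(X.V :^ u) ⊤).ne'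
    rw [relIndex_top_right, ← conjg_norm, index_conjg, X.index_M, conjg_norm] at b
    rw [X.card_M, inf_comm] at a
    by_contra c
    have := Nat.mul_le_mul (Nat.le_of_lt_succ (not_le.1 c)) b
    omega
  obtain ⟨j, a1, a2, a3, a4, a5⟩ := (key _ le_rfl ⟨h.xV, xV'⟩).resolve_left (by omega)
  obtain ⟨θ, -, hθ⟩ := X.exists_θ
  let φ := M24.subtype.comp (θ.comp (inclusion (inf_le_left : 𝒩(X.V) ⊓ 𝒩(X.V :^ u) ≤ _)))
  have i := ((MulAction.stabilizer (Perm Pt) (pt 23)).comap φ).card_mul_index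
  have i2 : ((MulAction.stabilizer (Perm Pt) (pt 23)).comap φ).index ≤ 24 := by
    rw [index_comap]
    refine (relIndex_le_of_le_right le_top (relIndex_pos _ ⊤).ne').trans ?_
    rw [relIndex_top_right, MulAction.index_stabilizer]
    exact (Set.ncard_le_card _).trans (by rw [Nat.card_eq_fintype_card]; rfl)
  rw [← card_map_of_injective (subtype_injective _)] at i
  have i3 := i ▸ Nat.mul_le_mul_left _ i2
  obtain ⟨p, -, p1, p2⟩ := h.rn.th
  have xS : x ∈ ((MulAction.stabilizer (Perm Pt) (pt 23)).comap φ).map (Subgroup.subtype _) := ⟨⟨x, h.xV, xV'⟩, by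
    change (θ ⟨x, h.xV⟩).1 _ = _
    rw [(hθ ⟨x, h.xV⟩).unique p2, ← sg_code, ← p1.sn]; decide +kernel, rfl⟩
  rcases key _ (map_subtype_le _) xS with (b | ⟨b, Y, c, d, e⟩) | ⟨_, ⟨g, b, rfl⟩, -, c, d, -⟩
  · omega
  · exact ⟨j, _, Y, bot, a1, a2, a3, a4, a5, map_subtype_le _, xS, b, c, d, e, by omega, lb⟩
  have k := hθ ⟨g, g.2.1⟩
  replace b : (θ ⟨g, g.2.1⟩).1 (pt 23) = pt 23 := b
  have l := ((mem_DD.1 (k.comm_t.1 d)).2.resolve_right fun e => absurd (b.symm.trans e.1) (by decide)).2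
  exact absurd (relEnum_spec (i := 23) (j := 0) (p := 1) (y := pinv (sn dN11.cf)) (i' := 23) (j' := 0) (q := fun _ => false) (by decide +kernel) (by decide +kernel)
    (by decide +kernel) k.inM p1.sn.symm (by rw [← pinv_code, ← p1.sn]) (by rw [dig_code _ (by norm_num), b, idx_pt (by norm_num)])
    (by rw [dig_code _ (by norm_num), l, idx_pt (by norm_num)]) (mul_inv_eq_iff_eq_mul.1 ((p2.conj k).unique (c ▸ p2.inv)))) (by simp)

end X11

end

end CA.J4.HM
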