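/-
The Sylow 11-subgroups.
-/
import Cfsg.Agent.J4o.Pair
import Cfsg.Agent.J4o.GL23

set_option autoImplicit false
set_option maxRecDepth 100000
set_option linter.unusedSectionVars false

namespace CA.J4.HM

open CA.M24 CA.Fi CA.FG CA.J4o Cfsg Subgroup Equiv

noncomputable section

variable {G : Type*} [Group G] [Finite G] {X : HM G} [hF : Fact X.Fu]

namespace X11

variable {x : G} {O : Subgroup G} (h : X.X11 x O)
include h

theorem c22' {c : G} (a : Commute c x) (b : Commute c X.t) : c ∈ zpowers x ∨ c * X.t ∈ zpowers x := by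
  have e := h.c22 ▸ pow_card_eq_one_of_mem (mem_inf.2 ⟨mem_cent_iff.2 a, mem_cent_iff.2 b⟩)
  have m := pow_mem (h.oz.fix _ (h.mem (a.pow_left 2) fun d => absurd (d.trans (orderOf_dvd_of_pow_eq_one (n := 11)
    (by rwa [← pow_mul]))) (by norm_num)) (b.pow_left 2).symm) 6
  rw [← pow_mul, show 2 * 6 = 1 + 11 from rfl, pow_add, pow_one] at m
  exact (h.uq (c ^ 11) (by rwa [← pow_add]) (a.pow_left _) (b.pow_left _).symm).imp (fun d => by simpa [d] using m)
    fun d => by rwa [d] at m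

theorem ne_inv : x ≠ x⁻¹ := fun e => by
  have := h.oz.ow
  rw [h.oz.eq_one h.oz.mem (mul_eq_one_iff_eq_inv.2 e), orderOf_one] at this
  omega

theorem card_O : Nat.card O = 121 := h.cases.resolve_right fun ⟨c, ab⟩ => by
  have a := h.oz.card_I ab
  obtain ⟨v, hv, v1⟩ := exists_mem_ne_one (H := OZ.I X.t ab) fun e => by rw [e, card_bot] at a; omega
  obtain ⟨j, _, _, k⟩ := h.pair hv.1 v1 hv.2
  have b : ∀ i : G, i * i = 1 → i * x * i⁻¹ = x⁻¹ → ¬ OZ.I X.t ab ≤ 𝒞[i] := fun i d e f => by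
    have := (card_dvd_of_le f).trans (card_Cinv (X := X) d fun g => h.ne_inv (by simpa [g] using e))
    rw [show Nat.card (OZ.I X.t ab) = 121 by omega] at this
    omega
  refine (SubgroupClass.subset_union.1 fun u hu => ?_).elim (b j k.j2 k.jx) (b (j * X.t) (by
    rw [mul_assoc, ← mul_assoc X.t, ← k.jt.eq, mul_assoc, X.t_sq, mul_one, k.j2]) (by
      rw [← k.jx, mul_assoc j, h.oz.uw.eq]; group))
  by_cases u1 : u = 1
  · exact .inl (u1 ▸ one_mem _)
  obtain ⟨i, _, _, l⟩ := h.pair hu.1 u1 hu.2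
  refine (h.c22' (c := j * i) (conj_eq_iff_commute.1 (by
    rw [show j * i * x * (j * i)⁻¹ = j * (i * x * i⁻¹) * j⁻¹ by group, l.jx, ← conj_inv, k.jx, inv_inv]))
    (k.jt.mul_left l.jt)).imp (fun d => mem_cent_iff.2 ?_) fun d => mem_cent_iff.2 ?_
  · simpa using (h.oz.cen hu.1 d).mul_right l.ju.symm.inv_right
  · rw [mul_assoc, l.jt.eq, ← mul_assoc] at d
    simpa using (h.oz.cen hu.1 d).mul_right l.ju.symm.inv_right

theorem card_C : Nat.card 𝒞[x] = 242 := by rw [h.card, h.card_O]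

theorem all : ∃ w u U, X.W11 w u U ∧ ∀ y ∈ U, y ∉ zpowers w → IsConj x y := by
  obtain ⟨w, u, U, k, a, -⟩ := h.exw
  refine ⟨w, u, U, k, fun y b c => ?_⟩
  have d := ncard_conj 𝒩(zpowers w) x
  have e := h.card_C ▸ card_le_of_le (inf_le_right : 𝒩(zpowers w) ⊓ 𝒞[x] ≤ _)
  have f := Nat.mul_le_mul_left {y | ∃ c ∈ 𝒩(zpowers w), c * x * c⁻¹ = y}.ncard e
  rw [d, k.cN] at f
  obtain ⟨c, -, g⟩ := (Set.eq_of_subset_of_ncard_le (s := {y | ∃ c ∈ 𝒩(zpowers w), c * x * c⁻¹ = y})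
    (t := (U : Set G) \ zpowers w) (by
      rintro _ ⟨c, hc, rfl⟩
      exact ⟨conj_mem_of_mem_norm (k.oz.norm hc) a, fun i => h.nw k (by simpa [mul_assoc] using conj_mem_of_mem_norm' hc i)⟩)
    (by
      rw [Set.ncard_diff (zpowers_le.2 k.oz.mem), show (U : Set G).ncard = 1331 from k.card,
        show (zpowers w : Set G).ncard = 11 from (Nat.card_zpowers w).trans k.oz.ow]
      omega)).ge ⟨b, c⟩
  exact isConj_iff.2 ⟨c, g⟩

end X11

theorem W11.pow {w u y : G} {U : Subgroup G} (k : X.W11 w u U) (a : y ∈ zpowers w) (b : y ≠ 1) : IsConj w y := by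
  have d := ncard_conj 𝒩(zpowers w) w
  rw [inf_of_le_right (norm_zpowers_of_cent le_rfl), k.cN, k.cC] at d
  obtain ⟨c, -, g⟩ := (Set.eq_of_subset_of_ncard_le (s := {y | ∃ c ∈ 𝒩(zpowers w), c * w * c⁻¹ = y})
    (t := (zpowers w : Set G) \ {1}) (by
      rintro _ ⟨c, hc, rfl⟩
      refine ⟨conj_mem_of_mem_norm hc (mem_zpowers w), fun i => ?_⟩
      have := orderOf_conj w c
      rw [i, k.oz.ow, orderOf_one] at this
      omega)
    (by
      rw [Set.ncard_diff_singleton_of_mem (one_mem _),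
        show (zpowers w : Set G).ncard = 11 from (Nat.card_zpowers w).trans k.oz.ow]
      omega)).ge ⟨a, b⟩
  exact isConj_iff.2 ⟨c, g⟩

theorem X11.two {x : G} {O : Subgroup G} (h : X.X11 x O) : ∃ w u U, X.W11 w u U ∧ ∀ y, orderOf y = 11 → IsConj w y ∨ IsConj x y := by
  obtain ⟨w, u, U, k, a⟩ := h.all
  refine ⟨w, u, U, k, fun y e => ?_⟩
  obtain ⟨g, -, b⟩ := sylow_subJ p11 k.syl (pGrp_of_card_eq p11 ((Nat.card_zpowers y).trans e)) le_top
  obtain ⟨v, c, rfl⟩ := mem_conjg'.1 (b (mem_zpowers y))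
  simp only [conj_conj]
  exact (em _).imp (k.pow · fun d => by simp [d] at e) (a v c)

theorem card_cj {a b : G} (h : IsConj a b) : Nat.card 𝒞[b] = Nat.card 𝒞[a] := by
  obtain ⟨g, rfl⟩ := isConj_iff.1 h
  rw [← conjg_cent1, card_conjg]

include hF in
theorem card_C11 {y : G} (e : orderOf y = 11) : Nat.card 𝒞[y] = 31944 ∨ Nat.card 𝒞[y] = 242 := by
  obtain ⟨x, O, h⟩ := X.exists_X11
  obtain ⟨w, u, U, k, a⟩ := h.two
  exact (a y e).imp (fun b => (card_cj b).trans k.cC) fun b => (card_cj b).trans h.card_C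

variable (X) in
include hF in
theorem s5576 : ∃ x y : G, orderOf x = 11 ∧ orderOf y = 11 ∧ ¬ IsConj x y ∧
    ∀ w : G, orderOf w = 11 → IsConj w x ∨ IsConj w y := by
  obtain ⟨x, O, h⟩ := X.exists_X11
  obtain ⟨w, u, U, k, a⟩ := h.two
  exact ⟨w, x, k.oz.ow, h.oz.ow, fun e => by have := card_cj e; rw [k.cC, h.card_C] at this; omega,
    fun y e => (a y e).imp IsConj.symm IsConj.symm⟩

variable (X) in
theorem exists_GL23 : ∃ w U, X.W11 w X.z U ∧ ∃ K ≤ 𝒩(zpowers w), Nonempty (K ≃* GL23) := by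
  obtain ⟨w, U, r, k⟩ := X.exists_W11
  obtain ⟨j, hj⟩ := X.ex_gens cU (by simp [cgens])
  have j2 := hj.sq (by decide +kernel)
  have sw : ∀ {n x y : G}, n * x * n⁻¹ = y → x * (n⁻¹ * 1) = n⁻¹ * y := fun e => by rw [← e]; group
  have ab := X.s_mul 1024 (by norm_num) 2048 (by norm_num)
  have q1 : qq 1024 = 1 := by decide +kernel
  have q2 : qq 2048 = 1 := by decide +kernel
  have s1 : sg (sn cU) = 1 := by decide +kernel
  have s0 : sg (sn cO) = 0 := by decide +kernel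
  rw [show bet 1024 2048 = 1 by decide +kernel, show 1024 ^^^ 2048 = 3072 from rfl, pow_one] at ab
  have cz : ∀ {g : G}, Commute X.z g → X.z * (g * 1) = g * (X.z * 1) := fun e => by simp [e.eq]
  have nw : ∀ g, Commute g w → g ∈ 𝒩(zpowers w) := fun g e => norm_zpowers_of_cent le_rfl (mem_cent_iff.2 e)
  have ws : ∀ v ∈ [1024, 2048], Commute (X.s v) w := fun v hv => by
    have := (by decide +kernel : ∀ v ∈ [1024, 2048], v < 4096 ∧ ap (fs cA) v = v ∧ (sg (sn cA) * qq v + bb 0 v) % 2 = 0) v hv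
    simpa using (r.rq.commute_s this.1 this.2.1 this.2.2 0).symm
  refine ⟨w, U, k, gl23 (g := fun i => [j⁻¹, X.ρ⁻¹, X.s 1024, X.s 2048, X.z].getD i 1) ?_ X.z_ne ?_⟩
  · simp only [rG, List.forall_mem_cons, List.not_mem_nil, IsEmpty.forall_iff, implies_true, and_true]
    refine ⟨?_, ?_, ?_, ?_, ?_, sw ?_, sw ?_, sw ?_, cz hj.zc.inv_right, sw ?_, sw ?_, cz X.zρ.inv_right, ?_, cz (X.zs _),
      cz (X.zs _)⟩
    · simp [← mul_inv_rev, j2]
    · exact (by simp [pow_succ, mul_assoc] : _ = (X.ρ ^ 3)⁻¹).trans (by rw [X.ρ_cube, inv_one]; rfl)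
    · simp [X.s_sq, q1]
    · simp [X.s_sq, q2]
    · simp [X.z_sq]
    · simp [← conj_inv, hj.ρc, s1, pow_two]
    · simp [hj.act, s1, q1, show ap (fs cU) 1024 = 1024 by decide +kernel]
    · simp [hj.act, s1, q2, ab, show ap (fs cU) 2048 = 3072 by decide +kernel]
    · simp [X.rc_ρ.act, s0, show ap (fs cO) 1024 = 2048 by decide +kernel]
    · simp [X.rc_ρ.act, s0, ← mul_assoc, ab, show ap (fs cO) 2048 = 3072 by decide +kernel, mul_assoc (X.s 3072), X.z_sq]
    · simp [X.s_comm (v := 2048) (w := 1024), show bb 2048 1024 = 1 by decide +kernel, mul_assoc]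
  intro i hi
  interval_cases i
  · obtain ⟨n, e⟩ := (r.pow 10).eq (hj.conj r ⟨_, r.pow 10⟩ (by decide +kernel))
    have a := congrArg (· ^ 11) e
    simp only [conj_pow, (r.zc.symm.pow_pow 10 n).mul_pow, ← pow_mul, mul_comm 10, pow_mul w, k.oz.zp (mem_zpowers w)] at a
    refine inv_mem (mem_norm_of_forall ?_)
    rintro _ ⟨m, rfl⟩
    rw [← conj_zpow, e, X.zmod (b := n * 11) (by omega), ← show _ = X.z ^ (n * 11) by simpa using a, mul_one]
    exact zpow_mem (pow_mem (mem_zpowers w) _) _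
  · exact inv_mem (nw _ (mem_cent_iff.1 (r.mem_C0 (by decide +kernel)).2).symm)
  · exact nw _ (ws _ (by simp))
  · exact nw _ (ws _ (by simp))
  · exact nw _ r.zc

variable (X) in
include hF in
theorem s5575 (S : Sylow 11 G) : IsExtraspecial 11 (S : Subgroup G) ∧ Nat.card (S : Subgroup G) = 11 ^ 3 ∧
    Monoid.exponent (S : Subgroup G) = 11 ∧ Nat.card 𝒩((S : Subgroup G)) = 2 ^ 4 * 3 * 5 * 11 ^ 3 ∧
    ∃ K : Subgroup G, K ≤ 𝒩((S : Subgroup G)) ∧ Nonempty (K ≃* GL23) := by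
  obtain ⟨x, O, h⟩ := X.exists_X11
  obtain ⟨w, u, U, k, a⟩ := h.all
  obtain ⟨g, -, e⟩ := sylow_trans p11 k.syl (sylow_top p11 S)
  have k := e ▸ k.conj g
  have a : ∀ y ∈ (S : Subgroup G), y ∉ zpowers (g * w * g⁻¹) → IsConj x y := fun y b c => by
    obtain ⟨v, d, rfl⟩ := mem_conjg'.1 (e ▸ b)
    exact (conj_conj g).2 (a v d fun f => c ((mem_zp_conj g).2 f))
  generalize g * w * g⁻¹ = w at k a
  have cw := (Nat.card_zpowers w).trans k.oz.ow
  have b : ∀ y ∈ (S : Subgroup G), y ^ 11 = 1 := fun y hy => (em _).elim k.oz.zp fun c => by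
    obtain ⟨n, rfl⟩ := isConj_iff.1 (a y hy c)
    rw [conj_pow, h.oz.zp (mem_zpowers x)]; simp
  have c : ∀ y ∈ (S : Subgroup G), (∀ q ∈ (S : Subgroup G), Commute y q) ↔ y ∈ zpowers w := fun y hy =>
    ⟨fun c => by_contra fun d => by
      have := card_dvd_of_le (fun q hq => mem_cent_iff.2 (c q hq).symm : (S : Subgroup G) ≤ 𝒞[y])
      rw [k.card, card_cj (a y hy d), h.card_C] at this
      omega, fun c q hq => (k.oz.cen hq c).symm⟩
  have d : ⁅(S : Subgroup G), (S : Subgroup G)⁆ = zpowers w := (eq_bot_or_eq_of_le_card_prime (cw ▸ p11)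
    (commutator_le.2 fun _ a _ b => k.oz.der a b)).resolve_left fun e => by
      have := card_le_of_le (fun y hy => (c y hy).1 fun q hq => comm_of_le_cent (comm_eq_bot_iff.1 e) hy hq :
        (S : Subgroup G) ≤ zpowers w)
      rw [k.card, cw] at this
      omega
  obtain ⟨a1, a2⟩ := special_of' p11 k.syl.pGrp (fun y hy => b y hy ▸ one_mem _) d c
  refine ⟨⟨a1, by rw [a2, card_subgroupOf (zpowers_le.2 k.oz.mem), cw]⟩, k.card, ((Nat.dvd_prime p11).1
    (Monoid.exponent_dvd_of_forall_pow_eq_one fun x => Subtype.ext (b x x.2))).resolve_left fun e => ?_,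
    by rw [le_antisymm (d ▸ norm_comm le_rfl le_rfl) k.oz.norm, k.cN]; rfl, ?_⟩
  · have := Monoid.exp_eq_one_iff.1 e
    have c := k.card
    rw [Nat.card_of_subsingleton (1 : (S : Subgroup G))] at c
    omega
  obtain ⟨w, U, k, K, a, ⟨b⟩⟩ := X.exists_GL23
  obtain ⟨g, -, e⟩ := sylow_trans p11 k.syl (sylow_top p11 S)
  exact ⟨K :^ g, by rw [e, ← conjg_norm]; exact conjg_mono g (a.trans k.oz.norm),
    ⟨((MulAut.conj g).subgroupMap K).symm.trans b⟩⟩

end

end CA.J4.HM
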