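/-
The Sylow subgroups for the large primes.
-/
import Cfsg.Agent.J4o.Elv2

set_option autoImplicit false
set_option maxRecDepth 100000
set_option synthInstance.maxSize 1000
set_option linter.unusedSectionVars false

namespace CA.J4.HM

open CA.M24 CA.Fi CA.FG CA.J4o Cfsg Subgroup Equiv

noncomputable section

variable {G : Type*} [Group G] [Finite G] {X : HM G} [hF : Fact X.Fu]

def BP : List ℕ := [23, 29, 31, 37, 43]

def DL : List ℕ := [1, 23, 29, 31, 37, 43, 667, 713, 851, 989, 899, 1073, 1247, 1147, 1333, 1591, 20677, 24679, 28681, 26381, 30659, 36593, 33263, 38657, 46139, 49321, 765049, 889111, 1061197, 1134383, 1430309, 32897107]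

def OPT : List (ℕ × ℕ × ℕ) := [(23, 23, 22), (23, 20677, 11), (23, 30659, 1), (23, 1061197, 22), (29, 29, 28), (29, 899, 14), (29, 1247, 2), (29, 38657, 1), (31, 31, 10), (31, 1333, 6), (31, 49321, 1), (31, 1430309, 15), (31, 32897107, 2), (37, 37, 12), (37, 1591, 2), (37, 24679, 12), (37, 46139, 9), (37, 49321, 12), (37, 1061197, 2), (37, 32897107, 12), (43, 43, 14), (43, 1247, 42), (43, 1333, 6), (43, 49321, 42)]

def RES : List (ℕ × ℕ) := [(23, 23 * 22), (29, 29 * 28), (31, 31 * 10), (37, 37 * 12), (43, 43 * 14)]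

theorem BP_spec : ∀ p ∈ BP, p.Prime ∧ ¬ p ∣ 2637787299840 ∧ ¬ p * p ∣ 86775571046077562880 ∧ (p - 1).Coprime 32897107 ∧
    p ∣ 86775571046077562880 := by
  simp only [BP, List.forall_mem_cons, List.not_mem_nil, IsEmpty.forall_iff, implies_true, and_true]
  norm_num

theorem dv_big {c : ℕ} (h : c ∣ 23 * 29 * 31 * 37 * 43) : c ∈ DL := by
  simp only [Nat.dvd_mul, Nat.dvd_prime (by norm_num : Nat.Prime 23), Nat.dvd_prime (by norm_num : Nat.Prime 29),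
    Nat.dvd_prime (by norm_num : Nat.Prime 31), Nat.dvd_prime (by norm_num : Nat.Prime 37),
    Nat.dvd_prime (by norm_num : Nat.Prime 43)] at h
  obtain ⟨_, _, ⟨_, _, ⟨_, _, ⟨_, _, rfl | rfl, rfl | rfl, rfl⟩, rfl | rfl, rfl⟩, rfl | rfl, rfl⟩, rfl | rfl, rfl⟩ := h <;>
    decide

include hF

theorem small {y : G} {r : ℕ} (o : orderOf y = r) (hr : r ∈ [2, 3, 5, 7, 11]) : Nat.card 𝒞[y] ∣ 2637787299840 := by
  have c := (Nat.card_zpowers y).trans o
  simp only [List.mem_cons, List.not_mem_nil, or_false] at hr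
  rcases hr with rfl | rfl | rfl | rfl | rfl
  · exact (card_Cinv (X := X) ((pow_two y).symm.trans (o ▸ pow_orderOf_eq_one y)) fun e => by simp [e] at o).trans
      (by norm_num)
  · exact (card_C3 (X := X) o).trans (by norm_num)
  · rw [← cent_zpowers, card_C5 (X := X) c]; norm_num
  · rw [← cent_zpowers, card_C7 (X := X) c]; norm_num
  · rcases card_C11 (X := X) o with e | e <;> rw [e] <;> norm_num

variable {P : Subgroup G} {p q : ℕ}

theorem cdvd (hp : p ∈ BP) (h : Nat.card P = p) : Nat.card 𝒞(P) ∣ 32897107 :=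
  (Nat.coprime_of_dvd (n := 2637787299840) fun r hr a b => by
    obtain ⟨y, c, d⟩ := exists_mem_orderOf_eq hr a
    exact (BP_spec p hp).2.1 ((h ▸ card_dvd_of_le (mem_cent_iff_le_cent_singleton.1 c)).trans (small (X := X) d
      ((by decide +kernel : ∀ r ∈ [2, 3, 5, 7, 11, 23, 29, 31, 37, 43], r ∣ 2637787299840 → r ∈ [2, 3, 5, 7, 11]) r
        (prime_G hr (a.trans (X.dvd_G _))) b)))).dvd_of_dvd_mul_left (X.dvd_G _)

theorem syl_big (hp : p ∈ BP) (h : Nat.card P = p) {A : Subgroup G} (a : P ≤ A) : IsSylowOf p P A :=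
  sylow_of_sq (BP_spec p hp).1 h a fun e => (BP_spec p hp).2.2.1 (e.trans (X.dvd_G A))

theorem opt (hp : p ∈ BP) (h : Nat.card P = p) : (p, Nat.card 𝒞(P), (𝒞(P)).relIndex 𝒩(P)) ∈
    OPT := by
  have pp := (BP_spec p hp).1
  have a := sylow_count pp (syl_big (X := X) hp h le_top)
  have b := card_mul_relIndex (le_top (a := 𝒩(P)))
  have c := relIndex_cent_dvd_pred pp h (le_refl 𝒩(P))
  rw [card_top, X.card_G, ← card_mul_relIndex (cent_le_norm P)] at b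
  refine (by decide +kernel : ∀ p ∈ BP, ∀ c ∈ DL,
    p ∣ c → ∀ e < p, e ∣ p - 1 → 86775571046077562880 / (c * e) % p = 1 → (p, c, e) ∈ _) p hp _ (dv_big (cdvd (X := X) hp h))
    (h ▸ card_dvd_of_le (abelian_iff_le_cent.1 (abelian_of_cyclic (isCyclic_of_card_prime (h ▸ pp))))) _
    ((Nat.le_of_dvd (Nat.sub_pos_of_lt pp.one_lt) c).trans_lt (Nat.sub_lt pp.pos one_pos)) c ?_
  rw [← b, Nat.mul_div_cancel_left _ (Nat.mul_pos Nat.card_pos (relIndex_pos _ _)), a, Nat.mod_eq_of_lt pp.one_lt]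

theorem rel (hp : p ∈ BP) (hq : q ∈ BP) (h : Nat.card P = p) (d : q ∣ Nat.card 𝒞(P)) :
    ∃ Q : Subgroup G, Nat.card Q = q ∧ p ∣ Nat.card 𝒞(Q) ∧ (𝒞(P)).relIndex 𝒩(P) ∣ (𝒞(Q)).relIndex 𝒩(Q) := by
  obtain ⟨Q, a, b⟩ := exists_le_card_eq_prime (BP_spec q hq).1 d
  refine ⟨Q, b, h ▸ card_dvd_of_le (le_cent_symm a), (((BP_spec p hp).2.2.2.1.coprime_dvd_left (relIndex_cent_dvd_pred
    (BP_spec p hp).1 h le_rfl)).coprime_dvd_right (cdvd (X := X) hq b)).dvd_of_dvd_mul_left ?_⟩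
  rw [card_mul_relIndex (cent_le_norm Q), ← frattini_arg (BP_spec q hq).1 ⟨cent_le_norm P, norm_cent le_rfl⟩
    (syl_big (X := X) hq b a), relIndex_sup_left' (.inr (inf_le_left.trans (norm_cent le_rfl)))]
  exact (relIndex_dvd_card _ _).trans (card_dvd_of_le inf_le_right)

theorem not_7998 (h : Nat.card P = 31) : Nat.card 𝒩(P) ≠ 7998 := fun e => by
  have c := X.exists_θ5.1
  obtain ⟨Q, a, b⟩ := exists_le_card_eq_prime (H := 𝒩(X.A0)) (p := 31) (by norm_num) (by rw [c]; norm_num)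
  obtain ⟨g, rfl⟩ := conj_of_card (by norm_num) b h (by rw [X.card_G]; norm_num)
  rw [← conjg_norm, card_conjg] at e
  have d := sylow_count (by norm_num) (syl_big (X := X) (by decide) b a)
  have f := card_inf_mul_relIndex 𝒩(Q) 𝒩(X.A0)
  have i := e ▸ card_dvd_of_le (inf_le_left : 𝒩(Q) ⊓ 𝒩(X.A0) ≤ _)
  obtain ⟨m, k⟩ := b ▸ card_dvd_of_le (le_inf le_normalizer a)
  rw [k] at f i
  have l := Nat.dvd_of_mul_dvd_mul_left (by norm_num) (show 31 * m ∣ 31 * 258 from i)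
  refine (by decide +kernel : ∀ m < 259, m ∣ 258 → 31 * m ∣ 1024 * 9999360 → 1024 * 9999360 / (31 * m) % 31 ≠ 1) m
    (Nat.lt_succ_of_le (Nat.le_of_dvd (by norm_num) l)) l ⟨_, (f.trans c).symm⟩ ?_
  rwa [← c, ← f, Nat.mul_div_cancel_left _ (k ▸ Nat.card_pos)]

theorem big43 (h : Nat.card P = 43) : Nat.card 𝒞(P) = 43 := by
  refine ((by decide +kernel : ∀ a ∈ OPT, a.1 = 43 → a.2.1 = 43 ∨ ∃ q ∈ BP, q ∣ a.2.1 ∧ ∀ b ∈ OPT, b.1 = q → 43 ∣ b.2.1 →
    a.2.2 ∣ b.2.2 → q = 31 ∧ b.2.1 * b.2.2 = 7998) _ (opt (X := X) (by decide) h) rfl).resolve_right ?_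
  rintro ⟨q, a, b, c⟩
  obtain ⟨Q, d, e, f⟩ := rel (X := X) (by decide) a h b
  obtain ⟨rfl, g⟩ := c _ (opt (X := X) a d) rfl e f
  exact not_7998 (X := X) d ((card_mul_relIndex (cent_le_norm Q)).symm.trans g)

theorem big (hp : p ∈ BP) (h : Nat.card P = p) : 𝒞(P) = P ∧ (p, Nat.card 𝒩(P)) ∈ RES := by
  have n : ∀ {P : Subgroup G} {p}, p ∈ BP → Nat.card P = p → 43 ∣ Nat.card 𝒞(P) → Nat.card 𝒞(P) = 43 := fun hp h d => by
    obtain ⟨Q, a, b, -⟩ := rel (X := X) hp (by decide) h d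
    exact big43 (X := X) (h.trans ((Nat.prime_dvd_prime_iff_eq (BP_spec _ hp).1 (by norm_num)).1 (big43 (X := X) a ▸ b)))
  obtain ⟨e, f⟩ := ((by decide +kernel : ∀ a ∈ OPT, (43 ∣ a.2.1 → a.2.1 = 43) → (a.2.1 = a.1 ∧ (a.1, a.2.1 * a.2.2) ∈ RES) ∨
    ∃ q ∈ BP, q ∣ a.2.1 ∧ ∀ b ∈ OPT, b.1 = q → (43 ∣ b.2.1 → b.2.1 = 43) → a.1 ∣ b.2.1 → ¬ a.2.2 ∣ b.2.2) _
      (opt (X := X) hp h) (n hp h)).resolve_right fun ⟨q, a, b, c⟩ => by
        obtain ⟨Q, d, e, f⟩ := rel (X := X) hp a h b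
        exact c _ (opt (X := X) a d) rfl (n a d) e f
  exact ⟨(eq_of_le_of_card_ge (abelian_iff_le_cent.1 (abelian_of_cyclic (isCyclic_of_card_prime
    (h ▸ (BP_spec p hp).1)))) (e.trans h.symm).le).symm, card_mul_relIndex (cent_le_norm P) ▸ f⟩

variable (X) in
theorem s5577 (hp : p ∈ BP) (U : Sylow p G) : 𝒞((U : Subgroup G)) = U ∧ ∀ n,
    (∀ m, (p, m) ∈ RES → m = n) →
      Nat.card 𝒩((U : Subgroup G)) = n := by
  obtain ⟨a, -, -, -, b⟩ := BP_spec p hp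
  obtain ⟨Q, -, c⟩ := exists_le_card_eq_prime (H := (⊤ : Subgroup G)) a (by rwa [card_top, X.card_G])
  have := big (X := X) hp (((sylow_top a U).card_eq (syl_big (X := X) hp c le_top)).trans c)
  exact ⟨this.1, fun n h => h _ this.2⟩

end

end CA.J4.HM

theorem CA.J4o.realizeEqnsBig : True := by
  have := @CA.J4.HM.BP.eq_1
  have := @CA.J4.HM.BP.eq_def
  have := @CA.J4.HM.BP.congr_simp
  have := @CA.J4.HM.RES.eq_1
  have := @CA.J4.HM.RES.eq_def
  have := @CA.J4.HM.RES.congr_simp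
  have := @CA.J4.HM.DL.eq_1
  have := @CA.J4.HM.DL.eq_def
  have := @CA.J4.HM.DL.congr_simp
  have := @CA.J4.HM.OPT.eq_1
  have := @CA.J4.HM.OPT.eq_def
  have := @CA.J4.HM.OPT.congr_simp
  trivial
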