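/-
The number of conjugacy classes.
-/
import Cfsg.Agent.J4o.RepD

set_option autoImplicit false
set_option maxRecDepth 100000
set_option linter.unusedSectionVars false

namespace CA.J4.HM

open CA.M24 CA.Fi CA.FG CA.J4o Cfsg Subgroup Equiv

noncomputable section

variable {G : Type*} [Group G] [Finite G] (X : HM G) [hF : Fact X.Fu]

theorem kDD_of {c d k l : ℕ} {D : ℕ × List ℕ} (H : kDDC c k D = true) (e : d = c ∧ l = k) (x : Perm Pt) (h : code x = d) :
    l ≤ kDD x := e.2 ▸ kDD_cen H x (e.1 ▸ h)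

include hF

theorem ki {p : ℕ × ℕ} (hp : p ∈ [(1, 1155), (2, 330), (3, 1386)]) {d l : ℕ} (e : d = dd p.1 ∧ l = p.2) (x : Perm Pt)
    (h : code x = d) : l ≤ kDD x := e.2 ▸ kDD_inv (X := X) (kI p hp) x (e.1 ▸ h)

theorem bk_inv {g : G} {n c : ℕ} (o : orderOf g = n) (e : Nat.card 𝒞[g] ≤ c) (h : 7 ∣ n) : CBK G n [c, c] :=
  BK2 o e ((orderOf_inv g).trans o) ((card_le_of_le (cent_singleton_le_of_mem_zpowers (by simp))).trans e)
    (nc7 (X := X) (o ▸ h))

theorem ex_ord {p : ℕ} (hp : p.Prime) (h : p ∣ 86775571046077562880) : ∃ g : G, orderOf g = p :=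
  have := Fact.mk hp
  exists_prime_orderOf_dvd_card' p (X.card_G ▸ h)

theorem bk_big {p e r : ℕ} (hp : p ∈ BP) (h : ∀ m, (p, m) ∈ RES → m = e * p) (hr : r * e < p) :
    CBK G p (List.replicate r p) := by
  obtain ⟨a, -, -, -, b⟩ := BP_spec p hp
  obtain ⟨g, o⟩ := X.ex_ord a b
  have c := (Nat.card_zpowers g).trans o
  obtain ⟨d, f⟩ := big (X := X) hp c
  exact BK_prime a o (by rw [d, c]) (by rw [d, c]; exact h _ f) hr

theorem bk35 : CBK G 35 [35, 35] := by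
  obtain ⟨S, c, I, ⟨h1, h2, h3, h4, h5⟩, ⟨e⟩⟩ := X.sym5
  obtain ⟨y, hy, oy⟩ := exists_mem_orderOf_eq (p := 7) (by norm_num) c.symm.dvd
  obtain rfl := eq_zpowers_of_card_prime (by rw [c]; norm_num) hy fun e => by simp [e] at oy
  obtain ⟨a, ha, oa⟩ := exists_mem_orderOf_eq (H := I) Nat.prime_five (by
    rw [Nat.card_congr e.toEquiv, Nat.card_perm, Nat.card_fin]; decide)
  have ya : Commute y a := h3 y hy a ha
  have o := ya.orderOf_mul_eq_mul_orderOf_of_coprime (by rw [oy, oa]; norm_num)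
  rw [oy, oa] at o
  have m : ∀ x ∈ 𝒞[y * a], Commute x a ∧ x ∈ 𝒞(zpowers y) := fun x hx => by
    have b := (mem_cent_iff.1 hx).pow_right 21
    rw [ya.mul_pow, show 21 = 7 * 3 from rfl, pow_mul y, ← oy, pow_orderOf_eq_one, oy, one_pow, one_mul,
      show 7 * 3 = 5 * 4 + 1 from rfl, pow_succ, pow_mul, ← oa, pow_orderOf_eq_one, one_pow, one_mul] at b
    exact ⟨b, cent_zpowers y ▸ mem_cent_iff.2 (by simpa using (mem_cent_iff.1 hx).mul_right b.inv_right)⟩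
  refine X.bk_inv o (Nat.le_of_dvd (by norm_num) (Nat.Coprime.dvd_of_dvd_mul_left (m := 24) (Nat.coprime_of_dvd
    fun q hq d f => ?_) (card_C7 (X := X) c ▸ card_dvd_of_le fun x hx => (m x hx).2 : _ ∣ 840))) (by norm_num)
  obtain ⟨x, hx, rfl⟩ := exists_mem_orderOf_eq hq d
  obtain ⟨s, hs, b, hb, rfl⟩ := (mem_sup_of_left_le_norm (norm_zpowers_of_cent fun b hb => mem_cent_iff.2
    (show Commute y b from h3 y hy b hb).symm)).1 (sup_comm _ I ▸ h5.ge (m x hx).2)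
  have k : Commute s a := by simpa using (m _ hx).1.mul_left (show Commute b a from h3 b hb a ha).inv_left
  have l := (perm5 (e ⟨a, ha⟩) (e ⟨s, hs⟩) (by rw [← map_pow, ← map_one e]; exact congrArg e (Subtype.ext (oa ▸ pow_orderOf_eq_one a)))
    (by rw [← map_mul, ← map_mul]; exact congrArg e (Subtype.ext k.symm.eq))).resolve_left fun i => by
      rw [map_eq_one_iff _ e.injective, Subtype.ext_iff] at i
      simp [show a = 1 from i] at oa
  rw [← map_pow, map_eq_one_iff _ e.injective, Subtype.ext_iff] at l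
  refine hq.one_lt.ne' (Nat.eq_one_of_dvd_coprimes (by norm_num : Nat.Coprime 24 35) f (orderOf_dvd_of_pow_eq_one ?_))
  rw [(show Commute b s from h3 b hb s hs).symm.mul_pow, show 35 = 5 * 7 from rfl, pow_mul s, show s ^ 5 = 1 from l, mul_comm 5,
    pow_mul b, ← c, pow_card_eq_one_of_mem hb, one_pow, one_pow, one_mul]

theorem bkA : CBK G 4 [5406720, 98304, 43008] ∧ CBK G 8 [1280, 768, 512] ∧ CBK G 16 [32] ∧ CBK G 3 [2661120] ∧
    CBK G 6 [2661120, 2304, 2304] ∧ CBK G 12 [192, 192, 48] ∧ CBK G 24 [48, 48] := by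
  obtain ⟨_, a1, a2⟩ := repE (X := X) r4B_chk (X.ki (p := (1, 1155)) (by simp) (by decide +kernel))
  obtain ⟨_, a3⟩ := repN (X := X) r4C_chk (X.ki (p := (2, 330)) (by simp) (by decide +kernel))
  obtain ⟨_, b1, b2⟩ := repE (X := X) r8A_chk (X.ki (p := (3, 1386)) (by simp) (by decide +kernel))
  obtain ⟨_, b3, b4⟩ := repE (X := X) r8B_chk (kDD_cen kc4o)
  obtain ⟨_, b5, b6⟩ := repE (X := X) r8C_chk (kDD_cen kc4i)
  obtain ⟨_, -, c⟩ := repE (X := X) r16_chk (kDD_cen kc8o)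
  obtain ⟨_, d1, d2⟩ := repO (X := X) r6A_chk fun x _ => kDD_one x
  obtain ⟨_, d3, d4⟩ := repO (X := X) r6B_chk (kDD_cen kc3)
  obtain ⟨_, d5⟩ := repN (X := X) r6C_chk (kDD_of kc3 (by decide +kernel))
  obtain ⟨_, e1, e2⟩ := repE (X := X) r12A_chk (kDD_of kc3 (by decide +kernel))
  obtain ⟨_, e3, e4⟩ := repE (X := X) r12B_chk (kDD_cen kc6i)
  obtain ⟨_, e5⟩ := repN (X := X) r12C_chk (kDD_cen kc6o)
  obtain ⟨_, f1, f2⟩ := repE (X := X) r24_chk (kDD_cen kc12)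
  have h := half d2 (by decide) (pow_ρ d1 (j := 1) (by decide +kernel) (by decide +kernel))
  exact ⟨BK3 rep4A a2 a3 (nc_π rep4A a2 (X.rq_s (by norm_num)) a1 1 (by decide +kernel) (by decide +kernel))
      (nc_zt rep4A a3) (nc_zt a2 a3),
    BK3 b2 b4 b6 (nc_π b2 b4 b1 b3 2 (by decide +kernel) (by decide +kernel))
      (nc_π b2 b6 b1 b5 2 (by decide +kernel) (by decide +kernel)) (nc_chk b4 b6 b3 b5 nc8), c.bk1, BK1 h.1 h.2.1,
    BK3 d2 d4 d5 (nc_π d2 d4 d1 d3 1 (by decide +kernel) (by decide +kernel)) (nc_zt d2 d5) (nc_zt d4 d5),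
    BK3 e2 e4 e5 (nc_π e2 e4 e1 e3 3 (by decide +kernel) (by decide +kernel)) (nc_zt e2 e5) (nc_zt e4 e5),
    f2.bk2 (f2.pow' X.z_sq (k := 5) (by decide)) (nc_pow f2 f1 (by decide) nc24)⟩

theorem bkB : CBK G 10 [960, 80] ∧ CBK G 20 [160, 160] ∧ CBK G 40 [40, 40] ∧ CBK G 15 [30] ∧ CBK G 30 [30] ∧
    CBK G 14 [84, 84, 56, 56] ∧ CBK G 28 [28, 28] ∧ CBK G 21 [42, 42] ∧ CBK G 42 [42, 42] ∧ CBK G 22 [264, 22] ∧ CBK G 44 [44] ∧
    CBK G 33 [66, 66] ∧ CBK G 66 [66, 66] := by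
  obtain ⟨_, a1, a2, a3⟩ := X.lnH5
  obtain ⟨_, b1, b2, b3⟩ := X.lnN5
  have a := TY.of_odd X.z_sq X.z_ne a2 (by decide) a1.zc a3.ld.card
  have b := TY.of_odd X.t_sq X.t_ne b2 (by decide) b1.tc b3.ld.card
  obtain ⟨_, c1, c2⟩ := repE (X := X) r20_chk (kDD_cen kc5)
  obtain ⟨_, d1, d2⟩ := repE (X := X) r40_chk (kDD_cen kc10)
  obtain ⟨_, e1, e2⟩ := repO (X := X) r30_chk (kDD_of kc5 (by decide +kernel))
  have e := half e2 (by decide) (pow_ρ e1 (j := 5) (by decide +kernel) (by decide +kernel))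
  obtain ⟨_, f1, f2, f3⟩ := X.lnH7
  obtain ⟨_, g1, g2, g3⟩ := X.lnN7
  have f := TY.of_odd X.z_sq X.z_ne f2 (by decide) f1.zc f3.ld.card
  have g := TY.of_odd X.t_sq X.t_ne g2 (by decide) g1.tc g3.ld.card
  have f' := f.inv X.z_sq
  have g' := g.inv X.t_sq
  obtain ⟨_, h⟩ := repN (X := X) r28_chk (kDD_cen kc14)
  obtain ⟨_, i1, i2⟩ := repO (X := X) r42_chk (kDD_cen kc7)
  have i := half i2 (by decide) (pow_ρ i1 (j := 14) (by decide +kernel) (by decide +kernel))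
  obtain ⟨_, j1, j2, j3⟩ := X.lnH11
  obtain ⟨_, k1, k2, k3⟩ := X.lnN11
  have j := TY.of_odd X.z_sq X.z_ne j2 (by decide) j1.zc j3.ld.card
  have k := TY.of_odd X.t_sq X.t_ne k2 (by decide) k1.tc k3.ld.card
  obtain ⟨_, -, l⟩ := repE (X := X) r44_chk (kDD_of kc11 (by decide +kernel))
  obtain ⟨s, m1, m2⟩ := repO (X := X) r66_chk (kDD_cen kc11)
  have m := half m2 (by decide) (pow_ρ m1 (j := 11) (by decide +kernel) (by decide +kernel))
  have n := nc_pow m2 m1 (by decide) nc66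
  refine ⟨a.bk2 b (nc_zt a b), c2.bk2 (c2.pow' X.z_sq (k := 3) (by decide)) (nc_pow c2 c1 (by decide) nc20),
    d2.bk2 (d2.pow' X.z_sq (k := 3) (by decide)) (nc_pow d2 d1 (by decide) nc40), BK1 e.1 e.2.1, e2.bk1,
    ⟨[_, _, _, _], List.pairwise_cons.2 ⟨List.forall_mem_cons.2 ⟨nc7 (X := X) (by rw [f.ord]; norm_num), List.forall_mem_cons.2
      ⟨nc_zt f g, List.forall_mem_singleton.2 (nc_zt f g')⟩⟩, List.pairwise_cons.2 ⟨List.forall_mem_cons.2
        ⟨nc_zt f' g, List.forall_mem_singleton.2 (nc_zt f' g')⟩, List.pairwise_pair.2 (nc7 (X := X) (by rw [g.ord]; norm_num))⟩⟩,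
      .cons ⟨f.ord, f.cen⟩ (.cons ⟨f'.ord, f'.cen⟩ (.cons ⟨g.ord, g.cen⟩ (.cons ⟨g'.ord, g'.cen⟩ .nil)))⟩,
    X.bk_inv h.ord h.cen (by decide), X.bk_inv i.1 i.2.1 (by decide), X.bk_inv i2.ord i2.cen (by decide), j.bk2 k (nc_zt j k),
    l.bk1, BK2 m.1 m.2.1 ?_ ?_ fun e => n (m.2.2 5 (by decide) e), m2.bk2 (m2.pow' X.z_sq (k := 5) (by decide)) n⟩
  · rw [← pow_mul, mul_comm, pow_mul]
    exact (Nat.Coprime.orderOf_pow (m.1 ▸ by decide)).trans m.1
  · rw [← pow_mul, mul_comm, pow_mul]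
    exact (card_le_of_le (cent_singleton_le_of_mem_zpowers (mem_zpowers_pow_iff.2 (m.1 ▸ by decide)))).trans m.2.1

theorem s5579 : Nat.card (ConjClasses G) = 62 := by
  obtain ⟨a1, a2, a3, a4, a5, a6, a7⟩ := X.bkA
  obtain ⟨b1, b2, b3, b4, b5, b6, b7, b8, b9, b10, b11, b12, b13⟩ := X.bkB
  have := Fact.mk Nat.prime_two
  have c1 : CBK G 1 [86775571046077562880] := BK1 orderOf_one (Nat.le_of_dvd (by norm_num) (X.dvd_G _))
  have c2 : CBK G 2 [21799895040, 1816657920] := BK2 X.orderOf_z X.card_H.le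
    (orderOf_eq_prime ((pow_two _).trans X.t_sq) X.t_ne) X.card_Ct.le X.not_conj_t
  have c3 : CBK G 5 [6720] := by
    obtain ⟨g, o⟩ := X.ex_ord Nat.prime_five (by norm_num)
    exact BK1 o (cent_zpowers g ▸ (card_C5 (X := X) ((Nat.card_zpowers g).trans o)).le)
  have c4 : CBK G 7 [840, 840] := by
    obtain ⟨g, o⟩ := X.ex_ord (p := 7) (by norm_num) (by norm_num)
    exact X.bk_inv o (cent_zpowers g ▸ (card_C7 (X := X) ((Nat.card_zpowers g).trans o)).le) dvd_rfl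
  have c5 : CBK G 11 [31944, 242] := by
    obtain ⟨x, O, h⟩ := X.exists_X11
    obtain ⟨w, U, -, k⟩ := X.exists_W11
    exact BK2 k.oz.ow k.cC.le h.oz.ow h.card_C.le fun e => by have := card_cj e; rw [k.cC, h.card_C] at this; omega
  refine card_classes (D := [(1, [86775571046077562880]), (2, [21799895040, 1816657920]), (5, [6720]), (7, [840, 840]),
    (11, [31944, 242]), (35, [35, 35]), (4, [5406720, 98304, 43008]), (8, [1280, 768, 512]), (16, [32]), (3, [2661120]),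
    (6, [2661120, 2304, 2304]), (12, [192, 192, 48]), (24, [48, 48]), (10, [960, 80]), (20, [160, 160]), (40, [40, 40]), (15, [30]),
    (30, [30]), (14, [84, 84, 56, 56]), (28, [28, 28]), (21, [42, 42]), (42, [42, 42]), (22, [264, 22]), (44, [44]), (33, [66, 66]),
    (66, [66, 66]), (23, [23]), (29, [29]), (31, [31, 31, 31]), (37, [37, 37, 37]), (43, [43, 43, 43])]) (by decide) ?_ X.card_G ?_
  · simp only [List.forall_mem_cons, List.not_mem_nil, IsEmpty.forall_iff, implies_true, and_true]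
    exact ⟨c1, c2, c3, c4, c5, X.bk35, a1, a2, a3, a4, a5, a6, a7, b1, b2, b3, b4, b5, b6, b7, b8, b9, b10, b11, b12, b13,
      X.bk_big (e := 22) (r := 1) (by decide) (by simp [RES]) (by norm_num),
      X.bk_big (e := 28) (r := 1) (by decide) (by simp [RES]) (by norm_num),
      X.bk_big (e := 10) (r := 3) (by decide) (by simp [RES]) (by norm_num),
      X.bk_big (e := 12) (r := 3) (by decide) (by simp [RES]) (by norm_num),
      X.bk_big (e := 14) (r := 3) (by decide) (by simp [RES]) (by norm_num)⟩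
  · decide +kernel

end

end CA.J4.HM
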