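/-
Pairs of involutions inside the centraliser of a subgroup of prime order.
-/
import Cfsg.Agent.J4o.AM
import Cfsg.Agent.J4.Gen
import Cfsg.Agent.FG.Frattini
import Cfsg.Prelude.Def_TwoFusion

set_option autoImplicit false

namespace CA.J4o

open Subgroup Equiv CA.Fi CA.FG CA.M24 CA.J4 Cfsg

noncomputable section

variable {G : Type*} [Group G] [Finite G]

theorem wsum_sub {S P : G → Prop} {f : G → ℕ} (h : ∀ g, S g → ¬ P g → f g = 0) :
    wsum S f = wsum (fun g => S g ∧ P g) f := by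
  classical
  refine (Finset.sum_subset (fun g => by simp only [Set.Finite.mem_toFinset]; exact And.left) fun g a b => ?_).symm
  simp only [Set.Finite.mem_toFinset, Set.mem_setOf_eq] at a b
  exact h g a fun c => b ⟨a, c⟩

theorem wsum_zero {S : G → Prop} {f : G → ℕ} (h : ∀ g, S g → f g = 0) : wsum S f = 0 :=
  (wsum_congr (fun _ => Iff.rfl) h).trans ((wsum_const S 0).trans (mul_zero _))

/-- The number of pairs inside `C`. -/
def aaC (z t : G) (C : Subgroup G) (u : G) : ℕ :=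
  wsum (fun x => IsConj z x ∧ x ∈ C) fun x => wsum (fun y => IsConj t y ∧ y ∈ C) fun y => ind (u ∈ zpowers (x * y))

theorem aaC_conj (z t : G) (C : Subgroup G) (u n : G) : aaC z t (C :^ n) (n * u * n⁻¹) = aaC z t C u := by
  rw [aaC, wsum_conj n]
  refine wsum_congr (fun g => by beta_reduce; rw [conj_conj, conj_mem_conjg_iff]) fun g _ => ?_
  rw [wsum_conj n]
  exact wsum_congr (fun g => by beta_reduce; rw [conj_conj, conj_mem_conjg_iff]) fun g _ => by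
    rw [conj_mul, ind_congr (mem_zp_conj n)]

omit [Finite G] in
theorem ncard_cls {z z' : G} {C N : Subgroup G} (hN : N ≤ 𝒩(C)) (a : IsConj z z') (b : z' ∈ C)
    (h : ∀ x ∈ C, IsConj z x → ∃ n ∈ N, n * z' * n⁻¹ = x) :
    {x | IsConj z x ∧ x ∈ C}.ncard * Nat.card ↥(N ⊓ 𝒞[z']) = Nat.card N := by
  rw [← ncard_conj N z']
  congr 2
  exact Set.ext fun x => ⟨fun c => h x c.2 c.1, fun ⟨n, c, e⟩ =>
    e ▸ ⟨(conj_conj n).2 a, conj_mem_of_mem_norm (hN c) b⟩⟩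

theorem thompsonR {z t z' t' : G} {C N : Subgroup G} (z2 : z * z = 1) (t2 : t * t = 1) (z1 : z ≠ 1) (t1 : t ≠ 1)
    (hn : ¬ IsConj z t) (hall : ∀ u : G, u * u = 1 → u ≠ 1 → IsConj z u ∨ IsConj t u) (hN : N ≤ 𝒩(C))
    (a : IsConj z z') (b : z' ∈ C) (a' : IsConj t t') (b' : t' ∈ C)
    (h : ∀ x ∈ C, IsConj z x → ∃ n ∈ N, n * z' * n⁻¹ = x) (h' : ∀ x ∈ C, IsConj t x → ∃ n ∈ N, n * t' * n⁻¹ = x) :
    Nat.card N = aaC z t C z' * Nat.card ↥(N ⊓ 𝒞[t']) + aaC z t C t' * Nat.card ↥(N ⊓ 𝒞[z']) := by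
  classical
  have k : ∀ a a' : G, (∀ x ∈ C, IsConj a x → ∃ n ∈ N, n * a' * n⁻¹ = x) →
      wsum (fun x => IsConj a x ∧ x ∈ C) (aaC z t C) = {x | IsConj a x ∧ x ∈ C}.ncard * aaC z t C a' := fun a a' h => by
    rw [← wsum_const]
    refine wsum_congr (fun _ => Iff.rfl) fun g hg => ?_
    obtain ⟨n, c, rfl⟩ := h g hg.2 hg.1
    rw [← aaC_conj z t C a' n, conjg_of_mem_norm (hN c)]
  have e : {x | IsConj z x ∧ x ∈ C}.ncard * ({x | IsConj t x ∧ x ∈ C}.ncard * 1) =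
      {x | IsConj z x ∧ x ∈ C}.ncard * aaC z t C z' + {x | IsConj t x ∧ x ∈ C}.ncard * aaC z t C t' := by
    rw [← k _ _ h, ← k _ _ h', ← wsum_or fun g a b => hn (a.1.trans b.1.symm), ← wsum_const, ← wsum_const]
    unfold aaC
    rw [wsum_comm (fun g => IsConj z g ∧ g ∈ C ∨ IsConj t g ∧ g ∈ C)]
    refine wsum_congr (fun _ => Iff.rfl) fun x hx => ?_
    rw [wsum_comm (fun g => IsConj z g ∧ g ∈ C ∨ IsConj t g ∧ g ∈ C)]
    refine wsum_congr (fun _ => Iff.rfl) fun y hy => ?_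
    obtain ⟨u, a, b, c⟩ := exists_inv (sq_of_conj z2 hx.1) (sq_of_conj t2 hy.1) fun c => hn (hx.1.trans (c.trans hy.1.symm))
    rw [wsum_ind, show {g | (IsConj z g ∧ g ∈ C ∨ IsConj t g ∧ g ∈ C) ∧ g ∈ zpowers (x * y)} = {u} from ?_]
    · simp
    · ext g
      have m := zpowers_le.2 (mul_mem hx.2 hy.2) a
      exact ⟨fun h => inv_unique h.2 a (h.1.elim (sq_of_conj z2 ·.1) (sq_of_conj t2 ·.1))
        (h.1.elim (ne_of_conj z1 ·.1) (ne_of_conj t1 ·.1)) b c, fun h => h ▸ ⟨(hall u b c).imp (⟨·, m⟩) (⟨·, m⟩), a⟩⟩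
  have c := ncard_cls hN a b h
  have d := ncard_cls hN a' b' h'
  have p : 0 < Nat.card N := Nat.card_pos
  refine Nat.eq_of_mul_eq_mul_left p ?_
  generalize Nat.card N = n at *
  calc n * n = {x | IsConj z x ∧ x ∈ C}.ncard * ({x | IsConj t x ∧ x ∈ C}.ncard * 1) *
      (Nat.card ↥(N ⊓ 𝒞[z']) * Nat.card ↥(N ⊓ 𝒞[t'])) := by nth_rewrite 1 [← c]; rw [← d]; ring
    _ = _ := by rw [e, mul_add]; nth_rewrite 1 [← c]; rw [← d]; ring

omit [Finite G] in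
theorem sylow_of_sq {S A : Subgroup G} {p : ℕ} (hp : p.Prime) (hS : Nat.card S = p) (h : S ≤ A)
    (h2 : ¬ p * p ∣ Nat.card A) : IsSylowOf p S A :=
  sylow_mk h (fun q hq d => (Nat.prime_dvd_prime_iff_eq hq hp).1 (hS ▸ d)) fun d =>
    h2 (by rw [← card_mul_relIndex h, hS]; exact Nat.mul_dvd_mul_left _ d)

theorem exists_pair {S S0 : Subgroup G} {p : ℕ} {u x : G} (hp : p.Prime) (h0 : IsSylowOf p S0 𝒞[u])
    (hS : Nat.card S = Nat.card S0) (hx : x ∈ 𝒞(S)) (a : IsConj u x) : ∃ k, k * u * k⁻¹ = x ∧ S = S0 :^ k := by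
  obtain ⟨g, rfl⟩ := isConj_iff.1 a
  have l : S :^ g⁻¹ ≤ 𝒞[u] := by
    rw [← le_conjg_iff, conjg_cent1]; exact mem_cent_iff_le_cent_singleton.1 hx
  obtain ⟨h, b, c⟩ := sylow_trans hp h0 (h0.of_card_eq l (by rw [card_conjg, hS]))
  refine ⟨g * h, ?_, by rw [conjg_mul, ← c, conjg_cancel_inv]⟩
  rw [show g * h * u * (g * h)⁻¹ = g * (h * u * h⁻¹) * g⁻¹ by group, conj_eq_iff_commute.2 (mem_cent_iff.1 b)]

theorem fuse_norm {S : Subgroup G} {p : ℕ} {u x : G} (hp : p.Prime) (h0 : IsSylowOf p S 𝒞[u]) (hx : x ∈ 𝒞(S))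
    (a : IsConj u x) : ∃ n ∈ 𝒩(S), n * u * n⁻¹ = x := by
  obtain ⟨k, b, c⟩ := exists_pair hp h0 rfl hx a
  exact ⟨k, conjg_eq_self_iff.1 c.symm, b⟩

theorem card_norm_of {S A : Subgroup G} {p q : ℕ} (hp : p.Prime) (hS : Nat.card S = p) (h : IsSylowOf p S A)
    (e : Nat.card ↥(𝒞(S) ⊓ A) * q = Nat.card A) : Nat.card ↥(𝒩(S) ⊓ A) = Nat.card ↥(𝒞(S) ⊓ A) * (q % p) := by
  have a := card_inf_mul_relIndex 𝒩(S) A
  have b := card_inf_mul_relIndex 𝒞(S) (𝒩(S) ⊓ A)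
  rw [← inf_assoc, inf_of_le_left (cent_le_norm S)] at b
  have c := Nat.le_of_dvd (by have := hp.two_le; omega) (relIndex_cent_dvd_pred hp hS (inf_le_left : 𝒩(S) ⊓ A ≤ _))
  rw [← a, ← b, mul_assoc] at e
  rw [← b, Nat.eq_of_mul_eq_mul_left Nat.card_pos e, Nat.mul_mod, sylow_count hp h, ← Nat.mul_mod, mul_one,
    Nat.mod_eq_of_lt (by have := hp.two_le; omega)]

/-- local data -/
structure LD (z t : G) (C : Subgroup G) (u : G) (a c i j : ℕ) : Prop where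
  aa : aaC z t C u = a
  card : Nat.card ↥(C ⊓ 𝒞[u]) = c
  nz : {x | (IsConj z x ∧ x ∈ C) ∧ Commute u x}.ncard = i
  nt : {x | (IsConj t x ∧ x ∈ C) ∧ Commute u x}.ncard = j

omit [Finite G] in
theorem ncard_cj (z : G) (C : Subgroup G) (u n : G) : {x | (IsConj z x ∧ x ∈ C :^ n) ∧ Commute (n * u * n⁻¹) x}.ncard =
    {x | (IsConj z x ∧ x ∈ C) ∧ Commute u x}.ncard :=
  Eq.symm <| Set.ncard_congr (fun g _ => n * g * n⁻¹) (fun g a => ⟨⟨(conj_conj n).2 a.1.1, conj_mem_conjg n a.1.2⟩,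
    (Commute.conj_iff n).2 a.2⟩) (by simp) fun g a => ⟨n⁻¹ * g * n, ⟨⟨by simpa using (conj_conj n⁻¹).2 a.1.1,
      mem_conjg.1 a.1.2⟩, (Commute.conj_iff n).1 (by simpa [mul_assoc] using a.2)⟩, by group⟩

theorem LD.conj {z t u : G} {C : Subgroup G} {a c i j : ℕ} (h : LD z t C u a c i j) (n : G) :
    LD z t (C :^ n) (n * u * n⁻¹) a c i j :=
  ⟨(aaC_conj ..).trans h.aa, by rw [← conjg_cent1, ← conjg_inf, card_conjg, h.card], (ncard_cj ..).trans h.nz,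
    (ncard_cj ..).trans h.nt⟩

/-- local data with the normaliser -/
structure LN (z t : G) (S : Subgroup G) (u u' : G) (a c i j n : ℕ) : Prop where
  cj : IsConj u u'
  mem : u' ∈ 𝒞(S)
  ld : LD z t 𝒞(S) u' a c i j
  norm : Nat.card ↥(𝒩(S) ⊓ 𝒞[u']) = n
  fuse : ∀ x ∈ 𝒞(S), IsConj u x → ∃ n ∈ 𝒩(S), n * u' * n⁻¹ = x

namespace LN

variable {z t u u' z' t' f : G} {S S' : Subgroup G} {a c i j n a' c' i' j' n' p q : ℕ}

theorem mk' (hp : p.Prime) (hf : orderOf f = p) (b : Commute u f) (h : LD z t 𝒞[f] u a c i j)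
    (e : c * q = Nat.card 𝒞[u]) (h2 : ¬ p * p ∣ Nat.card 𝒞[u]) : LN z t (zpowers f) u u a c i j (c * (q % p)) := by
  have k : Nat.card (zpowers f) = p := (Nat.card_zpowers f).trans hf
  have s := sylow_of_sq hp k (zpowers_le.2 (mem_cent_iff.2 b.symm)) h2
  rw [← cent_zpowers] at h
  exact ⟨IsConj.refl _, cent_zpowers f ▸ mem_cent_iff.2 b, h, h.card ▸ card_norm_of hp k s (h.card ▸ e),
    fun x => fuse_norm hp s⟩

theorem conj (h : LN z t S u u' a c i j n) (g : G) : LN z t (S :^ g) u (g * u' * g⁻¹) a c i j n :=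
  ⟨(conj_conj g).2 h.cj, conjg_cent S g ▸ conj_mem_conjg g h.mem, conjg_cent S g ▸ h.ld.conj g, by
    rw [← conjg_cent1, ← conjg_norm, ← conjg_inf, card_conjg, h.norm], fun x b d => by
    rw [← conjg_cent] at b
    obtain ⟨x, b, rfl⟩ := b
    obtain ⟨m, e, rfl⟩ := h.fuse x b ((conj_conj g).1 d)
    exact ⟨g * m * g⁻¹, conjg_norm S g ▸ conj_mem_conjg g e, by simp [mul_assoc]⟩⟩

theorem card (z2 : z * z = 1) (t2 : t * t = 1) (z1 : z ≠ 1) (t1 : t ≠ 1) (hn : ¬ IsConj z t)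
    (hall : ∀ u : G, u * u = 1 → u ≠ 1 → IsConj z u ∨ IsConj t u) (h : LN z t S z z' a c i j n)
    (h' : LN z t S t t' a' c' i' j' n') : Nat.card 𝒩(S) = a * n' + a' * n := by
  rw [thompsonR z2 t2 z1 t1 hn hall (norm_cent le_rfl) h.cj h.mem h'.cj h'.mem
    h.fuse h'.fuse, h.ld.aa, h'.ld.aa, h.norm, h'.norm]

theorem ncard (h : LN z t S u u' a c i j n) : {x | IsConj u x ∧ x ∈ 𝒞(S)}.ncard * n = Nat.card 𝒩(S) :=
  h.norm ▸ ncard_cls (norm_cent le_rfl) h.cj h.mem h.fuse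

theorem le_rel (h : LN z t S u u' a c i j n) : n ≤ c * (𝒞(S)).relIndex 𝒩(S) := by
  have b := card_inf_mul_relIndex 𝒞(S) (𝒩(S) ⊓ 𝒞[u'])
  rw [← inf_assoc, inf_of_le_left (cent_le_norm S), h.ld.card, h.norm] at b
  exact b ▸ Nat.mul_le_mul_left _ (relIndex_le_of_le_right inf_le_left (relIndex_pos _ _).ne')

end LN

theorem conj_of_card {S S' : Subgroup G} {p : ℕ} (hp : p.Prime) (h : Nat.card S = p) (h' : Nat.card S' = p)
    (h2 : ¬ p * p ∣ Nat.card G) : ∃ g, S' = S :^ g := by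
  rw [← card_top] at h2
  obtain ⟨g, -, e⟩ := sylow_trans hp (sylow_of_sq hp h le_top h2) (sylow_of_sq hp h' le_top h2)
  exact ⟨g, e⟩

theorem exists_dprod {S : Subgroup G} {p : ℕ} (hp : p.Prime) (h : Nat.card S = p) (h2 : ¬ p * p ∣ Nat.card G) :
    ∃ I, IsInternalDirectProduct S I 𝒞(S) ∧ p * Nat.card I = Nat.card 𝒞(S) := by
  have c := abelian_iff_le_cent.1 (abelian_of_cyclic (isCyclic_of_card_prime (h ▸ hp)))
  obtain ⟨I, e⟩ := (sylow_of_sq hp h c fun d => h2 (d.trans (card_subgroup_dvd_card _))).exists_sdprod (cent_le_norm S)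
  exact ⟨I, ⟨c, e.right_le, fun a ha b hb => (comm_of_le_cent e.right_le hb ha).symm, e.inf_eq, e.sup_eq⟩, h ▸ e.card_mul⟩

omit [Finite G] in
theorem dprod_conj {S I : Subgroup G} (h : IsInternalDirectProduct S I 𝒞(S)) (g : G) :
    IsInternalDirectProduct (S :^ g) (I :^ g) 𝒞(S :^ g) := by
  rw [← conjg_cent]
  refine ⟨conjg_mono g h.1, conjg_mono g h.2.1, ?_, by rw [← conjg_inf, h.2.2.2.1, conjg_bot], by rw [← conjg_sup, h.2.2.2.2]⟩
  rintro _ ⟨a, ha, rfl⟩ _ ⟨b, hb, rfl⟩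
  rw [← map_mul, h.2.2.1 a ha b hb, map_mul]

/-- an exponent -/
def okn (e n : ℕ) : Bool := force (nJ e n) fun j => band (Nat.beq (cmul j j) cone) (bor (Nat.beq (Nat.mod n 2) 1) (bne' j cone))
def fnd (e k : ℕ) : ℕ := Nat.rec (motive := fun _ => ℕ) (nat_lit 0) (fun n ih => bif' (okn e (Nat.succ n)) (Nat.succ n) ih) k
def pairOK (L : FL) : Bool :=
  allL (fun p => allL (fun p' => force (cmul p.1 p'.1) fun e => force (fnd e 12) (okn e)) L) L
def inner (β : ℕ → ℕ) (χ : ℕ → ℕ → Bool) (L : FL) (c : ℕ) (q : ℕ × ℕ) : ℕ :=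
  sumL (fun p' => force (cmul c p'.1) fun e => force (fnd e 12) fun n =>
    npow e n fun N j => force (fs c) fun M => sumL (fun q' => Nat.mul (β q'.2) (phi χ N j M q.1 q'.1)) p'.2) L
def pairSum (α β : ℕ → ℕ) (χ : ℕ → ℕ → Bool) (L : FL) : ℕ :=
  sumL (fun p => sumL (fun q => Nat.mul (α q.2) (inner β χ L p.1 q)) p.2) L
def cntSum (α : ℕ → ℕ) (L : FL) : ℕ := sumL (fun p => sumL (fun q => α q.2) p.2) L

namespace AM

variable {M : AM G}

/-- a list describing a set -/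
structure Lst (M : AM G) (S : G → Prop) (β : ℕ → ℕ) (L : FL) : Prop where
  nd : (flat L).Nodup
  cov : ∀ g v c, S g → M.R g v c → ∃ p ∈ L, c = p.1 ∧ ∃ q ∈ p.2, v = q.1
  wt : ∀ p ∈ L, ∀ q ∈ p.2, q.1 < 4096 ∧ M.wt S q.1 p.1 = β q.2

theorem Lst.sum {S : G → Prop} {β : ℕ → ℕ} {L : FL} (H : M.Lst S β L) (f : G → ℕ) (φ : ℕ → ℕ × ℕ → ℕ)
    (h : ∀ p ∈ L, ∀ q ∈ p.2, ∀ g, S g → M.R g q.1 p.1 → f g = φ p.1 q) :
    wsum (fun g => S g ∧ Commute M.u g) f = sumL (fun p => sumL (fun q => Nat.mul (β q.2) (φ p.1 q)) p.2) L := by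
  classical
  let e : G → ℕ := fun g => if h : ∃ x : ℕ × ℕ, M.R g x.1 x.2 then h.choose.2 * 4096 + h.choose.1 else 0
  have he : ∀ g v c, M.R g v c → e g = c * 4096 + v := fun g v c a => by
    have x : ∃ x : ℕ × ℕ, M.R g x.1 x.2 := ⟨(v, c), a⟩
    obtain ⟨b1, b2⟩ := M.uniq x.choose_spec a
    rw [show e g = _ from dif_pos x, b1, b2]
  rw [wsum_fib f e H.nd fun g a => ?_, flat, List.map_flatMap, List.flatMap_def, List.sum_flatten, List.map_map, sumL_eq]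
  · refine congrArg _ (List.map_congr_left fun p hp => ?_)
    rw [Function.comp, List.map_map, sumL_eq]
    refine congrArg _ (List.map_congr_left fun q hq => ?_)
    obtain ⟨a, b⟩ := H.wt p hp q hq
    rw [← b, AM.wt]
    refine Eq.trans ?_ (wsum_const _ _)
    have : ∀ g, (S g ∧ Commute M.u g) ∧ e g = p.1 * 4096 + q.1 ↔ S g ∧ M.R g q.1 p.1 := fun g =>
      ⟨fun ⟨x, y⟩ => ⟨x.1, by
        obtain ⟨v, c, r⟩ := M.ex x.2
        have := M.lt r
        rw [he g v c r] at y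
        rwa [show v = q.1 by omega, show c = p.1 by omega] at r⟩,
      fun ⟨x, y⟩ => ⟨⟨x, M.com y⟩, he _ _ _ y⟩⟩
    exact wsum_congr this fun g x => h p hp q hq g ((this g).1 x).1 ((this g).1 x).2
  · obtain ⟨v, c, r⟩ := M.ex a.2
    obtain ⟨p, hp, rfl, q, hq, rfl⟩ := H.cov g v c a.1 r
    exact List.mem_flatMap.2 ⟨p, hp, List.mem_map.2 ⟨q, hq, (he _ _ _ r).symm⟩⟩

theorem Lst.cnt {S : G → Prop} {β : ℕ → ℕ} {L : FL} (H : M.Lst S β L) :
    {g | S g ∧ Commute M.u g}.ncard = cntSum β L := by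
  rw [← mul_one (Set.ncard _), ← wsum_const, H.sum _ (fun _ _ => 1) fun _ _ _ _ _ _ _ => rfl]
  simp only [Nat.mul_eq, mul_one, cntSum]

theorem pair {z t x y : G} (z2 : z * z = 1) (t2 : t * t = 1) (hn : ¬ IsConj z t) {v c w d n : ℕ} (a : IsConj z x)
    (b : IsConj t y) (r : M.R x v c) (s : M.R y w d) (ok : okn (cmul c d) n = true) :
    ind (M.u ∈ zpowers (x * y)) = phi M.χ (nN (cmul c d) n) (nJ (cmul c d) n) (fs c) v w := by
  simp only [okn, force_eq, band_eq_true, bor_eq_true, beq_iff, bne'_eq_true] at ok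
  have s' := AB.pow (M.mul r s) n
  obtain ⟨w, w1, w2, w3, w4⟩ := M.chi s' ok.1 fun e => ok.2.elim
    (fun c => hn (a.trans ((dih_isConj_of_odd (sq_of_conj z2 a) (sq_of_conj t2 b) (Nat.odd_iff.2 c) e).trans b.symm)))
    fun c => c (M.uniq s' (e ▸ M.one)).2
  have w5 := zpowers_le.2 (npow_mem_zpowers _ _) w1
  rw [phi, force_eq, force_eq, bif'_eq]
  split_ifs with c
  · exact ind_pos (w4.2 c ▸ w5)
  · exact ind_neg fun d => c (w4.1 (inv_unique w5 d w2 w3 M.u2 M.u1))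

theorem aaC_eq {z t : G} (z2 : z * z = 1) (t2 : t * t = 1) (hn : ¬ IsConj z t) {C : Subgroup G} {α β : ℕ → ℕ} {L : FL}
    (hz : M.Lst (fun x => IsConj z x ∧ x ∈ C) α L) (ht : M.Lst (fun x => IsConj t x ∧ x ∈ C) β L)
    (ok : pairOK L = true) : aaC z t C M.u = pairSum α β M.χ L := by
  have ok : ∀ p ∈ L, ∀ p' ∈ L, okn (cmul p.1 p'.1) (fnd (cmul p.1 p'.1) 12) = true := fun p hp p' hp' => by
    have := allL_eq_true.1 (allL_eq_true.1 ok p hp) p' hp'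
    rwa [force_eq, force_eq] at this
  have k := fun x y (a : IsConj z x) (b : IsConj t y) h => comm_of_mem (sq_of_conj z2 a) (sq_of_conj t2 b) h M.u2
  rw [aaC, wsum_sub (P := Commute M.u) fun x a b => wsum_zero fun y c => ind_neg fun d => b (k x y a.1 c.1 d).1,
    hz.sum _ (inner β M.χ L) fun p hp q hq x a r => ?_]
  · rfl
  rw [wsum_sub (P := Commute M.u) fun y c b => ind_neg fun d => b (k x y a.1 c.1 d).2,
    ht.sum _ (fun d q' => phi M.χ (nN (cmul p.1 d) (fnd (cmul p.1 d) 12)) (nJ (cmul p.1 d) (fnd (cmul p.1 d) 12))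
      (fs p.1) q.1 q'.1) fun p' hp' q' hq' y b s => pair z2 t2 hn a.1 b.1 r s (ok p hp p' hp'), inner]
  simp only [force_eq, npow_eq]

omit [Finite G] in
theorem of_comm {f g : G} {cf v c : ℕ} (hf : M.R f 0 cf) (r : M.R g v c) (h : Commute f g) :
    ap (fs cf) v = v ∧ cmul cf c = cmul c cf := by
  simpa using M.uniq (M.mul hf r) (h.eq ▸ AB.mul0 r hf)

omit [Finite G] in
theorem comm_of {f g : G} {cf v c p : ℕ} (hf : M.R f 0 cf) (hp : Odd p) (f1 : f ^ p = 1) (r : M.R g v c)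
    (h1 : ap (fs cf) v = v) (h2 : cmul cf c = cmul c cf) : Commute f g := by
  have a := M.mul hf r
  rw [Nat.zero_xor, h1, h2] at a
  rcases M.ker (M.inv (AB.mul0 r hf) a) with e | e
  · exact (inv_mul_eq_one.1 e).symm
  have b : g⁻¹ * f * g⁻¹⁻¹ = f * M.u := by rw [← e]; group
  have c := congrArg (· ^ p) b
  obtain ⟨k, rfl⟩ := hp
  simp only [conj_pow, (M.com hf).symm.mul_pow, f1] at c
  rw [pow_succ, pow_mul, pow_two, M.u2] at c
  exact absurd (by simpa using c.symm) M.u1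

theorem wt_and {S P : G → Prop} {v c : ℕ} (h : ∀ g, M.R g v c → P g) : M.wt (fun g => S g ∧ P g) v c = M.wt S v c :=
  congrArg Set.ncard (Set.ext fun g => ⟨fun a => ⟨a.1.1, a.2⟩, fun a => ⟨⟨a.1, h g a.2⟩, a.2⟩⟩)

/-- all pairs -/
def full (CC FX : List ℕ) : FL := CC.map fun c => (c, FX.map fun v => (v, 0))

def subChk (cf : ℕ) (CC FX : List ℕ) (iv : ℕ → ℕ → Bool) (L : FL) : Bool := band (incL (flat L) 0)
  (band (allL (fun p => band (Nat.beq (cmul cf p.1) (cmul p.1 cf)) (allL (fun q => Nat.beq (ap (fs cf) q.1) q.1) p.2)) L)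
    (allL (fun c => allL (fun v => bimp (iv v c) (anyL (fun p => band (Nat.beq c p.1)
      (anyL (fun q => Nat.beq v q.1) p.2)) L)) FX) CC))

theorem lst_of {f : G} {cf p : ℕ} (hf : M.R f 0 cf) (hp : Odd p) (f1 : f ^ p = 1) {CC FX : List ℕ}
    (cov : ∀ g v c, M.R g v c → Commute f g → c ∈ CC ∧ v ∈ FX) {iv : ℕ → ℕ → Bool} {L : FL}
    (H : subChk cf CC FX iv L = true) {S : G → Prop} (hS : ∀ g v c, S g → M.R g v c → iv v c = true) {β : ℕ → ℕ}
    (w : ∀ p ∈ L, ∀ q ∈ p.2, q.1 < 4096 ∧ M.wt S q.1 p.1 = β q.2) : M.Lst (fun x => S x ∧ x ∈ 𝒞[f]) β L := by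
  simp only [subChk, band_eq_true, allL_eq_true, anyL_eq_true, beq_iff, bimp_eq_true] at H
  refine ⟨incL_nodup H.1, fun g v c a r => ?_, fun p hp q hq => ⟨(w p hp q hq).1, ?_⟩⟩
  · obtain ⟨b, d⟩ := cov g v c r (mem_cent_iff.1 a.2).symm
    exact H.2.2 c b v d (hS g v c a.1 r)
  · rw [wt_and fun g r => mem_cent_iff.2 (comm_of hf ‹_› f1 r ((H.2.1 p hp).2 q hq) (H.2.1 p hp).1).symm, (w p hp q hq).2]

theorem ld_of {z t f : G} (z2 : z * z = 1) (t2 : t * t = 1) (hn : ¬ IsConj z t) {α β κ : ℕ → ℕ} {L L' : FL}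
    (hz : M.Lst (fun x => IsConj z x ∧ x ∈ 𝒞[f]) α L) (ht : M.Lst (fun x => IsConj t x ∧ x ∈ 𝒞[f]) β L)
    (h : M.Lst (fun x => True ∧ x ∈ 𝒞[f]) κ L') (ok : pairOK L = true) :
    LD z t 𝒞[f] M.u (pairSum α β M.χ L) (cntSum κ L') (cntSum α L) (cntSum β L) :=
  ⟨aaC_eq z2 t2 hn hz ht ok, by
    rw [← h.cnt, ← Nat.card_coe_set_eq]
    exact Nat.card_congr (Equiv.subtypeEquivRight fun g => ⟨fun a => ⟨⟨trivial, a.1⟩, (mem_cent_iff.1 a.2).symm⟩,
      fun a => ⟨a.1.2, mem_cent_iff.2 a.2.symm⟩⟩), hz.cnt, ht.cnt⟩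

end AM

def cenE (x p : ℕ) (q : ℕ → Bool) : Bool := band (band (relEnum 23 0 x x p 23 0 q) (relEnum 23 0 x x p 0 23 q))
  (decide ([23, 0, p, dig x p, dig x (dig x p)].Nodup ∧ p < 24))

theorem cenE_spec {p : ℕ} {q : ℕ → Bool} {g x : Perm Pt} (H : cenE (code x) p q = true) (hg : g ∈ DD)
    (e : g * x = x * g) : q (code g) = true := by
  simp only [cenE, band_eq_true, decide_eq_true_eq] at H
  have l : ∀ k ∈ [23, 0, p, dig (code x) p, dig (code x) (dig (code x) p)], k < 24 := by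
    have := dig_code_lt x H.2.2
    simp [H.2.2, this, dig_code_lt x this]
  obtain ⟨a, ⟨b, c⟩ | ⟨b, c⟩⟩ := mem_DD.1 hg
  · exact relEnum_spec H.1.1 H.2.1 l a rfl rfl (dig_of_apply (by norm_num) (by norm_num) b)
      (dig_of_apply (by norm_num) (by norm_num) c) e
  · exact relEnum_spec H.1.2 H.2.1 l a rfl rfl (dig_of_apply (by norm_num) (by norm_num) b)
      (dig_of_apply (by norm_num) (by norm_num) c) e

end

end CA.J4o

theorem CA.J4o.realizeEqnsLoc : True := by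
  have := @CA.J4o.pairSum.eq_1
  have := @CA.J4o.pairSum.eq_def
  have := @CA.J4o.pairSum.congr_simp
  have := @CA.J4o.cenE.eq_1
  have := @CA.J4o.cenE.eq_def
  have := @CA.J4o.cenE.congr_simp
  have := @CA.J4o.aaC.eq_1.{0}
  have := @CA.J4o.aaC.eq_def.{0}
  have := @CA.J4o.aaC.congr_simp.{0}
  have := @CA.J4o.cntSum.eq_1
  have := @CA.J4o.cntSum.eq_def
  have := @CA.J4o.cntSum.congr_simp
  have := @CA.J4o.pairOK.eq_1
  have := @CA.J4o.pairOK.eq_def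
  have := @CA.J4o.pairOK.congr_simp
  have := @CA.J4o.AM.subChk.eq_1
  have := @CA.J4o.AM.subChk.eq_def
  have := @CA.J4o.AM.subChk.congr_simp
  have := @CA.J4o.fnd.eq_1
  have := @CA.J4o.fnd.eq_def
  have := @CA.J4o.fnd.congr_simp
  have := @CA.J4o.AM.full.eq_1
  have := @CA.J4o.AM.full.eq_def
  have := @CA.J4o.AM.full.congr_simp
  have := @CA.J4o.okn.eq_1
  have := @CA.J4o.okn.eq_def
  have := @CA.J4o.okn.congr_simp
  have := @CA.J4o.inner.eq_1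
  have := @CA.J4o.inner.eq_def
  have := @CA.J4o.inner.congr_simp
  trivial
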