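/-
The computations for counting pairs of involutions.
-/
import Cfsg.Agent.J4o.Dat
import Cfsg.Agent.J4.Ct

set_option autoImplicit false
set_option maxRecDepth 100000

namespace CA.J4o

open CA.M24 CA.J4

noncomputable section

def χH (u j : ℕ) : Bool := bif' (Nat.beq j cone) (bor (Nat.beq u 0) (Nat.beq (qq u) 1))
  (force (Nat.xor u (ap (fs j) u)) fun r => bif' (Nat.beq r 0)
    (Nat.beq (Nat.mod (Nat.mul (qq u) (Nat.add 1 (sg (sn j)))) 2) 1) (Nat.beq (qq r) 1))
def χN (u j : ℕ) : Bool := bif' (Nat.beq j cone) (Nat.beq u 4) (Nat.beq (Nat.xor u (ap (fs j) u)) 4)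
def g8 (l : List ℕ) (a : ℕ) : ℕ := getL l 0 (Nat.land a 7)
def αH : ℕ → ℕ := g8 [1, 2, 0, 1, 2, 0, 1, 0]
def βH : ℕ → ℕ := g8 [0, 0, 2, 1, 0, 2, 1, 2]
def φH : ℕ → ℕ := g8 [0, 257408, 0, 9217, 255776, 0, 5505, 0]
def αN : ℕ → ℕ := g8 [0, 1, 1, 0, 1, 1, 1, 0]
def βN : ℕ → ℕ := g8 [0, 0, 0, 1, 0, 0, 0, 1]
def φN : ℕ → ℕ := g8 [0, 1, 2688, 0, 7681, 44368, 26241, 0]
def valH : ℕ → ℕ := getL [356767488, 24701968, 1056960, 0] 356767488
def valN : ℕ → ℕ := getL [4139751, 122896, 709888, 839712] 4139751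

def entH (c : ℕ) (q : ℕ × ℕ) : Bool := band (blt' q.1 4096) (bor (band (Nat.beq c cone)
  (bor (band (Nat.beq q.1 0) (Nat.beq q.2 0)) (bor (band (Nat.beq (olab q.1) 2) (Nat.beq q.2 1))
    (band (Nat.beq (olab q.1) 3) (Nat.beq q.2 2)))))
  (band (Nat.ble 3 (Nat.land q.2 7)) (band (Nat.beq (cv lH (ap (nth RD ([], 0, 0) (Nat.shiftRight q.2 3)).2.1
    (Nat.xor q.1 (nth RD ([], 0, 0) (Nat.shiftRight q.2 3)).2.2)) (nth RD ([], 0, 0) (Nat.shiftRight q.2 3)).1 q.1 c)
    (getL rvL 0 (Nat.land q.2 7)))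
    (Nat.beq (cc lH (nth RD ([], 0, 0) (Nat.shiftRight q.2 3)).1 c) (getL rcL cone (Nat.land q.2 7))))))
def fibH (j : ℕ) : Bool := band (incL (flat (MH j)) 0) (band (allL (fun p =>
  band (anyR (fun i => Nat.beq p.1 (cmul (cpow cO i) (getL crH cone j))) 3) (allL (entH p.1) p.2)) (MH j))
  (allR (fun i => force (cmul (cpow cO i) (getL crH cone j)) fun c => bimp (Nat.beq (cmul c c) cone)
    (anyL (fun p => band (Nat.beq p.1 c) (force (bm p.2) fun B => force (fs c) fun m => force (sg (sn c)) fun s =>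
      allP (fun v => bimp (Nat.beq (ap m v) v) (bimp (Nat.beq (qq v * (1 + s) % 2) (0 % 2)) (tb B v))) 12 0)) (MH j))) 3))
def entN (j : ℕ) (q : ℕ × ℕ) : Bool := band (blt' q.1 2048) (bif' (Nat.beq (getL crN cone j) cone)
  (bor (band (Nat.beq q.1 0) (Nat.beq q.2 0)) (bor (band (dc q.1) (Nat.beq q.2 3)) (band (zc q.1)
    (band (bne' (pick LV 12 4095 q.1) 0) (band (Nat.beq (Nat.shiftRight (pick LV 12 4095 q.1) 8) q.2)
      (bor (Nat.beq q.2 1) (Nat.beq q.2 2)))))))
  (bor (band (Nat.beq q.2 (3 + j)) (force (ap (getL SNL 0 j) q.1) fun e => band (blt' e 2048)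
    (Nat.beq (Nat.xor q.1 (Nat.xor e (ap (fs (getL crN cone j)) e))) 0)))
    (band (Nat.beq q.2 7) (band (Nat.beq (ap (fs (getL crN cone j)) q.1) q.1) (bnot (tb (getL IML 0 j) q.1))))))
def chkN (c : ℕ) : Bool := band (chkD (sn c)) (band (blt' (fs c) (2 ^ 144)) (band (Nat.beq (col (fs c) 11) 2048)
  (allR (fun i => Nat.beq (col (fs c) i) (act (sn c) (2 ^ i))) 11)))
def fibN (j : ℕ) : Bool := band (incL (flat (MN j)) 0) (band (allL (fun p =>
  band (Nat.beq p.1 (getL crN cone j)) (allL (entN j) p.2)) (MN j)) (force (getL crN cone j) fun c =>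
    band (chkN c) (band (Nat.beq (sn c) (dd j)) (band (Nat.beq (cmul c c) cone) (force (fs c) fun m =>
      band (anyL (fun p => band (Nat.beq p.1 c) (force (bm p.2) fun B =>
        allP (fun v => bimp (Nat.beq (ap m v) v) (tb B v)) 11 0)) (MN j))
      (bor (Nat.beq c cone) (force (getL IML 0 j) fun B => allP (fun x => tb B (Nat.xor x (ap m x))) 11 0)))))))

theorem g8_and (l : List ℕ) (a : ℕ) : g8 l (Nat.land a 7) = g8 l a :=
  congrArg (getL l 0) ((Nat.and_assoc a 7 7).trans rfl)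

theorem fH0 : fibH 0 = true := by decide +kernel
theorem fH1 : fibH 1 = true := by decide +kernel
theorem fH2 : fibH 2 = true := by decide +kernel
theorem fH3 : fibH 3 = true := by decide +kernel
theorem fN0 : fibN 0 = true := by decide +kernel
theorem fN1 : fibN 1 = true := by decide +kernel
theorem fN2 : fibN 2 = true := by decide +kernel
theorem fN3 : fibN 3 = true := by decide +kernel
theorem vH : ∀ j < 4, sumL (fun p => sumL (fun q => Nat.mul (αH q.2) (φH q.2)) p.2) (MH j) = valH j := by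
  decide +kernel
theorem vN' : ∀ j < 4, sumL (fun p => sumL (fun q => Nat.mul (αN q.2) (φN q.2)) p.2) (MN j) = valN j := by
  decide +kernel
theorem lN_chk : allL (fun c => band (chkN c) (Nat.beq (cmul c c) cone)) (cone :: lNL) = true := by decide +kernel
theorem tabN : [sn (lw lN [0]), sn (lw lN [1]), sn (lw lN [2])] = [sn (lw lH [0]), sn (lw lH [1]), sn (lw lH [2])] := by
  decide +kernel

theorem IT_srt : IT.srt 0 (2 ^ 120) = true := by decide +kernel
theorem IT_val : IT.all valid = true := by decide +kernel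
theorem IT_clo : IT.all (fun k => allL (fun h => bne' (IT.find (cjp h k)) 0) [ca, ct, cu]) = true := by decide +kernel
theorem IT_T : TL.all (fun c => force (sn c) fun p => bimp (Nat.beq (pmul p p) pone) (bne' (IT.find p) 0)) = true := by
  decide +kernel

theorem tabH : tabChk IT [sn (lw lH [0]), sn (lw lH [1]), sn (lw lH [2])] L0 dd = true := by decide +kernel
theorem sumH : sumT (fun k => valH (lb IT L0 k)) IT = 29236337328 := by decide +kernel
theorem sumN : sumT (fun k => valN (lb IT L0 k)) IT = 1544188503 := by decide +kernel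

theorem cH0 : clsOK IT lH 0 cone wH0 4096 L0 oH0 DH0 0 = true := by decide +kernel
theorem cH1 : clsOK IT lH 53 cone wH1 4096 LH1 oH1 DH1 257408 = true := by decide +kernel
theorem cH2 : clsOK IT lH 0 cX wH2 4096 LH2 oH2 DH2 9217 = true := by decide +kernel
theorem cH3 : clsOK IT lH 53 cX wH3 4096 LH3 oH3 DH3 255776 = true := by decide +kernel
theorem cH4 : clsOK IT lH 0 cT3 wH4 4096 LH4 oH4 DH4 5505 = true := by decide +kernel
theorem rH0 : allL (orbOK lH βH χH dd MH 0 cone) (oH0 :: DH0) = true := by decide +kernel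
theorem rH1 : allL (orbOK lH βH χH dd MH 53 cone) (oH1 :: DH1) = true := by decide +kernel
theorem rH2 : allL (orbOK lH βH χH dd MH 0 cX) (oH2 :: DH2) = true := by decide +kernel
theorem rH3 : allL (orbOK lH βH χH dd MH 53 cX) (oH3 :: DH3) = true := by decide +kernel
theorem rH4 : allL (orbOK lH βH χH dd MH 0 cT3) (oH4 :: DH4) = true := by decide +kernel

theorem cN0 : clsOK IT lN 64 cone wN0 2048 LN0 oN0 DN0 1 = true := by decide +kernel
theorem cN1 : clsOK IT lN 1 cone wN1 2048 LN1 oN1 DN1 2688 = true := by decide +kernel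
theorem cN2 : clsOK IT lN 0 (getL crN cone 1) wN2 2048 LN2 oN2 DN2 7681 = true := by decide +kernel
theorem cN3 : clsOK IT lN 0 (getL crN cone 2) wN3 2048 LN3 oN3 DN3 44368 = true := by decide +kernel
theorem cN4 : clsOK IT lN 0 (getL crN cone 3) wN4 2048 LN4 oN4 DN4 26241 = true := by decide +kernel
theorem rN0 : allL (orbOK lN βN χN dd MN 64 cone) (oN0 :: DN0) = true := by decide +kernel
theorem rN1 : allL (orbOK lN βN χN dd MN 1 cone) (oN1 :: DN1) = true := by decide +kernel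
theorem rN2 : allL (orbOK lN βN χN dd MN 0 (getL crN cone 1)) (oN2 :: DN2) = true := by decide +kernel
theorem rN3 : allL (orbOK lN βN χN dd MN 0 (getL crN cone 2)) (oN3 :: DN3) = true := by decide +kernel
theorem rN4 : allL (orbOK lN βN χN dd MN 0 (getL crN cone 3)) (oN4 :: DN4) = true := by decide +kernel
theorem vN : AB.vecChk lN LV [0, 64, 1] = true := by decide +kernel

end

end CA.J4o

theorem CA.J4o.realizeEqnsChk : True := by
  have := @CA.J4o.χN.eq_1
  have := @CA.J4o.χN.eq_def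
  have := @CA.J4o.χN.congr_simp
  have := @CA.J4o.φN.eq_1
  have := @CA.J4o.φN.eq_def
  have := @CA.J4o.φN.congr_simp
  have := @CA.J4o.χH.eq_1
  have := @CA.J4o.χH.eq_def
  have := @CA.J4o.χH.congr_simp
  have := @CA.J4o.fibN.eq_1
  have := @CA.J4o.fibN.eq_def
  have := @CA.J4o.fibN.congr_simp
  have := @CA.J4o.entN.eq_1
  have := @CA.J4o.entN.eq_def
  have := @CA.J4o.entN.congr_simp
  have := @CA.J4o.βN.eq_1
  have := @CA.J4o.βN.eq_def
  have := @CA.J4o.βN.congr_simp
  have := @CA.J4o.fibH.eq_1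
  have := @CA.J4o.fibH.eq_def
  have := @CA.J4o.fibH.congr_simp
  have := @CA.J4o.αN.eq_1
  have := @CA.J4o.αN.eq_def
  have := @CA.J4o.αN.congr_simp
  have := @CA.J4o.entH.eq_1
  have := @CA.J4o.entH.eq_def
  have := @CA.J4o.entH.congr_simp
  have := @CA.J4o.βH.eq_1
  have := @CA.J4o.βH.eq_def
  have := @CA.J4o.βH.congr_simp
  have := @CA.J4o.valH.eq_1
  have := @CA.J4o.valH.eq_def
  have := @CA.J4o.valH.congr_simp
  have := @CA.J4o.g8.eq_1
  have := @CA.J4o.g8.eq_def
  have := @CA.J4o.g8.congr_simp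
  have := @CA.J4o.valN.eq_1
  have := @CA.J4o.valN.eq_def
  have := @CA.J4o.valN.congr_simp
  have := @CA.J4o.chkN.eq_1
  have := @CA.J4o.chkN.eq_def
  have := @CA.J4o.chkN.congr_simp
  have := @CA.J4o.φH.eq_1
  have := @CA.J4o.φH.eq_def
  have := @CA.J4o.φH.congr_simp
  have := @CA.J4o.αH.eq_1
  have := @CA.J4o.αH.eq_def
  have := @CA.J4o.αH.congr_simp
  trivial
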