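/-
The classes of the involutions of the normaliser of the elementary abelian group of order 2048.
-/
import Cfsg.Agent.J4.Ct
import Cfsg.Agent.J4o.Th

set_option autoImplicit false
set_option maxRecDepth 100000
set_option linter.unusedSectionVars false

namespace CA.J4.HM

open CA.M24 CA.Fi CA.FG CA.J4o Cfsg Subgroup Equiv
open scoped symmDiff Pointwise

noncomputable section

variable {G : Type*} [Group G] [Finite G] {X : HM G} [hF : Fact X.Fu]

theorem not_both {g : G} (a : IsConj X.z g) (b : IsConj X.t g) : False := X.not_conj_t (a.trans b.symm)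

theorem t_of_not {g : G} (e : g * g = 1) (h : g ≠ 1) (a : ¬ IsConj X.z g) : IsConj X.t g :=
  ((X.inv_cases e).resolve_left h).resolve_left a

omit hF in
theorem Rq.root {g : G} {v x : ℕ} (h : X.Rq g v cone) (hx : x < 64) (e : olab v = olab (ap mW x)) :
    IsConj (X.ev x) g ∨ IsConj (X.ev (x ^^^ 64)) g := by
  obtain ⟨i, rfl⟩ := h.eq_of_cone
  obtain ⟨n, -, k, a⟩ := X.conj_of_olab h.lt (ap_lt _ _) e i
  obtain ⟨e, he, b⟩ := VV.eq (X := X) (g := X.s (ap mW x) * X.z ^ k) (x := x) (by omega) (by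
    unfold VV
    rw [(by decide +kernel : ∀ x < 64, uc (sh7 x) = cone) x hx]
    exact (X.rq_s (ap_lt _ _)).mulz k)
  have := (isConj_iff.2 ⟨n, a.trans b⟩).symm
  interval_cases e
  exacts [.inl (by simpa using this), .inr this]

theorem Rq.two {g : G} {v : ℕ} (h : X.Rq g v cone) (e : olab v = 2) : IsConj X.z g :=
  (h.root (x := 1) (by norm_num) (e.trans (by decide +kernel))).elim
    ((X.zc_iff (by norm_num)).2 (by decide +kernel)).trans ((X.zc_iff (by decide)).2 (by decide +kernel)).trans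

theorem Rq.three {g : G} {v : ℕ} (h : X.Rq g v cone) (e : olab v = 3) : IsConj X.t g :=
  (h.root (x := 4) (by norm_num) (e.trans (by decide +kernel))).elim
    (conj_t_of (by norm_num) (by decide +kernel)).trans (conj_t_of (by decide) (by decide +kernel)).trans

theorem Rq.of_z {g : G} {v : ℕ} (h : X.Rq g v cone) (a : IsConj X.z g) : v = 0 ∨ olab v = 2 := by
  have c := allV (by decide +kernel : allP (fun v => bor (Nat.beq v 0) (bor (Nat.beq (olab v) 2)
    (bor (Nat.beq (olab v) 3) (Nat.beq (qq v) 1)))) 12 0 = true) h.lt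
  simp only [bor_eq_true, beq_iff] at c
  rcases c with c | c | c | c
  exacts [.inl c, .inr c, (not_both a (h.three c)).elim, by
    obtain ⟨i, rfl⟩ := h.eq_of_cone
    have := sq_of_conj X.z_sq a
    rw [mul_assoc, X.sz', X.zz, mul_one, X.s_sq h.lt, c, pow_one] at this
    exact absurd this X.z_ne]

omit hF in
theorem Rq.evl {g : G} {v c x : ℕ} (h : X.Rq g v c) (hx : x < 128) : X.Rq (X.ev x * g) (ap mW x ^^^ v) c := by
  have := Rq.mul (X.vv_ev (x := x) (by omega)) h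
  rwa [(by decide +kernel : ∀ x < 128, uc (sh7 x) = cone) x hx, fs_cone, ap_mone h.lt, h.ex.cone_mul] at this

variable (X) in
/-- `w` is a commutator of `y` with a member of `V` -/
def Im (y w : G) : Prop := ∃ u ∈ X.V, w = u * (y * u * y⁻¹)

omit hF in
theorem Im.conj {y w : G} (h : X.Im y w) : IsConj y (w * y) := by
  obtain ⟨u, hu, rfl⟩ := h
  exact isConj_iff.2 ⟨u, by rw [inv_eq_of_mul_eq_one_right (X.V_sq hu)]; group⟩

omit hF in
theorem Im.mul {y w w' : G} (hy : y ∈ 𝒩(X.V)) (a : X.Im y w) (b : X.Im y w') : X.Im y (w * w') := by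
  obtain ⟨u, hu, rfl⟩ := a
  obtain ⟨v, hv, rfl⟩ := b
  exact ⟨_, mul_mem hu hv, by
    rw [cjm, mul_assoc, ← mul_assoc _ v, (X.V_comm (conj_mem_of_mem_norm hy hu) hv).eq]; simp only [mul_assoc]⟩

omit hF in
theorem TH.im {y : G} {p : Perm Pt} (h : X.TH y p) {k : ℕ} (hk : k < 2048) :
    X.Im y (X.ev k) ↔ ∃ x < 2048, k = x ^^^ J4.act (code p) x :=
  ⟨fun ⟨_, ⟨x, hx, e⟩, a⟩ => ⟨x, hx, X.ev_inj hk (xor_lt11 hx (act_lt _ _)) (by rw [a, ← e, h.act hx, X.ev_xor])⟩,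
    fun ⟨x, hx, e⟩ => ⟨_, X.ev_mem hx, by rw [h.act hx, ← X.ev_xor, e]⟩⟩

theorem TH.fix_of_sq {f : G} {p : Perm Pt} (h : X.TH f p) (f2 : f * f = 1) {x : ℕ} (hx : x < 2048)
    (e : X.ev x * f * (X.ev x * f) = 1) : J4.act (code p) x = x := (h.fix hx).1 (comm_of_sq (X.ev_sq x) f2 e)

omit hF in
theorem TH.div' {g h : G} {p : Perm Pt} (a : X.TH g p) (b : X.TH h p) : ∃ x < 2048, g = X.ev x * h := by
  obtain ⟨x, hx, e⟩ := a.div b
  exact ⟨x, hx, by rw [e, inv_mul_cancel_right]⟩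

def SA : ℕ := nat_lit 5018703619849239658496
def SB' : ℕ := nat_lit 19037256056850372626304
def imS (S p k : ℕ) : Bool := force (ap S k) fun x => band (blt' x 2048) (Nat.beq k (Nat.xor x (act p x)))

omit hF in
theorem TH.imS {y : G} {p : Perm Pt} (h : X.TH y p) {S k : ℕ} (hk : k < 2048) (e : imS S (code p) k = true) :
    X.Im y (X.ev k) := by
  rw [HM.imS, force_eq, band_eq_true, blt'_eq_true, beq_iff] at e
  exact (h.im hk).2 ⟨_, e⟩

theorem κA_sq : X.κ ⟨_, qA_in.perm_mem⟩ * X.κ ⟨_, qA_in.perm_mem⟩ = 1 := by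
  rw [← map_mul, ← X.κ.map_one]
  exact congrArg _ (Subtype.ext (code_inj (by rw [coe_mul, ← pmul_code, qA_in.code_perm, coe_one, code_one]; decide +kernel)))

theorem hA1 {k : ℕ} (hk : k < 2048) (e : act qA k = k) : imS SA qA k = true ∨
    IsConj (X.ev 3 * X.κ ⟨_, qA_in.perm_mem⟩) (X.ev k * X.κ ⟨_, qA_in.perm_mem⟩) := by
  have c := all11 (by decide +kernel : allP (fun k => bimp (Nat.beq (act qA k) k) (bor (imS SA qA k)
    (anyR (fun i => force (Nat.xor k (act (ppow k7 i) 3)) (imS SA qA)) 7))) 11 0 = true) hk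
  simp only [bimp_eq_true, beq_iff, bor_eq_true, anyR_eq_true, force_eq] at c
  refine (c e).imp_right fun ⟨i, _, c⟩ => ?_
  have h7 : InH M24 k7 := inM_of_chk (by decide +kernel)
  have cm : Commute (X.κ (⟨_, h7.perm_mem⟩ ^ i)) (X.κ ⟨_, qA_in.perm_mem⟩) := (Commute.pow_left (Subtype.ext
    (commB_code.1 (by rw [h7.code_perm, qA_in.code_perm]; decide +kernel))) i).map _
  have a := ((X.th_κ ⟨_, qA_in.perm_mem⟩).mulV (X.ev_mem (act_lt (ppow k7 i) 3))).imS
    (xor_lt11 hk (act_lt (ppow k7 i) 3)) (qA_in.code_perm.symm ▸ c)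
  refine IsConj.trans (isConj_iff.2 ⟨X.κ (⟨_, h7.perm_mem⟩ ^ i), ?_⟩) (a.conj.trans ?_)
  · rw [cjm, conj_eq_iff_commute.2 cm, (X.th_κ _).act (by norm_num), coe_pow, ← ppow_code, h7.code_perm]
  · rw [← mul_assoc, ← X.ev_xor, Nat.xor_xor_cancel_right]

theorem κA_cls : IsConj X.z (X.κ ⟨_, qA_in.perm_mem⟩) ∧ IsConj X.t (X.ev 3 * X.κ ⟨_, qA_in.perm_mem⟩) := by
  have hf := X.th_s (e := 351) (c := qA) (by decide +kernel)
  obtain ⟨x, hx, e⟩ := (X.th_κ ⟨_, qA_in.perm_mem⟩).div' hf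
  obtain ⟨v, hv⟩ := X.rq_EE X.κA_EE
  have h1 : x < 128 := by
    have := (hv.unique (e ▸ Rq.mul (X.vv_ev hx) (X.rq_s (by norm_num)))).2
    have := (by decide +kernel : ∀ k < 16, cone = cmul (uc k) cone → k = 0) _ (sh7_lt hx) this
    change x >>> 7 = 0 at this
    rw [Nat.shiftRight_eq_div_pow] at this; omega
  have h2 := hf.fix_of_sq (by rw [X.s_sq (by norm_num), show qq 351 = 0 by decide +kernel, pow_zero]) hx (e ▸ κA_sq)
  have h3 : X.Rq (X.κ ⟨_, qA_in.perm_mem⟩) _ cone := e ▸ (X.rq_s (by norm_num)).evl h1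
  rw [qA_in.code_perm] at h2
  rcases (by decide +kernel : ∀ x < 128, act qA x = x → (olab (ap mW x ^^^ 351) = 2 ∧ olab (ap mW 3 ^^^ (ap mW x ^^^ 351)) = 3) ∨
    ∃ k ∈ [3, 9, 10], ∃ l ∈ [3, 9, 10], olab (ap mW k ^^^ (ap mW x ^^^ 351)) = 2 ∧
      olab (ap mW l ^^^ (ap mW x ^^^ 351)) = 3) x h1 h2 with ⟨a, b⟩ | ⟨k, hk, l, hl, a, b⟩
  · exact ⟨h3.two a, (h3.evl (by norm_num)).three b⟩
  have c := (by decide +kernel : ∀ k ∈ [3, 9, 10], k < 128 ∧ act qA k = k ∧ ¬ imS SA qA k = true)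
  exact (not_both (((h3.evl (c k hk).1).two a).trans (((hA1 (by have := c k hk; omega) (c k hk).2.1).resolve_left
    (c k hk).2.2).symm.trans ((hA1 (by have := c l hl; omega) (c l hl).2.1).resolve_left (c l hl).2.2)))
    ((h3.evl (c l hl).1).three b)).elim

theorem fB : X.TH (X.s 84) (perm qB) ∧ X.s 84 * X.s 84 = 1 :=
  ⟨X.th_s (by decide +kernel), by rw [X.s_sq (by norm_num), show qq 84 = 0 by decide +kernel, pow_zero]⟩

theorem over_B {y : G} (h : X.TH y (perm qB)) (e : y * y = 1) :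
    ∃ x < 128, act qB x = x ∧ y = X.ev x * X.s 84 ∧ X.Rq y (ap mW x ^^^ 84) cone := by
  obtain ⟨x, hx, rfl⟩ := h.div' fB.1
  have a := fB.1.fix_of_sq fB.2 hx e
  rw [qB_in.code_perm] at a
  have b := blt'_eq_true.1 (bimp_eq_true.1 (all11 (by decide +kernel :
    allP (fun x => bimp (Nat.beq (act qB x) x) (blt' x 128)) 11 0 = true) hx) (beq_iff.2 a))
  exact ⟨x, b, a, rfl, (X.rq_s (by norm_num)).evl b⟩

/-- the conjugates of the involution in a coset of `V` -/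
theorem TH.im_of {y w : G} {p : Perm Pt} (h : X.TH y p) (p1 : p ≠ 1) (hw : w ∈ X.V) (a : IsConj X.z y)
    (b : IsConj X.z (w * y)) : X.Im y w := by
  obtain ⟨m, hm, e⟩ := conj_qAB h.inM (h.sq (sq_of_conj X.z_sq a)) p1
  obtain ⟨n, hn⟩ := X.TH_surj hm
  suffices X.Im (n * y * n⁻¹) (n * w * n⁻¹) by
    obtain ⟨u, hu, c⟩ := this
    exact ⟨_, conj_mem_of_mem_norm' hn.mem hu, by
      rw [show w = n⁻¹ * (n * w * n⁻¹) * n by group, c]; group⟩
  have h1 := h.conj hn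
  have a1 := (conj_conj n).2 a
  have b1 := (conj_conj n).2 b
  obtain ⟨k, hk, e1⟩ := conj_mem_of_mem_norm hn.mem hw
  rw [cjm, ← e1] at b1
  rw [← e1]
  generalize n * y * n⁻¹ = y at *
  rcases e with e | e <;> rw [e] at h1
  · have c : ∀ k < 2048, IsConj X.z (X.ev k * X.κ ⟨_, qA_in.perm_mem⟩) → X.Im y (X.ev k) := fun k hk c =>
      h1.imS hk (qA_in.code_perm.symm ▸ (hA1 hk (qA_in.code_perm ▸ (X.th_κ ⟨_, qA_in.perm_mem⟩).fix_of_sq κA_sq hk
        (sq_of_conj X.z_sq c))).resolve_right fun d => not_both c (κA_cls.2.trans d))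
    obtain ⟨x, hx, e⟩ := h1.div' (X.th_κ ⟨_, qA_in.perm_mem⟩)
    have := (c _ (xor_lt11 hk hx) (by rwa [X.ev_xor, mul_assoc, ← e])).mul h1.mem (c x hx (e ▸ a1))
    rwa [← X.ev_xor, Nat.xor_xor_cancel_right] at this
  · obtain ⟨x, hx, x1, x2, x3⟩ := over_B h1 (sq_of_conj X.z_sq a1)
    obtain ⟨x', hx', y1, y2, y3⟩ := over_B (h1.mulV (X.ev_mem hk)) (sq_of_conj X.z_sq b1)
    rw [x2, ← mul_assoc, mul_left_inj, ← X.ev_xor] at y2
    have e := X.ev_inj (xor_lt11 hk (by omega)) (by omega) y2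
    refine h1.imS (S := SB') hk ?_
    rw [qB_in.code_perm, ← Nat.xor_xor_cancel_right k x, e]
    have c := allR_eq_true.1 (by decide +kernel : allR (fun x => bimp (Nat.beq (J4.act qB x) x)
      (band (bne' (Nat.xor (ap mW x) 84) 0) (bimp (Nat.beq (olab (Nat.xor (ap mW x) 84)) 2) (allR (fun y =>
        bimp (Nat.beq (J4.act qB y) y) (bimp (Nat.beq (olab (Nat.xor (ap mW y) 84)) 2)
          (force (Nat.xor y x) (HM.imS SB' qB)))) 128)))) 128 = true)
    simp only [bimp_eq_true, beq_iff, band_eq_true, bne'_eq_true, allR_eq_true, force_eq] at c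
    exact (c x hx x1).2 ((x3.of_z a1).resolve_left (c x hx x1).1) x' hx' y1 ((y3.of_z b1).resolve_left (c x' hx' y1).1)

variable (X) in
theorem exists_Kz : ∃ K : M24 →* G, (∀ p : M24, X.TH (K p) p) ∧ ∀ p : M24, p * p = 1 → p ≠ 1 → IsConj X.z (K p) := by
  suffices ∃ K : M24 →* G, (∀ p : M24, X.TH (K p) p) ∧ IsConj X.z (K ⟨_, qA_in.perm_mem⟩) ∧
      IsConj X.z (K ⟨_, qB_in.perm_mem⟩) by
    obtain ⟨K, h, a, b⟩ := this
    refine ⟨K, h, fun p p2 p1 => ?_⟩
    obtain ⟨m, hm, e⟩ := conj_qAB p.2 (congrArg Subtype.val p2) fun e => p1 (Subtype.ext e)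
    rw [← conj_conj (K ⟨m, hm⟩), ← map_inv, ← map_mul, ← map_mul]
    rcases e with e | e
    · rwa [show (⟨m, hm⟩ * p * ⟨m, hm⟩⁻¹ : M24) = ⟨_, qA_in.perm_mem⟩ from Subtype.ext e]
    · rwa [show (⟨m, hm⟩ * p * ⟨m, hm⟩⁻¹ : M24) = ⟨_, qB_in.perm_mem⟩ from Subtype.ext e]
  by_cases hB : IsConj X.z (X.κ ⟨_, qB_in.perm_mem⟩)
  · exact ⟨X.κ, X.th_κ, κA_cls.1, hB⟩
  have ev : ∀ p : Perm Pt, Even (({pt 6} : Finset Pt) ∆ {p (pt 6)}).card := fun p => by
    have := card_symmDiff_add {pt 6} {p (pt 6)}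
    rw [Finset.card_singleton, Finset.card_singleton] at this
    exact Nat.even_iff.2 (by omega)
  refine ⟨MonoidHom.mk' (fun p => X.ψ ({pt 6} ∆ {(p : Perm Pt) (pt 6)}) * X.κ p) fun p q => ?_,
    fun p => (X.th_κ p).mulV (X.ψ_mem _), ?_, ?_⟩
  · have := (X.th_κ p).cj _ (ev q)
    rw [Finset.smul_finset_symmDiff, Finset.smul_finset_singleton, Finset.smul_finset_singleton, Perm.smul_def,
      Perm.smul_def] at this
    rw [map_mul, mul_assoc _ (X.κ p), ← mul_assoc (X.κ p), mul_inv_eq_iff_eq_mul.1 this, mul_assoc _ (X.κ p),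
      ← mul_assoc (X.ψ _) (X.ψ _), ← X.todd.mul, symmDiff_assoc, symmDiff_symmDiff_cancel_left, coe_mul, Perm.mul_apply]
  · rw [MonoidHom.mk'_apply, coe_mk, apply_pt _ (by norm_num), qA_in.code_perm, show dig qA 6 = 6 by decide +kernel,
      symmDiff_self, (X.todd.ker ⊥ (by simp)).2 empty_mem_Cs, one_mul]
    exact κA_cls.1
  · rw [MonoidHom.mk'_apply, coe_mk, apply_pt _ (by norm_num), qB_in.code_perm, show dig qB 6 = 21 by decide +kernel,
      pair_eq (by decide), X.ψ_pair (by decide), idx_pt (by norm_num), idx_pt (by norm_num),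
      show du 6 21 = 9 by decide +kernel]
    obtain ⟨x, hx, a, -, b⟩ := over_B (X.th_κ ⟨_, qB_in.perm_mem⟩) (by
      rw [← map_mul, ← X.κ.map_one]
      exact congrArg _ (Subtype.ext (code_inj (by
        rw [coe_mul, ← pmul_code, qB_in.code_perm, coe_one, code_one]; decide +kernel))))
    exact (b.evl (by norm_num)).two (((by decide +kernel : ∀ x < 128, act qB x = x → olab (ap mW x ^^^ 84) = 2 ∨
      olab (ap mW 9 ^^^ (ap mW x ^^^ 84)) = 2) x hx a).resolve_left fun c => hB (b.two c))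

variable (X) in
/-- the complement whose involutions are conjugate to the involution -/
def K : M24 →* G := X.exists_Kz.choose

theorem th_K (p : M24) : X.TH (X.K p) p := X.exists_Kz.choose_spec.1 p

theorem K_z (p : M24) (a : p * p = 1) (b : p ≠ 1) : IsConj X.z (X.K p) := X.exists_Kz.choose_spec.2 p a b

end

end CA.J4.HM

theorem CA.J4o.realizeEqnsCl : True := by
  have := @CA.J4.HM.K.eq_1.{0}
  have := @CA.J4.HM.K.eq_def.{0}
  have := @CA.J4.HM.K.congr_simp.{0}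
  have := @CA.J4.HM.imS.eq_1
  have := @CA.J4.HM.imS.eq_def
  have := @CA.J4.HM.imS.congr_simp
  have := @CA.J4.HM.Im.eq_1.{0}
  have := @CA.J4.HM.Im.eq_def.{0}
  have := @CA.J4.HM.Im.congr_simp.{0}
  have := @CA.J4.HM.SA.eq_1
  have := @CA.J4.HM.SA.eq_def
  have := @CA.J4.HM.SA.congr_simp
  have := @CA.J4.HM.SB'.eq_1
  have := @CA.J4.HM.SB'.eq_def
  have := @CA.J4.HM.SB'.congr_simp
  trivial
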