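/-
Pairs of involutions in the centraliser of the first involution.
-/
import Cfsg.Agent.J4o.Chk
import Cfsg.Agent.J4o.Cl

set_option autoImplicit false
set_option maxRecDepth 100000
set_option linter.unusedSectionVars false

namespace CA.J4.HM

open CA.M24 CA.Fi CA.FG CA.J4o Cfsg Subgroup Equiv
open scoped Pointwise

noncomputable section

variable {G : Type*} [Group G] [Finite G] {X : HM G}

include X in
theorem IT_cov {d : Perm Pt} (hd : d ∈ DD) (e : d * d = 1) : code d ∈ IT.keys := by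
  obtain ⟨n, c, h, rfl⟩ := exists_lift (X := X) hd
  obtain ⟨i, hi, a⟩ := Ex.eq_of_sn ⟨_, h.mul h⟩ ⟨_, X.rc_one⟩ (by
    rw [← (h.mul h).code_π, X.π_mul _ _ h.zc h.zc, e, code_one, sn_cone])
  obtain ⟨k, b⟩ := RC.eq_of_cone ((by decide +kernel : ∀ i < 3, cpow (cmul (cpow cO i) cone) 3 = cone) i hi ▸
    (a ▸ h.mul h).pow 3)
  have h4 : (n ^ 3) ^ 2 ^ 2 = 1 := by
    rw [← X.zz k, ← b, ← pow_two n, ← pow_mul, ← pow_mul, ← pow_add]; rfl
  obtain ⟨m, hm, f⟩ := sylow_Jsub Nat.prime_two X.T_sylH (Q := zpowers (n ^ 3)) (pGrp_of_forall_pow Nat.prime_two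
    (k := 2) fun x ⟨j, hj⟩ => by rw [← hj, ← zpow_natCast, ← zpow_mul, mul_comm, zpow_mul, zpow_natCast, h4, one_zpow])
    (zpowers_le.2 (mem_cent_iff.2 (h.zc.pow_right 3).symm))
  obtain ⟨v, c', h1, h2⟩ := X.rq_T (f (conj_mem_conjg m (mem_zpowers _)))
  have hm := (mem_cent_iff.1 hm).symm
  have e1 : sn c' = code (X.π m * X.π n * (X.π m)⁻¹) := by
    rw [← h1.code_π, X.π_mul _ _ (hm.mul_right (h.zc.pow_right 3)) hm.inv_right, X.π_mul _ _ hm (h.zc.pow_right 3),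
      X.π_inv hm, X.π_pow h.zc, pow_succ, pow_two, e, one_mul]
  have k := InT.all IT_T h2
  rw [force_eq, bimp_eq_true, beq_iff, bne'_eq_true, e1, pmul_code, conj_mul, e] at k
  have k := Tr.mem_keys_of_find (k (by simp [code_one]))
  have := gen_induction (fun g => ∀ d, code d ∈ IT.keys → code (g * d * g⁻¹) ∈ IT.keys) (by simp)
    (fun g h hg ih d hd => by
      have := allL_eq_true.1 (Tr.all_eq_true.1 IT_clo _ (ih d hd)) _ hg
      rw [cjp_code, bne'_eq_true] at this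
      simpa only [mul_inv_rev, mul_assoc] using Tr.mem_keys_of_find this)
    (DD_le_gen (inv_mem (X.π_mem m hm))) _ k
  simpa [mul_assoc] using this

variable (X) in
theorem ex_lH (i : ℕ) : X.Ex (lH i) ∧ cmul (lH i) (lH i) = cone := by
  rcases getL_mem lHL cone i with e | e
  · rw [lH, e]; exact ⟨⟨_, X.rc_one⟩, by decide +kernel⟩
  have c := allL_eq_true.1 (by decide +kernel : allL (fun c => band (anyL (fun w => Nat.beq (evalC cgens w) c) lW)
    (Nat.beq (cmul c c) cone)) lHL = true) _ e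
  simp only [band_eq_true, anyL_eq_true, beq_iff] at c
  obtain ⟨⟨w, -, a⟩, b⟩ := c
  exact ⟨X.ex_of_word w a, b⟩

theorem dd_cases (j : ℕ) : dd j = sn cone ∨ dd j = sn cX ∨ dd j = sn (evalC ygens [1]) ∨
    dd j = sn (evalC ygens [3, 1, 0, 1, 0, 1, 0]) := by
  rcases j with _ | _ | _ | _ | j
  exacts [.inl (by decide +kernel), .inr (.inl (by decide +kernel)), .inr (.inr (.inl (by decide +kernel))),
    .inr (.inr (.inr (by decide +kernel))), .inl sn_cone.symm]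

variable [hF : Fact X.Fu]

theorem RC.sq {n : G} {c : ℕ} (h : X.RC n c) (e : cmul c c = cone) : n * n = 1 := by
  have hk : sn c ∈ IT.keys := h.code_π ▸ IT_cov (X := X) (X.π_mem n h.zc) (by
    rw [← X.π_mul _ _ h.zc h.zc]; exact code_inj ((e ▸ h.mul h).code_π.trans (sn_cone.trans code_one.symm)))
  refine tab_ind tabH (fun k r => (∀ n c, X.RC n c → sn c = r → (∃ i, n * n = X.z ^ i) → n * n = 1) →
    ∀ n c, X.RC n c → sn c = k → (∃ i, n * n = X.z ^ i) → n * n = 1) (fun _ => id) ?_ hk ?_ n c h rfl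
    (RC.eq_of_cone (e ▸ h.mul h))
  · rintro p hp k - r ih H n c h rfl ⟨i, hi⟩
    obtain ⟨m, a, ha, rfl⟩ : ∃ m a, X.RC m a ∧ p = sn a := by
      have := fun i => (X.ex_lH i).1.mul ⟨_, X.rc_one⟩
      simp only [List.mem_cons, List.not_mem_nil, or_false] at hp
      rcases hp with rfl | rfl | rfl | rfl
      exacts [⟨1, _, X.rc_one, sn_cone.symm⟩, ⟨_, _, (this 0).choose_spec, by decide +kernel⟩,
        ⟨_, _, (this 1).choose_spec, by decide +kernel⟩, ⟨_, _, (this 2).choose_spec, by decide +kernel⟩]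
    obtain ⟨d, hd⟩ := ha.inv
    have b := (ha.mul h).mul hd
    simpa using ih H _ _ b (by rw [← b.code_π, ← ha.code_π, ← h.code_π, cjp_code, X.π_mul _ _ (ha.mul h).zc hd.zc,
      X.π_mul _ _ ha.zc h.zc, X.π_inv ha.zc]) ⟨i, by rw [conj_mul, hi, ha.zk]⟩
  rintro n c h e ⟨i, hi⟩
  have e2 : cmul c c = cone := (h.mul h).unique (hi ▸ X.rc_zk i)
  have out : ∀ w, X.wd w * X.wd w = 1 → sg (sn (evalC ygens w)) = 1 → sn c = sn (evalC ygens w) → n * n = 1 := by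
    intro w a b e
    obtain ⟨i, -, rfl⟩ := Ex.eq_of_sn ⟨_, h⟩ ⟨_, X.rc_wd w⟩ e
    obtain ⟨k, rfl⟩ := ((X.rc_ρ.pow i).mul (X.rc_wd w)).eq h
    have f := (X.rc_wd w).ρc
    rw [mul_assoc, ← mul_assoc (X.z ^ k), (((X.rc_ρ.pow i).mul (X.rc_wd w)).zc.pow_left k).eq, mul_assoc _ (X.z ^ k),
      X.zz, mul_one, show ∀ a b : G, a * b * (a * b) = a * (b * a * b⁻¹) * (b * b) from fun _ _ => by group, a,
      ← conj_pow, f, b, mul_one, ← pow_mul, ← pow_add, show i + (1 + 1) * i = 3 * i by ring, pow_mul, X.ρ_cube, one_pow]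
  rcases dd_cases (lb IT L0 (sn _)) with a | a | a | a <;> rw [a] at e
  · obtain ⟨i, hi, rfl⟩ := Ex.eq_of_sn ⟨_, h⟩ ⟨_, X.rc_one⟩ e
    exact X.sq_uc (k := 0) (by norm_num) ((by decide +kernel : ∀ i < 3, cmul (cmul (cpow cO i) cone)
      (cmul (cpow cO i) cone) = cone → cmul (cpow cO i) cone = uc 0) i hi e2 ▸ h)
  · obtain ⟨i, hi, rfl⟩ := Ex.eq_of_sn ⟨_, h⟩ X.ex_cX e
    exact X.sq_uc (k := 1) (by norm_num) ((by decide +kernel : ∀ i < 3, cmul (cmul (cpow cO i) cX)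
      (cmul (cpow cO i) cX) = cone → cmul (cpow cO i) cX = uc 1) i hi e2 ▸ h)
  · exact out _ (sq_wd _ (by decide +kernel)) (by decide +kernel) e
  · exact out _ (sq_wd _ (by decide +kernel)) (by decide +kernel) e

theorem Rq.sq {g : G} {v c : ℕ} (h : X.Rq g v c) (e : cmul c c = cone) (f : ap (fs c) v = v) :
    g * g = X.z ^ (qq v * (1 + sg (sn c))) := by
  obtain ⟨hv, n, h, rfl⟩ := h
  rw [show ∀ a b : G, a * b * (a * b) = a * (b * a * b⁻¹) * (b * b) from fun _ _ => by group, h.sq e, h.act hv, f,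
    mul_one, ← mul_assoc, X.s_sq hv, ← pow_add]
  congr 1; ring

theorem chi_cone {h : G} {v : ℕ} (a : X.Rq h v cone) (h1 : h ≠ 1) :
    ∃ w ∈ zpowers h, w * w = 1 ∧ w ≠ 1 ∧ (w = X.z ↔ v = 0 ∨ qq v = 1) := by
  have s := a.sq (by decide +kernel) (by rw [fs_cone, ap_mone a.lt])
  rw [sn_cone, sg_pone, add_zero, mul_one] at s
  by_cases q : qq v = 1
  · exact ⟨_, mul_mem (mem_zpowers h) (mem_zpowers h), by rw [s, X.zz], by rw [s, q, pow_one]; exact X.z_ne,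
      by rw [s, q, pow_one]; simp⟩
  rw [show qq v = 0 by have := qq_lt v; omega, pow_zero] at s
  refine ⟨h, mem_zpowers h, s, h1, fun e => .inl (a.unique (e ▸ X.rc_z.rq)).1, fun e => ?_⟩
  obtain rfl := e.resolve_right q
  obtain ⟨k, rfl⟩ := a.rc.eq_of_cone
  exact (X.z_cases k).resolve_left h1

variable (X) in
/-- the coding of the centraliser of the first involution -/
def amH : AM G where
  R := X.Rq
  l := lH
  b := 4096
  lt := Rq.lt
  mul := Rq.mul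
  uniq := Rq.unique
  one := X.rq_one
  inv a b := by
    obtain ⟨k, rfl⟩ := a.eq b
    rw [inv_mul_cancel_left]; exact (X.rc_zk k).rq
  gen i := by
    obtain ⟨⟨n, h⟩, e⟩ := X.ex_lH i
    exact ⟨n, h.rq, by rw [inv_eq_of_mul_eq_one_right (h.sq e)]; exact h.rq⟩
  tr e he := ⟨_, X.rq_s he, X.s_inv he ▸ (X.rq_s he).mulz _⟩
  u := X.z
  π := X.π
  χ := χH
  u2 := X.z_sq
  u1 := X.z_ne
  b0 := by norm_num
  ex := exists_rq
  com := Rq.zc
  cp := Rq.code_π
  ker a := by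
    obtain ⟨k, rfl⟩ := a.rc.eq_of_cone
    exact X.z_cases k
  chi {h v j} a e h1 := by
    simp only [χH, bif'_eq, force_eq, beq_iff]
    split_ifs with c r
    · subst c
      simpa only [bor_eq_true, beq_iff] using chi_cone a h1
    · have s := a.sq e (Nat.eq_of_xor_eq_zero r).symm
      rw [beq_iff]
      by_cases q : (qq v * (1 + sg (sn j))) % 2 = 1
      · rw [X.zmod (b := 1) q, pow_one] at s
        exact ⟨_, mul_mem (mem_zpowers h) (mem_zpowers h), by rw [s, X.z_sq], s ▸ X.z_ne, iff_of_true s q⟩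
      · rw [X.zmod (b := 0) (by omega), pow_zero] at s
        exact ⟨h, mem_zpowers h, s, h1, iff_of_false (fun e => c (a.unique (e ▸ X.rc_z.rq)).2) q⟩
    · have b := e ▸ a.mul a
      obtain ⟨w, w1, w2, w3, w4⟩ := chi_cone b fun f => r (b.unique (f ▸ X.rq_one)).1
      exact ⟨w, zpowers_le.2 (mul_mem (mem_zpowers h) (mem_zpowers h)) w1, w2, w3,
        w4.trans (by rw [beq_iff]; exact or_iff_right r)⟩

theorem wt_eq {g : G} {v c : ℕ} (h : X.Rq g v c) (S : G → Prop) :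
    X.amH.wt S v c = ind (S g) + ind (S (g * X.z)) := by
  have e : ∀ a : G, wsum (· = a) (fun x => ind (S x)) = ind (S a) := fun a => by simp [wsum]
  rw [← e, ← e, ← wsum_or fun x a b => X.z_ne (by simpa using (a.symm.trans b).symm), wsum_ind]
  refine congrArg _ (Set.ext fun x => and_comm.trans (and_congr_left fun _ => ⟨fun a => ?_, fun a => ?_⟩))
  · obtain ⟨k, rfl⟩ := h.eq a
    rcases X.z_cases k with e | e <;> simp [e]
  · rcases a with rfl | rfl
    exacts [h, pow_one X.z ▸ h.mulz 1]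

theorem wt_zz {v c : ℕ} (e : X.Ex c) (hv : v < 4096) (h : ∀ g, X.Rq g v c → IsConj X.z g) :
    X.amH.wt (IsConj X.z) v c = 2 ∧ X.amH.wt (IsConj X.t) v c = 0 := by
  obtain ⟨n, e⟩ := e
  have a : X.Rq _ v c := ⟨hv, n, e, rfl⟩
  have b := h _ (pow_one X.z ▸ a.mulz 1)
  rw [wt_eq a, wt_eq a, ind_pos (h _ a), ind_pos b, ind_neg (not_both (h _ a)), ind_neg (not_both b)]
  exact ⟨rfl, rfl⟩

theorem wt_tt {v c : ℕ} (e : X.Ex c) (hv : v < 4096) (h : ∀ g, X.Rq g v c → IsConj X.t g) :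
    X.amH.wt (IsConj X.z) v c = 0 ∧ X.amH.wt (IsConj X.t) v c = 2 := by
  obtain ⟨n, e⟩ := e
  have a : X.Rq _ v c := ⟨hv, n, e, rfl⟩
  have b := h _ (pow_one X.z ▸ a.mulz 1)
  rw [wt_eq a, wt_eq a, ind_pos (h _ a), ind_pos b, ind_neg (not_both · (h _ a)), ind_neg (not_both · b)]
  exact ⟨rfl, rfl⟩

theorem wt_zt {g : G} {v c : ℕ} (a : X.Rq g v c) (h : IsConj X.z g) (b : IsConj X.t (g * X.z)) :
    X.amH.wt (IsConj X.z) v c = 1 ∧ X.amH.wt (IsConj X.t) v c = 1 := by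
  rw [wt_eq a, wt_eq a, ind_pos h, ind_pos b, ind_neg (not_both h), ind_neg (not_both · b)]
  exact ⟨rfl, rfl⟩

theorem TH.t_of {y : G} {p : Perm Pt} (h : X.TH y p) (p1 : p ≠ 1) (a : IsConj X.z y) {k : ℕ} (hk : k < 2048)
    (e : X.ev k * y * (X.ev k * y) = 1) (f : allP (fun x => bne' k (Nat.xor x (J4.act (code p) x))) 11 0 = true) :
    IsConj X.t (X.ev k * y) :=
  t_of_not e (fun b => p1 ((h.mulV (X.ev_mem hk)).eq_one (b ▸ one_mem _))) fun b => by
    obtain ⟨x, hx, c⟩ := (h.im hk).1 (h.im_of p1 (X.ev_mem hk) a b)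
    exact bne'_eq_true.1 (all11 f hx) c

theorem ne_one_of_code {p : Perm Pt} {c : ℕ} (h : code p = c) (e : c ≠ pone) : p ≠ 1 := fun a => e (by rw [← h, a, code_one])

theorem evz (k : ℕ) {y : G} (h : Commute X.z y) : X.ev k * y * X.z = X.ev (k ^^^ 64) * y := by
  rw [X.ev_xor, X.ev_64, mul_assoc, mul_assoc, h.eq]

theorem exists_T3 : ∃ g, X.Rq g 0 cT3 ∧ IsConj X.z g ∧ IsConj X.t (g * X.z) := by
  have c : code (perm μT) = μT := code_perm_chk (by decide +kernel)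
  have p1 := ne_one_of_code c (by decide +kernel)
  have s := X.rc_t3.sq (by decide +kernel)
  obtain ⟨g, a, b, d⟩ : ∃ g, X.Rq g 0 cT3 ∧ IsConj X.z g ∧ X.TH g (perm μT) := by
    have h := th_K (X := X) ⟨_, X.th_t3.inM⟩
    have h1 := K_z (X := X) ⟨_, X.th_t3.inM⟩ (Subtype.ext (X.th_t3.sq s)) fun e => p1 (congrArg Subtype.val e)
    obtain ⟨k, hk, e⟩ := h.div' X.th_t3
    have f := all11 (by decide +kernel : allP (fun k => bimp (Nat.beq (act μT k) k)
      (bor (imS 850705957867165365976766471933718958080 μT k)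
        (force (Nat.xor k 64) (imS 850705957867165365976766471933718958080 μT)))) 11 0 = true) hk
    simp only [bimp_eq_true, beq_iff, bor_eq_true, force_eq] at f
    rcases f (c ▸ X.th_t3.fix_of_sq s hk (e ▸ sq_of_conj X.z_sq h1)) with f | f
    · exact ⟨_, X.rc_t3.rq, (e ▸ h1).trans (X.th_t3.imS hk (c.symm ▸ f)).conj.symm, X.th_t3⟩
    · have h2 := X.th_t3.mulV X.z_mem_V
      refine ⟨_, X.rc_t3.zc.eq ▸ pow_one X.z ▸ X.rc_t3.rq.mulz 1, (e ▸ h1).trans ?_, h2⟩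
      have := (h2.imS (xor_lt11 hk (by norm_num)) (c.symm ▸ f)).conj.symm
      rwa [X.ev_xor, X.ev_64, mul_assoc, ← mul_assoc X.z, X.z_sq, one_mul] at this
  have := d.t_of p1 b (k := 64) (by norm_num) (by
    rw [X.ev_64, mul_assoc, ← mul_assoc g, ← a.zc.eq, ← mul_assoc, ← mul_assoc, X.z_sq, one_mul, sq_of_conj X.z_sq b])
    (by rw [c]; decide +kernel)
  exact ⟨g, a, b, by rwa [X.ev_64, a.zc.eq] at this⟩

theorem Rq.tt {y g : G} {p : Perm Pt} {v c : ℕ} (h : X.TH y p) (p1 : p ≠ 1) (a : IsConj X.z y) (b : Commute X.z y)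
    (r : X.Rq (X.ev 128 * y) v c) (hg : X.Rq g v c) (e : g * g = 1)
    (f : allL (fun k => allP (fun x => bne' k (Nat.xor x (J4.act (code p) x))) 11 0) [128, 192] = true) :
    IsConj X.t g := by
  obtain ⟨k, rfl⟩ := r.eq hg
  rcases X.z_cases k with c | c <;> rw [c] at e ⊢
  · rw [mul_one] at e ⊢
    exact h.t_of p1 a (by norm_num) e (allL_eq_true.1 f _ (by simp))
  · rw [evz _ b] at e ⊢
    exact h.t_of p1 a (by decide) e (allL_eq_true.1 f _ (by simp))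

theorem hS (a n g : G) (_ : Commute X.amH.u n) : IsConj a (n * g * n⁻¹) ↔ IsConj a g := conj_conj n

theorem wt_rep : ∀ r < 8, 3 ≤ r → X.amH.wt (IsConj X.z) (getL rvL 0 r) (getL rcL cone r) = αH r ∧
    X.amH.wt (IsConj X.t) (getL rvL 0 r) (getL rcL cone r) = βH r := by
  intro r h1 h2
  obtain ⟨g, g1, g2, g3⟩ := exists_T3 (X := X)
  interval_cases r
  · exact wt_zt (X.vv_ev (x := 128) (by norm_num)) ((X.zc_iff (by norm_num)).2 (by decide +kernel))
      (by rw [← X.ev_64, ← X.ev_xor]; exact conj_t_of (by decide) (by decide +kernel))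
  · refine wt_zz X.ex_cX (by decide) fun g a => ?_
    obtain ⟨e, he, rfl⟩ := VV.eq (X := X) (x := 129) (by norm_num) a
    exact (X.zc_iff (xor_lt11 (by norm_num) (by omega))).2
      ((by decide +kernel : ∀ e < 2, zc (129 ^^^ 64 * e) = true) e he)
  · have c : code (perm 100823358675240871160630688578919425) = _ := code_perm_chk (by decide +kernel)
    refine wt_tt X.ex_cX (by decide) fun g a => Rq.tt (X.th_s (e := 67) (by decide +kernel))
      (ne_one_of_code c (by decide +kernel)) ((X.rq_s (by norm_num)).two (by decide +kernel)) (X.zs _) ?_ a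
      ((a.sq (by decide +kernel) (by decide +kernel)).trans (pow_zero _)) (by rw [c]; decide +kernel)
    exact Rq.mul (X.vv_ev (x := 128) (by norm_num)) (X.rq_s (by norm_num))
  · exact wt_zt g1 g2 g3
  · obtain ⟨p, c, h⟩ := X.th_wd [1, 0, 1, 0, 1, 0]
    have r := (X.rc_wd [1, 0, 1, 0, 1, 0]).rq
    have e := (AM.red (M := X.amH) X.amH.b0 [1, 3, 0, 1, 2, 1, 2, 1, 2, 1] (hS X.z) ⟨_, r⟩).2
    rw [wt_eq r, show X.amH.l = lH from rfl, show cv _ _ _ _ _ = 0 by decide +kernel, show cc _ _ _ = cT3 by decide +kernel, (wt_zt g1 g2 g3).1] at e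
    obtain ⟨y, a, b, d⟩ : ∃ y, X.Rq y 0 (evalC ygens [1, 0, 1, 0, 1, 0]) ∧ IsConj X.z y ∧ X.TH y p := by
      by_cases a : IsConj X.z (X.wd [1, 0, 1, 0, 1, 0])
      · exact ⟨_, r, a, h⟩
      · refine ⟨_, pow_one X.z ▸ r.mulz 1, by_contra fun b => ?_, r.zc.eq ▸ h.mulV X.z_mem_V⟩
        rw [ind_neg a, ind_neg b] at e
        omega
    refine wt_tt (X.rc_wd [3, 1, 0, 1, 0, 1, 0]).rq.ex (by decide) fun g f => Rq.tt d
      (ne_one_of_code c (by decide +kernel)) b a.zc ?_ f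
      ((f.sq (by decide +kernel) (by decide +kernel)).trans (pow_zero _)) (by rw [c]; decide +kernel)
    exact Rq.mul (X.vv_ev (x := 128) (by norm_num)) a

theorem tabI : X.amH.Tab IT :=
  ⟨Tr.srt_nodup IT_srt, Tr.all_eq_true.1 IT_val, fun g a e => IT_cov (X := X) (X.π_mem g a)
    ((X.π_mul _ _ a a).symm.trans (e ▸ X.π_one))⟩

theorem ex_crH (j : ℕ) : X.Ex (getL crH cone j) ∧ sn (getL crH cone j) = dd j := by
  rcases j with _ | _ | _ | _ | j
  exacts [⟨⟨_, X.rc_one⟩, by decide +kernel⟩, ⟨X.ex_cX, by decide +kernel⟩, ⟨⟨_, X.rc_t3⟩, by decide +kernel⟩,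
    ⟨⟨_, (by decide +kernel : evalC ygens [3, 1, 0, 1, 0, 1, 0] = getL crH cone 3) ▸ X.rc_wd _⟩, by decide +kernel⟩,
    ⟨⟨_, X.rc_one⟩, sn_cone⟩]

theorem MH_spec (j : ℕ) : fibH j = true := by
  rcases j with _ | _ | _ | _ | j
  exacts [fH0, fH1, fH2, fH3, fH0]

theorem MH_ent {j : ℕ} {p : ℕ × List (ℕ × ℕ)} (hp : p ∈ MH j) : X.Ex p.1 ∧ sn p.1 = dd j ∧ ∀ q ∈ p.2, entH p.1 q = true := by
  have c := MH_spec j
  simp only [fibH, band_eq_true, allL_eq_true, anyR_eq_true, beq_iff] at c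
  obtain ⟨⟨i, -, a⟩, b⟩ := c.2.1 p hp
  have e := (X.rc_ρ.pow i).rq.ex
  exact ⟨a ▸ e.mul (ex_crH j).1, by
    rw [a, sn_cmul', (ex_crH (X := X) j).2, ← (X.rc_ρ.pow i).code_π, X.π_pow X.zρ, X.π_ρ, one_pow, ← (ex_crH (X := X) j).2,
      ← (ex_crH (X := X) j).1.choose_spec.code_π, pmul_code, one_mul], b⟩

theorem ent_wt {c : ℕ} {q : ℕ × ℕ} (e : X.Ex c) (h : entH c q = true) : q.1 < 4096 ∧
    X.amH.wt (IsConj X.z) q.1 c = αH q.2 ∧ X.amH.wt (IsConj X.t) q.1 c = βH q.2 := by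
  simp only [entH, band_eq_true, bor_eq_true, beq_iff, blt'_eq_true, ble_iff] at h
  refine ⟨h.1, ?_⟩
  rcases h.2 with ⟨rfl, ⟨a, b⟩ | ⟨a, b⟩ | ⟨a, b⟩⟩ | ⟨a, b, d⟩
  · rw [a, b, wt_eq X.rq_one, wt_eq X.rq_one, one_mul, ind_pos (IsConj.refl _), ind_neg (not_both (IsConj.refl _)),
      ind_neg fun h => X.z_ne (isConj_one_left.1 h), ind_neg fun h => X.t_ne (isConj_one_left.1 h)]
    exact ⟨rfl, rfl⟩
  · rw [b]; exact wt_zz e h.1 fun g r => r.two a
  · rw [b]; exact wt_tt e h.1 fun g r => r.three a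
  obtain ⟨n, e⟩ := e
  have r := fun a => (AM.red (M := X.amH) (ap_lt (nth RD ([], 0, 0) (Nat.shiftRight q.2 3)).2.1
    (Nat.xor q.1 (nth RD ([], 0, 0) (Nat.shiftRight q.2 3)).2.2)) (nth RD ([], 0, 0) (Nat.shiftRight q.2 3)).1 (hS a)
    ⟨_, h.1, n, e, rfl⟩).2
  rw [r, r, show X.amH.l = lH from rfl, b, d]
  have := wt_rep (X := X) (Nat.land q.2 7) (Nat.lt_succ_of_le Nat.and_le_right) a
  rwa [αH, βH, g8_and, g8_and] at this

theorem fib_H (j : ℕ) : X.amH.Fib (IsConj X.z) αH (dd j) (MH j) ∧ X.amH.Fib (IsConj X.t) βH (dd j) (MH j) := by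
  have c := MH_spec j
  simp only [fibH, band_eq_true, allR_eq_true, anyL_eq_true, beq_iff, bimp_eq_true, force_eq] at c
  have cov : ∀ g v c, g * g = 1 → X.Rq g v c → sn c = dd j → ∃ p ∈ MH j, c = p.1 ∧ ∃ q ∈ p.2, v = q.1 := by
    intro g v d e r h
    obtain ⟨i, hi, rfl⟩ := r.ex.eq_of_sn (ex_crH j).1 (h.trans (ex_crH (X := X) j).2.symm)
    obtain ⟨a, b⟩ := r.sq_fix e
    obtain ⟨p, hp, f, k⟩ := c.2.2 i hi b
    have k := allV k r.lt
    simp only [bimp_eq_true, beq_iff] at k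
    exact ⟨p, hp, f.symm, bm_spec (k a (X.modz (b := 0) ((r.sq b a).symm.trans (e.trans (pow_zero _).symm))))⟩
  exact ⟨⟨incL_nodup c.1, fun g v c a => cov g v c (sq_of_conj X.z_sq a), fun p hp => ⟨(MH_ent (X := X) hp).2.1,
    fun q hq => have := ent_wt (MH_ent (X := X) hp).1 ((MH_ent (X := X) hp).2.2 q hq); ⟨this.1, this.2.1⟩⟩⟩,
    ⟨incL_nodup c.1, fun g v c a => cov g v c (sq_of_conj X.t_sq a), fun p hp => ⟨(MH_ent (X := X) hp).2.1,
    fun q hq => have := ent_wt (MH_ent (X := X) hp).1 ((MH_ent (X := X) hp).2.2 q hq); ⟨this.1, this.2.2⟩⟩⟩⟩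

theorem aa_z : aa X.z X.t X.z = 29236337328 := by
  have cl := fun {v c L tot ws o D} h1 h2 {x} => AM.cls (M := X.amH) (v := v) (c := c) (L := L) (tot := tot) (ws := ws)
    (o := o) (D := D) (x := x) tabI X.z_sq X.t_sq X.not_conj_t (fun j => (fib_H j).2) h1 h2
  refine (AM.total (M := X.amH) tabI X.z_sq X.t_sq (fun j => (fib_H j).1) tabH φH (fun j p hp q hq a g b r => ?_)
    fun j => ?_).trans sumH
  swap
  · rcases j with _ | _ | _ | _ | j
    exacts [vH 0 (by norm_num), vH 1 (by norm_num), vH 2 (by norm_num), vH 3 (by norm_num), vH 0 (by norm_num)]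
  have h := (MH_ent (X := X) hp).2.2 q hq
  simp only [entH, band_eq_true, bor_eq_true, beq_iff, blt'_eq_true, ble_iff] at h
  rcases h.2 with ⟨e, ⟨c, d⟩ | ⟨c, d⟩ | ⟨c, d⟩⟩ | ⟨c, d, e⟩
  · rw [c, e] at r
    rw [d]; exact cl cH0 rH0 b r
  · rw [e] at r
    obtain ⟨i, rfl⟩ := Rq.eq_of_cone r
    obtain ⟨n, n1, k, n2⟩ := X.conj_of_olab h.1 (w := 53) (by norm_num) (c.trans (by decide +kernel)) i
    rw [d, ← AM.ff_cj (M := X.amH) n1]
    exact cl cH1 rH1 ((conj_conj n).2 b) (n2 ▸ (X.rq_s (by norm_num)).mulz k)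
  · exact absurd (by rw [d]; rfl) a
  obtain ⟨n, n1, n2⟩ := (AM.red (M := X.amH) (ap_lt (nth RD ([], 0, 0) (Nat.shiftRight q.2 3)).2.1
    (Nat.xor q.1 (nth RD ([], 0, 0) (Nat.shiftRight q.2 3)).2.2)) (nth RD ([], 0, 0) (Nat.shiftRight q.2 3)).1 (hS X.z)
    ⟨_, r⟩).1
  have r' := n2 _ r
  have b' := (conj_conj n).2 b
  rw [show X.amH.l = lH from rfl, d, e] at r'
  rw [← AM.ff_cj (M := X.amH) n1, φH, ← g8_and]
  rw [αH, ← g8_and] at a
  have : Nat.land q.2 7 < 8 := Nat.lt_succ_of_le Nat.and_le_right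
  generalize Nat.land q.2 7 = k at *
  interval_cases k
  exacts [cl cH2 rH2 b' r', cl cH3 rH3 b' r', absurd rfl a, cl cH4 rH4 b' r', absurd rfl a]

end

end CA.J4.HM

theorem CA.J4o.realizeEqnsH : True := by
  have := @CA.J4.HM.amH.eq_1.{0}
  have := @CA.J4.HM.amH.eq_def.{0}
  have := @CA.J4.HM.amH.congr_simp.{0}
  trivial
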