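/-
Pairs of involutions in the centraliser of the second involution; the order of the group.
-/
import Cfsg.Agent.J4o.H

set_option autoImplicit false
set_option maxRecDepth 100000
set_option linter.unusedSectionVars false

namespace CA.J4.HM

open CA.M24 CA.Fi CA.FG CA.J4o Cfsg Subgroup Equiv
open scoped Pointwise

noncomputable section

variable {G : Type*} [Group G] [Finite G] {X : HM G} [hF : Fact X.Fu]

omit hF in
theorem TH.act_xor {g : G} {p : Perm Pt} (h : X.TH g p) {x y : ℕ} (hx : x < 2048) (hy : y < 2048) :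
    J4.act (code p) (x ^^^ y) = J4.act (code p) x ^^^ J4.act (code p) y :=
  X.ev_inj (act_lt _ _) (xor_lt11 (act_lt _ _) (act_lt _ _)) (by
    rw [← h.act (xor_lt11 hx hy), X.ev_xor, X.ev_xor, cjm, h.act hx, h.act hy])

omit hF in
theorem TH.act_mul {g h : G} {p q : Perm Pt} (a : X.TH g p) (b : X.TH h q) {x : ℕ} (hx : x < 2048) :
    J4.act (code (p * q)) x = J4.act (code p) (J4.act (code q) x) :=
  X.ev_inj (act_lt _ _) (act_lt _ _) (by rw [← (a.mul b).act hx, ← a.act (act_lt _ _), ← b.act hx]; group)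

/-- `c` is the code of the permutation `p` -/
structure CN (c : ℕ) (p : Perm Pt) : Prop where
  sn : sn c = code p
  lt : fs c < 2 ^ 144
  top : col (fs c) 11 = 2048
  ap : ∀ x < 2048, ap (fs c) x = act (code p) x

theorem CN.unique {c d : ℕ} {p : Perm Pt} (a : CN c p) (b : CN d p) : c = d := by
  refine eq_of_fs_sn ?_ (a.sn.trans b.sn.symm)
  rw [← bl_col a.lt, ← bl_col b.lt]
  refine bl_congr fun i hi => ?_
  rcases Nat.lt_or_ge i 11 with h | h
  · rw [← ap_two_pow _ hi, ← ap_two_pow _ hi, a.ap _ (pow_lt11 h), b.ap _ (pow_lt11 h)]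
  · rw [show i = 11 by omega, a.top, b.top]

include hF in
theorem CN.mk' {c : ℕ} {p : Perm Pt} (hp : p ∈ M24) (h1 : J4.sn c = code p) (h2 : fs c < 2 ^ 144) (h3 : col (fs c) 11 = 2048)
    (h4 : ∀ i < 11, col (fs c) i = act (code p) (2 ^ i)) : CN c p :=
  ⟨h1, h2, h3, xor_induction (n := 11) _ (by
      have := (th_K (X := X) ⟨p, hp⟩).act_xor (x := 0) (y := 0) (by norm_num) (by norm_num)
      rw [Nat.xor_self, Nat.xor_self] at this
      rw [this, ap_zero])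
    (fun a b ha hb e f => by rw [ap_xor, e, f, (th_K (X := X) ⟨p, hp⟩).act_xor ha hb])
    fun i hi => by rw [ap_two_pow _ (by omega), h4 i hi]⟩

include hF in
theorem exists_CN {p : Perm Pt} (hp : p ∈ M24) : ∃ c, CN c p := by
  have l : ∀ i < 12, (if i < 11 then act (code p) (2 ^ i) else 2048) < 4096 := fun i _ => by
    have := act_lt (code p) (2 ^ i)
    split_ifs <;> omega
  refine ⟨pr (bl fun i => if i < 11 then act (code p) (2 ^ i) else 2048) (code p), CN.mk' (X := X) hp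
    (sn_pr _ (code_lt p)) ?_ ?_ fun i hi => ?_⟩ <;> rw [fs_pr _ (code_lt p)]
  exacts [bl_lt l, col_bl l (by norm_num), (col_bl l (by omega)).trans (if_pos hi)]

include hF in
theorem CN.mul {c d : ℕ} {p q : M24} (a : CN c p) (b : CN d q) : CN (cmul c d) (p * q : M24) := by
  refine ⟨by rw [sn_cmul', a.sn, b.sn, pmul_code, coe_mul], by rw [fs_cmul']; exact mm_lt _ _, ?_, fun x hx => ?_⟩
  · rw [fs_cmul', mm_eq, col_bl (fun _ _ => ap_lt _ _) (by norm_num), b.top]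
    exact (ap_two_pow _ (i := 11) (by norm_num)).trans a.top
  · rw [fs_cmul', ap_mm _ _ (by omega), b.ap x hx, a.ap _ (act_lt _ _), coe_mul,
      (th_K (X := X) p).act_mul (th_K q) hx]

include hF in
theorem chkN_spec {c : ℕ} (h : chkN c = true) : ∃ p ∈ DD, CN c p := by
  simp only [chkN, band_eq_true, blt'_eq_true, beq_iff, allR_eq_true] at h
  obtain ⟨p, hp, e⟩ := inD_of_chk h.1
  exact ⟨p, hp, CN.mk' (X := X) (DD_le hp) e.symm h.2.1 h.2.2.1 (e ▸ h.2.2.2)⟩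

include hF in
theorem cn_one : CN cone 1 := by
  obtain ⟨p, -, a⟩ := chkN_spec (X := X) (c := cone) (by decide +kernel)
  rwa [code_inj (a.sn.symm.trans (sn_cone.trans code_one.symm))] at a

variable (X) in
/-- `g` has vector `k` and code `c` -/
def RN (g : G) (k c : ℕ) : Prop := k < 2048 ∧ ∃ p : M24, p.1 ∈ DD ∧ CN c p ∧ g = X.ev k * X.K p

namespace RN

variable {g h : G} {k l c d : ℕ}

theorem th (a : X.RN g k c) : ∃ p ∈ DD, CN c p ∧ X.TH g p := by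
  obtain ⟨hk, p, a, b, rfl⟩ := a
  exact ⟨p, a, b, (th_K p).mulV (X.ev_mem hk)⟩

theorem mul (a : X.RN g k c) (b : X.RN h l d) : X.RN (g * h) (k ^^^ ap (fs c) l) (cmul c d) := by
  obtain ⟨hk, p, a1, a2, rfl⟩ := a
  obtain ⟨hl, q, b1, b2, rfl⟩ := b
  rw [a2.ap l hl]
  exact ⟨xor_lt11 hk (act_lt _ _), p * q, mul_mem a1 b1, a2.mul (X := X) b2, by
    rw [X.ev_xor, ← (th_K p).act hl, map_mul]; group⟩

theorem unique (a : X.RN g k c) (b : X.RN g l d) : k = l ∧ c = d := by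
  obtain ⟨hk, p, a1, a2, e⟩ := a
  obtain ⟨hl, q, b1, b2, f⟩ := b
  obtain rfl : p = q := Subtype.ext (((th_K p).mulV (X.ev_mem hk)).unique (e ▸ f ▸ (th_K q).mulV (X.ev_mem hl)))
  exact ⟨X.ev_inj hk hl (mul_right_cancel (e.symm.trans f)), a2.unique b2⟩

theorem eq (a : X.RN g k c) (b : X.RN h k c) : g = h := by
  obtain ⟨hk, p, a1, a2, rfl⟩ := a
  obtain ⟨hl, q, b1, b2, rfl⟩ := b
  rw [show p = q from Subtype.ext (code_inj (a2.sn.symm.trans b2.sn))]

theorem ev (hk : k < 2048) : X.RN (X.ev k) k cone := ⟨hk, 1, one_mem DD, cn_one (X := X), by simp⟩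

theorem one : X.RN 1 0 cone := X.ev_zero ▸ ev (by norm_num)

theorem of_chk (a : chkN c = true) (hk : k < 2048) : ∃ g, X.RN g k c := by
  obtain ⟨p, b, e⟩ := chkN_spec (X := X) a
  exact ⟨_, hk, ⟨p, DD_le b⟩, b, e, rfl⟩

theorem sq (a : X.RN g k c) (e : cmul c c = cone) : g * g = X.ev (k ^^^ ap (fs c) k) :=
  (e ▸ a.mul a).eq (ev (a.mul a).1)

end RN

theorem exists_rn {g : G} (h : Commute X.t g) : ∃ k c, X.RN g k c := by
  obtain ⟨p, hp⟩ := X.exists_TH (X.cent_t (mem_cent_iff.2 h.symm))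
  obtain ⟨c, hc⟩ := exists_CN (X := X) hp.inM
  obtain ⟨k, hk, e⟩ := hp.div' (th_K ⟨p, hp.inM⟩)
  exact ⟨k, c, hk, ⟨p, hp.inM⟩, hp.comm_t.1 h.symm, hc, e⟩

variable (X) in
open Classical in
/-- the coding of the centraliser of the second involution -/
def amN : AM G where
  R := X.RN
  l := lN
  b := 2048
  lt a := a.1.trans (by norm_num)
  mul := RN.mul
  uniq := RN.unique
  one := RN.one
  inv a b := by rw [a.eq b, inv_mul_cancel]; exact RN.one
  gen i := by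
    have c := allL_eq_true.1 lN_chk (lN i) (List.mem_cons.2 (getL_mem _ _ _))
    rw [band_eq_true, beq_iff] at c
    obtain ⟨g, a⟩ := RN.of_chk (X := X) c.1 (k := 0) (by norm_num)
    exact ⟨g, a, by rwa [inv_eq_of_mul_eq_one_right ((a.sq c.2).trans (by simp))]⟩
  tr e he := ⟨_, RN.ev he, (X.ev_inv e).symm ▸ RN.ev he⟩
  u := X.t
  π g := if h : ∃ p, X.TH g p then h.choose else 1
  χ := χN
  u2 := X.t_sq
  u1 := X.t_ne
  b0 := by norm_num
  ex := exists_rn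
  com a := by
    obtain ⟨p, a, -, b⟩ := a.th
    exact (b.comm_t.2 a).symm
  cp a := by
    obtain ⟨p, -, a, b⟩ := a.th
    rw [dif_pos ⟨p, b⟩, a.sn, (Exists.choose_spec (⟨p, b⟩ : ∃ p, X.TH _ p)).unique b]
  ker a := .inl (a.eq RN.one)
  chi {h v j} a e h1 := by
    have s := a.sq e
    have l := (a.mul a).1
    have i : ∀ {x}, x < 2048 → (X.ev x = X.t ↔ x = 4) := fun hx => ⟨X.ev_inj hx (by norm_num), fun e => e ▸ rfl⟩
    simp only [χN, bif'_eq, beq_iff]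
    split_ifs with c
    · subst c
      obtain rfl := a.eq (RN.ev a.1)
      exact ⟨_, mem_zpowers _, X.ev_sq _, h1, (i a.1).trans beq_iff.symm⟩
    by_cases r : v ^^^ ap (fs j) v = 0
    · exact ⟨h, mem_zpowers h, by rw [s, r, X.ev_zero], h1, iff_of_false
        (fun e => c (a.unique (e ▸ RN.ev (k := 4) (by norm_num) : X.RN h 4 cone)).2) (by rw [beq_iff, Nat.xor_eq, r]; norm_num)⟩
    · exact ⟨_, mul_mem (mem_zpowers h) (mem_zpowers h), by rw [s, X.ev_sq], fun e => r (X.ev_eq_one l (s ▸ e)),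
        by rw [s]; exact (i l).trans beq_iff.symm⟩

theorem wtN {g : G} {k c : ℕ} (h : X.RN g k c) (S : G → Prop) : X.amN.wt S k c = ind (S g) := by
  have e : wsum (· = g) (fun x => ind (S x)) = ind (S g) := by simp [wsum]
  rw [← e, wsum_ind]
  exact congrArg _ (Set.ext fun x => and_comm.trans (and_congr_left fun _ => ⟨fun a => a.eq h, fun a => a ▸ h⟩))

theorem tabJ : X.amN.Tab IT :=
  ⟨Tr.srt_nodup IT_srt, Tr.all_eq_true.1 IT_val, fun g a e => by
    obtain ⟨k, c, r⟩ := exists_rn a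
    obtain ⟨p, b, d, f⟩ := r.th
    rw [X.amN.cp r, d.sn]
    exact IT_cov (X := X) b (f.sq e)⟩

theorem MN_spec (j : ℕ) : ∃ i < 4, fibN i = true ∧ dd j = dd i ∧ MN j = MN i := by
  rcases j with _ | _ | _ | _ | j
  exacts [⟨0, by norm_num, fN0, rfl, rfl⟩, ⟨1, by norm_num, fN1, rfl, rfl⟩, ⟨2, by norm_num, fN2, rfl, rfl⟩,
    ⟨3, by norm_num, fN3, rfl, rfl⟩, ⟨0, by norm_num, fN0, (by decide +kernel : pone = dd 0), rfl⟩]

theorem hS' (a n g : G) (_ : Commute X.amN.u n) : IsConj a (n * g * n⁻¹) ↔ IsConj a g := conj_conj n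

theorem entN_spec {j : ℕ} (hj : j < 4) (H : fibN j = true) {q : ℕ × ℕ} (h : entN j q = true) : q.1 < 2048 ∧
    ∃ g, X.RN g q.1 (getL crN cone j) ∧ (g = 1 ∧ q.2 = 0 ∨ IsConj X.t g ∧ (q.2 = 3 ∨ q.2 = 7) ∨ IsConj X.z g ∧
      ∃ n, Commute X.t n ∧ ((q.2 = 1 ∧ X.RN (n * g * n⁻¹) 64 cone ∨ q.2 = 2 ∧ X.RN (n * g * n⁻¹) 1 cone) ∨
        j ≠ 0 ∧ q.2 = 3 + j ∧ X.RN (n * g * n⁻¹) 0 (getL crN cone j))) := by
  simp only [fibN, band_eq_true, force_eq, beq_iff, bor_eq_true] at H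
  simp only [entN, band_eq_true, bif'_eq, blt'_eq_true, beq_iff] at h
  obtain ⟨g, r⟩ := RN.of_chk (X := X) H.2.2.1 h.1
  refine ⟨h.1, g, r, ?_⟩
  have h2 := h.2
  split_ifs at h2 with c <;> simp only [band_eq_true, bor_eq_true, beq_iff, bne'_eq_true, force_eq, blt'_eq_true,
    bnot_eq_true] at h2
  · rw [c] at r
    obtain rfl := r.eq (RN.ev h.1)
    rcases h2 with ⟨a, b⟩ | ⟨a, b⟩ | ⟨a, b, d, e⟩
    · exact .inl ⟨by rw [a, X.ev_zero], b⟩
    · exact .inr (.inl ⟨conj_t_of h.1 a, .inl b⟩)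
    · obtain ⟨n, ⟨_, _, n1⟩, n2⟩ := AB.vec_conj (M := X.amN.toAB) X.amN.b0 vN (h.1.trans (by norm_num)) b
      have := n2 _ r
      rw [d] at this
      exact .inr (.inr ⟨(X.zc_iff h.1).2 a, n, X.amN.com n1, .inl (e.imp (fun e => ⟨e, by rwa [e] at this⟩)
        fun e => ⟨e, by rwa [e] at this⟩)⟩)
  obtain ⟨g0, r0⟩ := RN.of_chk (X := X) H.2.2.1 (k := 0) (by norm_num)
  obtain ⟨-, p, p1, p2, e0⟩ := id r0
  have p3 : p ≠ 1 := fun e => c (p2.unique (e ▸ cn_one (X := X)))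
  have p4 : p.1 ≠ 1 := fun e => p3 (Subtype.ext e)
  rw [X.ev_zero, one_mul] at e0
  have s0 : X.K p * X.K p = 1 := e0 ▸ (r0.sq H.2.2.2.2.1).trans (by simp)
  have z0 := K_z (X := X) p (Subtype.ext ((th_K p).sq s0)) p3
  obtain rfl : g = X.ev q.1 * X.K p := r.eq ⟨h.1, p, p1, p2, rfl⟩
  rcases h2 with ⟨a, b, d⟩ | ⟨a, b, d⟩
  · have d := Nat.eq_of_xor_eq_zero d
    rw [p2.ap _ b] at d
    have i := ((th_K (X := X) p).im h.1).2 ⟨_, b, d⟩
    refine .inr (.inr ⟨z0.trans i.conj, X.ev (ap (getL SNL 0 j) q.1), (X.ev_comm _ _), .inr ⟨?_, a, ?_⟩⟩)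
    · rintro rfl; exact c (by decide +kernel)
    · generalize ap (getL SNL 0 j) q.1 = e at *
      rwa [X.ev_inv, d, Nat.xor_eq, X.ev_xor, ← (th_K p).act b, ← mul_assoc, ← mul_assoc, X.ev_sq, one_mul,
        inv_mul_cancel_right, mul_assoc, X.ev_sq, mul_one, ← e0]
  · refine .inr (.inl ⟨t_of_not ((r.sq H.2.2.2.2.1).trans (by rw [b, Nat.xor_self, X.ev_zero]))
      (fun e => c (r.unique (e ▸ RN.one)).2) fun e => d ?_, .inr a⟩)
    obtain ⟨x, hx, f⟩ := ((th_K p).im h.1).1 ((th_K p).im_of p4 (X.ev_mem h.1) z0 e)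
    rw [f, ← p2.ap x hx]
    exact all11 (H.2.2.2.2.2.2.resolve_left c) hx

theorem fib_N (j : ℕ) : X.amN.Fib (IsConj X.z) αN (dd j) (MN j) ∧ X.amN.Fib (IsConj X.t) βN (dd j) (MN j) := by
  obtain ⟨j, hj, H, e1, e2⟩ := MN_spec j
  rw [e1, e2]
  have c := H
  simp only [fibN, band_eq_true, allL_eq_true, anyL_eq_true, beq_iff, force_eq] at c
  have cov : ∀ g v c, g * g = 1 → X.RN g v c → sn c = dd j → ∃ p ∈ MN j, c = p.1 ∧ ∃ q ∈ p.2, v = q.1 := by
    intro g v d e r h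
    obtain ⟨p, -, a, -⟩ := r.th
    obtain ⟨q, -, b⟩ := chkN_spec (X := X) c.2.2.1
    obtain rfl : p = q := code_inj (a.sn.symm.trans (h.trans (c.2.2.2.1.symm.trans b.sn)))
    obtain rfl := a.unique b
    obtain ⟨p, hp, f, k⟩ := c.2.2.2.2.2.1
    exact ⟨p, hp, f.symm, bm_spec (bimp_eq_true.1 (all11 k r.1) (beq_iff.2
      (Nat.eq_of_xor_eq_zero ((r.mul r).unique (e ▸ RN.one)).1).symm))⟩
  have w : ∀ p ∈ MN j, ∀ q ∈ p.2, q.1 < 4096 ∧ X.amN.wt (IsConj X.z) q.1 p.1 = αN q.2 ∧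
      X.amN.wt (IsConj X.t) q.1 p.1 = βN q.2 := fun p hp q hq => by
    obtain ⟨a, g, r, b⟩ := entN_spec (X := X) hj H ((c.2.1 p hp).2 q hq)
    rw [(c.2.1 p hp).1, wtN r, wtN r]
    refine ⟨by omega, ?_⟩
    rcases b with ⟨rfl, b⟩ | ⟨b, d⟩ | ⟨b, n, -, d⟩
    · rw [b, ind_neg fun h => X.z_ne (isConj_one_left.1 h), ind_neg fun h => X.t_ne (isConj_one_left.1 h)]
      exact ⟨rfl, rfl⟩
    · rw [ind_pos b, ind_neg (not_both · b)]
      rcases d with d | d <;> rw [d] <;> exact ⟨rfl, rfl⟩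
    · rw [ind_pos b, ind_neg (not_both b)]
      rcases d with (⟨d, -⟩ | ⟨d, -⟩) | ⟨f, d, -⟩ <;> rw [d]
      exacts [⟨rfl, rfl⟩, ⟨rfl, rfl⟩, (by decide : ∀ j < 4, j ≠ 0 → 1 = αN (3 + j) ∧ 0 = βN (3 + j)) j hj f]
  have s : ∀ p ∈ MN j, sn p.1 = dd j := fun p hp => (c.2.1 p hp).1 ▸ c.2.2.2.1
  exact ⟨⟨incL_nodup c.1, fun g v c a => cov g v c (sq_of_conj X.z_sq a), fun p hp => ⟨s p hp,
    fun q hq => ⟨(w p hp q hq).1, (w p hp q hq).2.1⟩⟩⟩, ⟨incL_nodup c.1, fun g v c a => cov g v c (sq_of_conj X.t_sq a),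
    fun p hp => ⟨s p hp, fun q hq => ⟨(w p hp q hq).1, (w p hp q hq).2.2⟩⟩⟩⟩

theorem aa_t : aa X.z X.t X.t = 1544188503 := by
  have cl := fun {v c L tot ws o D} h1 h2 {x} => AM.cls (M := X.amN) (v := v) (c := c) (L := L) (tot := tot) (ws := ws)
    (o := o) (D := D) (x := x) tabJ X.z_sq X.t_sq X.not_conj_t (fun j => (fib_N j).2) h1 h2
  refine (AM.total (M := X.amN) tabJ X.z_sq X.t_sq (fun j => (fib_N j).1) (tabN ▸ tabH) φN (fun j p hp q hq a g b r => ?_)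
    fun j => ?_).trans sumN
  swap
  · rcases j with _ | _ | _ | _ | j
    exacts [vN' 0 (by norm_num), vN' 1 (by norm_num), vN' 2 (by norm_num), vN' 3 (by norm_num), vN' 0 (by norm_num)]
  obtain ⟨j, hj, H, -, e2⟩ := MN_spec j
  rw [e2] at hp
  have c := H
  simp only [fibN, band_eq_true, allL_eq_true, beq_iff] at c
  obtain ⟨-, g', r', d⟩ := entN_spec (X := X) hj H ((c.2.1 p hp).2 q hq)
  obtain rfl := r'.eq ((c.2.1 p hp).1 ▸ r)
  obtain ⟨-, n, n1, d⟩ := (d.resolve_left fun e => X.z_ne (isConj_one_left.1 (e.1 ▸ b))).resolve_left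
    fun e => not_both b e.1
  have b' := (conj_conj n).2 b
  rw [← AM.ff_cj (M := X.amN) n1]
  rcases d with (⟨d, e⟩ | ⟨d, e⟩) | ⟨f, d, e⟩ <;> rw [d]
  · exact cl cN0 rN0 b' e
  · exact cl cN1 rN1 b' e
  interval_cases j
  exacts [absurd rfl f, cl cN2 rN2 b' e, cl cN3 rN3 b' e, cl cN4 rN4 b' e]

variable (X)

theorem card_Ct : Nat.card 𝒞[X.t] = 1816657920 := by
  have := ncard_conj 𝒩(X.V) X.t
  rw [X.ncard_orbit_t, X.card_M, inf_of_le_right X.cent_t] at this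
  omega

include hF in
/-- the order of the group -/
theorem card_G : Nat.card G = 86775571046077562880 := by
  rw [thompson X.z_sq X.t_sq X.z_ne X.t_ne X.not_conj_t fun u a b => (X.inv_cases a).resolve_left b, aa_z, aa_t,
    X.card_Ct, X.card_H]

end

end CA.J4.HM

theorem CA.J4o.realizeEqnsN : True := by
  have := @CA.J4.HM.RN.eq_1.{0}
  have := @CA.J4.HM.RN.eq_def.{0}
  have := @CA.J4.HM.RN.congr_simp.{0}
  have := @CA.J4.HM.amN.eq_1.{0}
  have := @CA.J4.HM.amN.eq_def.{0}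
  have := @CA.J4.HM.amN.congr_simp.{0}
  trivial
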