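/-
Centralisers of elements of odd order in the centralisers of the involutions.
-/
import Cfsg.Agent.J4o.N
import Cfsg.Agent.J4o.Loc

set_option autoImplicit false
set_option maxRecDepth 100000
set_option linter.unusedSectionVars false

namespace CA.J4o

open CA.M24 CA.J4

noncomputable section

/-- data for a centraliser -/
structure CD where
  cf : ℕ
  o : ℕ
  p : ℕ
  W : List (List ℕ)
  CC : List ℕ
  FX : List ℕ
  L : FL
  RD : List (List ℕ × ℕ)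

def ivH (v c : ℕ) : Bool := band (Nat.beq (cmul c c) cone) (band (Nat.beq (ap (fs c) v) v)
  (Nat.beq (qq v * (1 + sg (sn c)) % 2) (0 % 2)))
def ivN (v c : ℕ) : Bool := band (Nat.beq (cmul c c) cone) (Nat.beq (ap (fs c) v) v)

def entH2 (RD : List (List ℕ × ℕ)) (c : ℕ) (q : ℕ × ℕ) : Bool := band (blt' q.1 4096) (bor (band (Nat.beq c cone)
  (bor (band (Nat.beq q.1 0) (Nat.beq q.2 0)) (bor (band (Nat.beq (olab q.1) 2) (Nat.beq q.2 1))
    (band (Nat.beq (olab q.1) 3) (Nat.beq q.2 2)))))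
  (band (band (Nat.ble 3 (Nat.land q.2 7)) (blt' (nth RD ([], 0) (Nat.shiftRight q.2 3)).2 4096))
    (band (Nat.beq (cv lH (nth RD ([], 0) (Nat.shiftRight q.2 3)).2 (nth RD ([], 0) (Nat.shiftRight q.2 3)).1 q.1 c)
    (getL rvL 0 (Nat.land q.2 7)))
    (Nat.beq (cc lH (nth RD ([], 0) (Nat.shiftRight q.2 3)).1 c) (getL rcL cone (Nat.land q.2 7))))))

def entN2 (c : ℕ) (q : ℕ × ℕ) : Bool := band (blt' q.1 2048) (bif' (Nat.beq c cone)
  (bor (band (Nat.beq q.1 0) (Nat.beq q.2 0)) (bor (band (dc q.1) (Nat.beq q.2 3)) (band (zc q.1) (Nat.beq q.2 1))))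
  (band (ivN q.1 c) (bor (band (Nat.beq (Nat.land q.2 7) 4) (band (blt' (Nat.shiftRight q.2 3) 2048)
    (Nat.beq q.1 (Nat.xor (Nat.shiftRight q.2 3) (ap (fs c) (Nat.shiftRight q.2 3))))))
    (band (Nat.beq q.2 7) (force (fs c) fun m => allP (fun x => bne' q.1 (Nat.xor x (ap m x))) 11 0)))))

def CD.base (D : CD) (iv : ℕ → ℕ → Bool) (n : ℕ) : Bool := band (band (memL D.cf D.CC) (Nat.beq (D.o % 2) 1))
  (band (force (fs D.cf) fun m => allP (fun v => bimp (Nat.beq (ap m v) v) (memL v D.FX)) n 0)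
    (band (band (AM.subChk D.cf D.CC D.FX iv D.L) (AM.subChk D.cf D.CC D.FX (fun _ _ => true) (AM.full D.CC D.FX)))
      (band (pairOK D.L) (band (allL (fun v => blt' v (2 ^ n)) D.FX) (allL (fun p => memL p.1 D.CC) D.L)))))

def CD.chkH (D : CD) : Bool := band (D.base ivH 12) (band (decide (D.W.map (lw lH) = D.CC))
  (band (band (Nat.beq (cpow D.cf D.o) cone) (Nat.beq (cpow D.cf (D.o + 1)) D.cf))
    (band (allL (fun p => allL (entH2 D.RD p.1) p.2) D.L) (cenE (sn D.cf) D.p fun g => anyL (fun d =>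
      band (Nat.beq (sn d) g) (allR (fun i => force (cmul (cpow cO i) d) fun e => memL e D.CC) 3)) D.CC))))

def CD.chkN (D : CD) : Bool := band (D.base ivN 11) (band (allL J4o.chkN D.CC) (band (Nat.beq (nJ D.cf D.o) cone)
  (band (allL (fun p => allL (entN2 p.1) p.2) D.L) (cenE (sn D.cf) D.p fun g => anyL (fun d => Nat.beq (sn d) g) D.CC))))

end

end CA.J4o

namespace CA.J4.HM

open CA.M24 CA.Fi CA.FG CA.J4o Cfsg Subgroup Equiv

noncomputable section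

variable {G : Type*} [Group G] [Finite G] {X : HM G} [hF : Fact X.Fu]

theorem ex_lw (w : List ℕ) : X.Ex (lw lH w) := by
  obtain ⟨n, a, -⟩ := X.amH.word w
  exact Rq.ex a

theorem ent_wt2 {RD : List (List ℕ × ℕ)} {c : ℕ} {q : ℕ × ℕ} (e : X.Ex c) (h : entH2 RD c q = true) : q.1 < 4096 ∧
    X.amH.wt (IsConj X.z) q.1 c = αH q.2 ∧ X.amH.wt (IsConj X.t) q.1 c = βH q.2 := by
  simp only [entH2, band_eq_true, bor_eq_true, beq_iff, blt'_eq_true, ble_iff] at h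
  refine ⟨h.1, ?_⟩
  rcases h.2 with ⟨rfl, ⟨a, b⟩ | ⟨a, b⟩ | ⟨a, b⟩⟩ | ⟨a, b, d⟩
  · rw [a, b, wt_eq X.rq_one, wt_eq X.rq_one, one_mul, ind_pos (IsConj.refl _), ind_neg (not_both (IsConj.refl _)),
      ind_neg fun h => X.z_ne (isConj_one_left.1 h), ind_neg fun h => X.t_ne (isConj_one_left.1 h)]
    exact ⟨rfl, rfl⟩
  · rw [b]; exact wt_zz e h.1 fun g r => r.two a
  · rw [b]; exact wt_tt e h.1 fun g r => r.three a
  obtain ⟨n, e⟩ := e
  have r := fun x => (AM.red (M := X.amH) a.2 (nth RD ([], 0) (Nat.shiftRight q.2 3)).1 (hS x) ⟨_, h.1, n, e, rfl⟩).2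
  rw [r, r, show X.amH.l = lH from rfl, b, d]
  have := wt_rep (X := X) (Nat.land q.2 7) (Nat.lt_succ_of_le Nat.and_le_right) a.1
  rwa [αH, βH, g8_and, g8_and] at this

theorem mem_full {CC FX : List ℕ} {p : ℕ × List (ℕ × ℕ)} (hp : p ∈ AM.full CC FX) {q : ℕ × ℕ} (hq : q ∈ p.2) :
    p.1 ∈ CC ∧ q.1 ∈ FX := by
  obtain ⟨c, a, rfl⟩ := List.mem_map.1 hp
  obtain ⟨v, b, rfl⟩ := List.mem_map.1 hq
  exact ⟨a, b⟩

theorem ldH {D : CD} (H : D.chkH = true) : ∃ f, X.RC f D.cf ∧ f ^ D.o = 1 ∧ (∀ c ∈ D.CC, X.Ex c) ∧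
    (∀ g v c, X.Rq g v c → Commute f g → c ∈ D.CC ∧ v ∈ D.FX) ∧
    X.amH.Lst (fun x => IsConj X.z x ∧ x ∈ 𝒞[f]) αH D.L ∧ X.amH.Lst (fun x => IsConj X.t x ∧ x ∈ 𝒞[f]) βH D.L ∧
    LD X.z X.t 𝒞[f] X.z (pairSum αH βH χH D.L) (cntSum (fun _ => 2) (AM.full D.CC D.FX)) (cntSum αH D.L)
      (cntSum βH D.L) := by
  simp only [CD.chkH, CD.base, band_eq_true, beq_iff, memL_eq_true, decide_eq_true_eq, force_eq, allL_eq_true,
    blt'_eq_true] at H
  obtain ⟨⟨⟨h1, h2⟩, h3, ⟨h4, h5⟩, h6, h7, h8⟩, h9, ⟨h10, h11⟩, h12, h13⟩ := H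
  have ex : ∀ c ∈ D.CC, X.Ex c := fun c hc => by
    obtain ⟨w, -, rfl⟩ := List.mem_map.1 (h9 ▸ hc)
    exact ex_lw w
  obtain ⟨n, hn⟩ := ex _ h1
  have f1 : (n ^ (D.o + 1)) ^ D.o = 1 := by
    obtain ⟨k, e⟩ := (h10 ▸ hn.pow D.o).eq_of_cone
    rw [← pow_mul, mul_comm, pow_mul, e, ← pow_mul, X.zmod (b := 0) (by
      rw [Nat.mul_mod, Nat.add_mod, h2]; simp), pow_zero]
  have r : X.RC _ D.cf := h11 ▸ hn.pow (D.o + 1)
  generalize n ^ (D.o + 1) = f at *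
  have o := Nat.odd_iff.2 h2
  have cov : ∀ g v c, X.Rq g v c → Commute f g → c ∈ D.CC ∧ v ∈ D.FX := fun g v c a b => by
    have := cenE_spec (r.code_π ▸ h13) (X.π_mem g a.zc) (by rw [← X.π_mul _ _ a.zc r.zc, ← b.eq, X.π_mul _ _ r.zc a.zc])
    simp only [anyL_eq_true, band_eq_true, beq_iff, allR_eq_true, memL_eq_true] at this
    obtain ⟨d, c1, c2, c3⟩ := this
    obtain ⟨i, hi, rfl⟩ := a.ex.eq_of_sn (ex d c1) (a.code_π.symm.trans c2.symm)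
    exact ⟨c3 i hi, memL_eq_true.1 (bimp_eq_true.1 (allV h3 a.lt) (beq_iff.2 (AM.of_comm (M := X.amH) r.rq a b).1))⟩
  have iv : ∀ g v c, g * g = 1 → X.Rq g v c → ivH v c = true := fun g v c e a => by
    obtain ⟨b, d⟩ := a.sq_fix e
    simp only [ivH, band_eq_true, beq_iff]
    exact ⟨d, b, X.modz (b := 0) ((a.sq d b).symm.trans (e.trans (pow_zero _).symm))⟩
  have w := fun p hp q hq => ent_wt2 (ex _ (h8 p hp)) (h12 p hp q hq)
  have lz := AM.lst_of (M := X.amH) r.rq o f1 cov h4 (fun g v c a => iv g v c (sq_of_conj X.z_sq a))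
    fun p hp q hq => ⟨(w p hp q hq).1, (w p hp q hq).2.1⟩
  have lt := AM.lst_of (M := X.amH) r.rq o f1 cov h4 (fun g v c a => iv g v c (sq_of_conj X.t_sq a))
    fun p hp q hq => ⟨(w p hp q hq).1, (w p hp q hq).2.2⟩
  refine ⟨f, r, f1, ex, cov, lz, lt, AM.ld_of X.z_sq X.t_sq X.not_conj_t lz lt (AM.lst_of (M := X.amH) r.rq o f1 cov h5
    (fun _ _ _ _ _ => rfl) fun p hp q hq => ?_) h6⟩
  obtain ⟨a, b⟩ := mem_full hp hq
  obtain ⟨m, a⟩ := ex _ a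
  exact ⟨h7 _ b, by rw [wt_eq ⟨h7 _ b, m, a, rfl⟩, ind_pos trivial]⟩

theorem entN2_spec {g : G} {c : ℕ} {q : ℕ × ℕ} (r : X.RN g q.1 c) (h : entN2 c q = true) :
    ind (IsConj X.z g) = αN q.2 ∧ ind (IsConj X.t g) = βN q.2 := by
  have kz : IsConj X.z g → ind (IsConj X.z g) = 1 ∧ ind (IsConj X.t g) = 0 := fun a => ⟨ind_pos a, ind_neg (not_both a)⟩
  have kt : IsConj X.t g → ind (IsConj X.z g) = 0 ∧ ind (IsConj X.t g) = 1 := fun a => ⟨ind_neg (not_both · a), ind_pos a⟩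
  simp only [entN2, band_eq_true, bif'_eq, blt'_eq_true, beq_iff] at h
  have h2 := h.2
  split_ifs at h2 with c <;> simp only [ivN, band_eq_true, bor_eq_true, beq_iff, force_eq, blt'_eq_true] at h2
  · rw [c] at r
    obtain rfl := r.eq (RN.ev h.1)
    rcases h2 with ⟨a, b⟩ | ⟨a, b⟩ | ⟨a, b⟩ <;> rw [b]
    · rw [a, X.ev_zero, ind_neg fun h => X.z_ne (isConj_one_left.1 h), ind_neg fun h => X.t_ne (isConj_one_left.1 h)]
      exact ⟨rfl, rfl⟩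
    exacts [kt (conj_t_of h.1 a), kz ((X.zc_iff h.1).2 a)]
  obtain ⟨-, p, p1, p2, rfl⟩ := id r
  have r0 : X.RN (X.K p) 0 _ := ⟨by norm_num, p, p1, p2, by simp⟩
  have p3 : p ≠ 1 := fun e => c (p2.unique (e ▸ cn_one (X := X)))
  have z0 := K_z (X := X) p (Subtype.ext ((th_K p).sq ((r0.sq h2.1.1).trans (by simp)))) p3
  rcases h2.2 with ⟨a, b, d⟩ | ⟨a, d⟩
  · rw [αN, βN, ← g8_and, ← g8_and _ q.2, a]
    exact kz (z0.trans (((th_K (X := X) p).im h.1).2 ⟨_, b, p2.ap _ b ▸ d⟩).conj)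
  · rw [a]
    refine kt (t_of_not ((r.sq h2.1.1).trans (by rw [h2.1.2, Nat.xor_self, X.ev_zero]))
      (fun e => c (r.unique (e ▸ RN.one)).2) fun e => ?_)
    obtain ⟨x, hx, f⟩ := ((th_K p).im h.1).1 ((th_K p).im_of (fun e => p3 (Subtype.ext e)) (X.ev_mem h.1) z0 e)
    exact bne'_eq_true.1 (all11 d hx) (by rw [p2.ap x hx]; exact f)

theorem ldN {D : CD} (H : D.chkN = true) : ∃ f, X.RN f 0 D.cf ∧ f ^ D.o = 1 ∧
    (∀ g v c, X.RN g v c → Commute f g → c ∈ D.CC ∧ v ∈ D.FX) ∧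
    LD X.z X.t 𝒞[f] X.t (pairSum αN βN χN D.L) (cntSum (fun _ => 1) (AM.full D.CC D.FX)) (cntSum αN D.L)
      (cntSum βN D.L) := by
  simp only [CD.chkN, CD.base, band_eq_true, beq_iff, memL_eq_true, force_eq, allL_eq_true, blt'_eq_true] at H
  obtain ⟨⟨⟨h1, h2⟩, h3, ⟨h4, h5⟩, h6, h7, h8⟩, h9, h10, h12, h13⟩ := H
  obtain ⟨f, r⟩ := RN.of_chk (X := X) (h9 _ h1) (k := 0) (by norm_num)
  have f1 : f ^ D.o = 1 := RN.eq (X := X) (by
    have := AB.pow (M := X.amN.toAB) r D.o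
    rwa [ap_zero, h10] at this) RN.one
  have o := Nat.odd_iff.2 h2
  have cov : ∀ g v c, X.RN g v c → Commute f g → c ∈ D.CC ∧ v ∈ D.FX := fun g v c a b => by
    obtain ⟨p, -, p1, p2⟩ := r.th
    obtain ⟨q, q0, q1, q2⟩ := a.th
    have := cenE_spec (p1.sn ▸ h13) q0 (q2.comm p2 b.symm)
    simp only [anyL_eq_true, beq_iff] at this
    obtain ⟨d, c1, c2⟩ := this
    obtain ⟨s, -, s1⟩ := chkN_spec (X := X) (h9 d c1)
    obtain rfl := code_inj (s1.sn.symm.trans c2)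
    exact ⟨q1.unique s1 ▸ c1, memL_eq_true.1 (bimp_eq_true.1 (all11 h3 a.1)
      (beq_iff.2 (AM.of_comm (M := X.amN) r a b).1))⟩
  have iv : ∀ g v c, g * g = 1 → X.RN g v c → ivN v c = true := fun g v c e a => by
    have := (a.mul a).unique (e ▸ RN.one)
    simp only [ivN, band_eq_true, beq_iff]
    exact ⟨this.2, (Nat.eq_of_xor_eq_zero this.1).symm⟩
  have w : ∀ p ∈ D.L, ∀ q ∈ p.2, q.1 < 4096 ∧ X.amN.wt (IsConj X.z) q.1 p.1 = αN q.2 ∧
      X.amN.wt (IsConj X.t) q.1 p.1 = βN q.2 := fun p hp q hq => by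
    have l := blt'_eq_true.1 (band_eq_true.1 (h12 p hp q hq)).1
    obtain ⟨g, a⟩ := RN.of_chk (X := X) (h9 _ (h8 p hp)) l
    rw [wtN a, wtN a]
    exact ⟨by omega, entN2_spec a (h12 p hp q hq)⟩
  refine ⟨f, r, f1, cov, AM.ld_of (M := X.amN) X.z_sq X.t_sq X.not_conj_t
    (AM.lst_of r o f1 cov h4 (fun g v c a => iv g v c (sq_of_conj X.z_sq a))
      fun p hp q hq => ⟨(w p hp q hq).1, (w p hp q hq).2.1⟩)
    (AM.lst_of r o f1 cov h4 (fun g v c a => iv g v c (sq_of_conj X.t_sq a))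
      fun p hp q hq => ⟨(w p hp q hq).1, (w p hp q hq).2.2⟩)
    (AM.lst_of r o f1 cov h5 (fun _ _ _ _ _ => rfl) fun p hp q hq => ?_) h6⟩
  obtain ⟨a, b⟩ := mem_full hp hq
  obtain ⟨m, a⟩ := RN.of_chk (X := X) (h9 _ a) (h7 _ b)
  exact ⟨a.1.trans (by norm_num), by rw [wtN a, ind_pos trivial]⟩

end

end CA.J4.HM

theorem CA.J4o.realizeEqnsCen : True := by
  have := @CA.J4o.entH2.eq_1
  have := @CA.J4o.entH2.eq_def
  have := @CA.J4o.entH2.congr_simp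
  have := @CA.J4o.entN2.eq_1
  have := @CA.J4o.entN2.eq_def
  have := @CA.J4o.entN2.congr_simp
  have := @CA.J4o.CD.chkH.eq_1
  have := @CA.J4o.CD.chkH.eq_def
  have := @CA.J4o.CD.chkH.congr_simp
  have := @CA.J4o.ivN.eq_1
  have := @CA.J4o.ivN.eq_def
  have := @CA.J4o.ivN.congr_simp
  have := @CA.J4o.ivH.eq_1
  have := @CA.J4o.ivH.eq_def
  have := @CA.J4o.ivH.congr_simp
  have := @CA.J4o.CD.chkN.eq_1
  have := @CA.J4o.CD.chkN.eq_def
  have := @CA.J4o.CD.chkN.congr_simp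
  have := @CA.J4o.CD.base.eq_1
  have := @CA.J4o.CD.base.eq_def
  have := @CA.J4o.CD.base.congr_simp
  trivial
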