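/-
Counting conjugacy classes through the class equation.
-/
import Cfsg.Agent.J4o.Big

set_option autoImplicit false
set_option maxRecDepth 100000
set_option linter.unusedSectionVars false

namespace CA.J4o

open CA.M24 CA.Fi CA.FG CA.J4 Cfsg Subgroup Equiv

noncomputable section

variable {G : Type*} [Group G] [Finite G]

variable (G) in
/-- pairwise non-conjugate elements of order `n` with bounds for the centraliser orders -/
def CBK (n : ℕ) (cs : List ℕ) : Prop := ∃ l : List G, l.Pairwise (fun a b => ¬ IsConj a b) ∧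
  l.Forall₂ (fun g c => orderOf g = n ∧ Nat.card 𝒞[g] ≤ c) cs

theorem sum_cls {l : List G} (h : l.Pairwise fun a b => ¬ IsConj a b) :
    (l.map fun g => {y | IsConj g y}.ncard).sum = {y | ∃ g ∈ l, IsConj g y}.ncard := by
  induction l with
  | nil => simp
  | cons a l ih =>
    rw [List.pairwise_cons] at h
    rw [List.map_cons, List.sum_cons, ih h.2, ← Set.ncard_union_eq (s := {y | IsConj a y}) (t := {y | ∃ g ∈ l, IsConj g y})
      (Set.disjoint_left.2 fun y b ⟨g, c, d⟩ => h.1 g c (IsConj.trans b d.symm))]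
    exact congrArg _ (Set.ext fun y => by simp)

theorem BK_join {D : List (ℕ × List ℕ)} (nd : (D.map Prod.fst).Nodup) (h : ∀ d ∈ D, CBK G d.1 d.2) :
    ∃ l : List G, l.Pairwise (fun a b => ¬ IsConj a b) ∧ (∀ g ∈ l, orderOf g ∈ D.map Prod.fst) ∧
      l.Forall₂ (fun g c => Nat.card 𝒞[g] ≤ c) (D.flatMap Prod.snd) := by
  induction D with
  | nil => exact ⟨[], by simp⟩
  | cons d D ih =>
    rw [List.map_cons, List.nodup_cons] at nd
    obtain ⟨l, a, b, c⟩ := ih nd.2 fun e he => h e (List.mem_cons_of_mem _ he)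
    obtain ⟨k, e, f⟩ := h d List.mem_cons_self
    have o : ∀ g ∈ k, orderOf g = d.1 := fun g hg => by
      obtain ⟨i, hi, rfl⟩ := List.getElem_of_mem hg
      exact (List.forall₂_iff_get.1 f |>.2 i hi (f.length_eq ▸ hi)).1
    refine ⟨k ++ l, List.pairwise_append.2 ⟨e, a, fun x hx y hy i => nd.1 ?_⟩, fun g hg => ?_,
      List.rel_append (f.imp fun _ _ => And.right) c⟩
    · obtain ⟨n, rfl⟩ := isConj_iff.1 i
      exact o x hx ▸ orderOf_conj x n ▸ b _ hy
    · exact List.mem_cons.2 ((List.mem_append.1 hg).imp (o g) (b g))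

theorem card_classes {D : List (ℕ × List ℕ)} (nd : (D.map Prod.fst).Nodup) (h : ∀ d ∈ D, CBK G d.1 d.2) {N : ℕ}
    (hN : Nat.card G = N) (hs : N ≤ ((D.flatMap Prod.snd).map (N / ·)).sum) :
    Nat.card (ConjClasses G) = (D.flatMap Prod.snd).length := by
  classical
  obtain ⟨l, a, -, b⟩ := BK_join nd h
  have c : N ≤ {y | ∃ g ∈ l, IsConj g y}.ncard := by
    rw [← sum_cls a]
    refine hs.trans (List.Forall₂.sum_le_sum (List.forall₂_map_left_iff.2 (List.forall₂_map_right_iff.2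
      (b.flip.imp fun c g e => Nat.div_le_of_le_mul ?_))))
    rw [← hN, ← card_class g, mul_comm]
    exact Nat.mul_le_mul_right _ e
  have d := Set.eq_of_subset_of_ncard_le (Set.subset_univ {y | ∃ g ∈ l, IsConj g y}) (by rwa [Set.ncard_univ, hN])
  have := Fintype.ofFinite (ConjClasses G)
  rw [← b.length_eq, ← List.length_map ConjClasses.mk, ← List.toFinset_card_of_nodup (List.pairwise_map.2
    (a.imp fun e f => e (ConjClasses.mk_eq_mk_iff_isConj.1 f))), Nat.card_eq_fintype_card, ← Finset.card_univ]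
  refine congrArg _ (Finset.eq_univ_of_forall fun C => ?_).symm
  obtain ⟨y, rfl⟩ := ConjClasses.mk_surjective C
  obtain ⟨g, e, f⟩ := d.ge (Set.mem_univ y)
  exact List.mem_toFinset.2 (List.mem_map.2 ⟨g, e, ConjClasses.mk_eq_mk_iff_isConj.2 f⟩)

theorem mul_le_ncard {S : Set G} (φ : G → ℕ → Prop) (fn : ∀ a k l, φ a k → φ a l → k = l) {l : List ℕ} (nd : l.Nodup) {m : ℕ}
    (h : ∀ k ∈ l, m ≤ {a ∈ S | φ a k}.ncard) : l.length * m ≤ S.ncard := by
  induction l generalizing S with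
  | nil => simp
  | cons k l ih =>
    rw [List.nodup_cons] at nd
    rw [List.length_cons, Nat.succ_mul, ← Set.ncard_inter_add_ncard_diff_eq_ncard S {a | φ a k}, add_comm]
    exact Nat.add_le_add (h k List.mem_cons_self) (ih nd.2 fun j hj => (h j (List.mem_cons_of_mem _ hj)).trans
      (Set.ncard_le_ncard fun a b => ⟨⟨b.1, fun c => nd.1 (fn a j k b.2 c ▸ hj)⟩, b.2⟩))

/-- the size of a class in the stabiliser of the pair -/
def kDD (x : Perm Pt) : ℕ := {y | ∃ d ∈ DD, d * x * d⁻¹ = y}.ncard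

theorem kDD_one (x : Perm Pt) : 1 ≤ kDD x := (Set.ncard_pos (Set.toFinite _)).2 ⟨x, 1, one_mem _, by simp⟩

def conjE (x y p : ℕ) (q : ℕ → Bool) : Bool := band (band (relEnum 23 0 x y p 23 0 q) (relEnum 23 0 x y p 0 23 q))
  (decide ([23, 0, p, dig x p, dig x (dig x p)].Nodup ∧ p < 24))

theorem conjE_spec {p : ℕ} {q : ℕ → Bool} {g x y : Perm Pt} (H : conjE (code x) (code y) p q = true) (hg : g ∈ DD)
    (e : g * x = y * g) : q (code g) = true := by
  simp only [conjE, band_eq_true, decide_eq_true_eq] at H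
  have l : ∀ k ∈ [23, 0, p, dig (code x) p, dig (code x) (dig (code x) p)], k < 24 := by
    have := dig_code_lt x H.2.2
    simp [H.2.2, this, dig_code_lt x this]
  obtain ⟨a, ⟨b, c⟩ | ⟨b, c⟩⟩ := mem_DD.1 hg
  · exact relEnum_spec H.1.1 H.2.1 l a rfl rfl (dig_of_apply (by norm_num) (by norm_num) b)
      (dig_of_apply (by norm_num) (by norm_num) c) e
  · exact relEnum_spec H.1.2 H.2.1 l a rfl rfl (dig_of_apply (by norm_num) (by norm_num) b)
      (dig_of_apply (by norm_num) (by norm_num) c) e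

/-- class sizes from a list containing the centraliser -/
def kDDC (x k : ℕ) (D : ℕ × List ℕ) : Bool := band (cenE x D.1 fun g => memL g D.2) (Nat.beq (k * D.2.length) 887040)

theorem kDD_cen {c k : ℕ} {D : ℕ × List ℕ} (H : kDDC c k D = true) (x : Perm Pt) (e : code x = c) : k ≤ kDD x := by
  rw [kDDC, band_eq_true, beq_iff, ← e] at H
  have a := ncard_conj DD x
  have b : Nat.card ↥(DD ⊓ 𝒞[x]) ≤ D.2.length := by
    refine le_trans ?_ (List.toFinset_card_le D.2)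
    rw [← Nat.card_eq_finsetCard]
    exact Nat.card_le_card_of_injective (fun g => ⟨code g.1, List.mem_toFinset.2 (memL_eq_true.1 (cenE_spec H.1 g.2.1
      (mem_cent_iff.1 g.2.2).eq))⟩) fun g h f => Subtype.ext (code_inj (congrArg Subtype.val f))
  rw [card_DD, ← H.2] at a
  exact Nat.le_of_mul_le_mul_right (a.ge.trans (Nat.mul_le_mul_left _ b)) (Nat.card_pos.trans_le b)

def lk (Q : List (ℕ × ℕ × ℕ)) (c : ℕ) : ℕ × ℕ :=
  List.rec (motive := fun _ => ℕ × ℕ) (0, 0) (fun a _ ih => bif' (Nat.beq a.1 c) a.2 ih) Q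

def key (Q : List (ℕ × ℕ × ℕ)) (r v c : ℕ) : ℕ := Nat.add (Nat.mul c 4096) (Nat.shiftRight (ap (lk Q c).1 v) r)

def qOK (b r c : ℕ) (q : ℕ × ℕ × ℕ) : Bool := band (Nat.beq (sn q.1) (sn c)) (band (allR (fun j => blt' (col q.2.2 j) b) 12)
  (force (Nat.xor q.2.2 (mm (fs q.1) q.2.2)) fun A => allR (fun j => Nat.beq (ap q.2.1 (col A j)) (2 ^ j)) r))

/-- an orbit on cosets -/
def orbChk (l : ℕ → ℕ) (Q : List (ℕ × ℕ × ℕ)) (b r v c : ℕ) (ws : List (List ℕ × ℕ)) : Bool :=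
  band (band (allL (qOK b r c) Q) (band (Nat.ble r 12) (incL (ws.map Prod.snd) 0)))
    (allL (fun w => force (cc l w.1 c) fun d => band (anyL (fun q => Nat.beq q.1 d) Q)
      (Nat.beq (key Q r (cv l 0 w.1 v c) d) w.2)) ws)

theorem lk_mem {Q : List (ℕ × ℕ × ℕ)} {c : ℕ} (h : ∃ q ∈ Q, q.1 = c) : (c, lk Q c) ∈ Q := by
  induction Q with
  | nil => simp at h
  | cons a Q ih =>
    rw [show lk (a :: Q) c = bif' (Nat.beq a.1 c) a.2 (lk Q c) from rfl, bif'_eq]
    split_ifs with e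
    · rw [← beq_iff.1 e]; exact List.mem_cons_self
    · obtain ⟨q, f, i⟩ := h
      exact List.mem_cons_of_mem _ (ih ⟨q, (List.mem_cons.1 f).resolve_left fun j => e (beq_iff.2 (j ▸ i)), i⟩)

def evOK (χ : ℕ → ℕ → Bool) (v c k : ℕ) : Bool := npow c k fun N j => force (ap N v) fun a =>
  band (band (Nat.beq (cmul j j) cone) (bor (bne' a 0) (bne' j cone))) (band (χ a j) (Nat.beq (ap (fs j) a) a))

def ordChk (v c m : ℕ) : Bool := allR (fun d => bor (bne' (2 * m % d) 0) (bor (Nat.beq (m % d) 0)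
  (npow c d fun N j => bor (bne' (ap N v) 0) (bne' j cone)))) (2 * m)

/-- `g` has order `2 m` and its involution is `u` -/
structure TY (u g : G) (m c : ℕ) : Prop where
  pow : g ^ m = u
  ord : orderOf g = 2 * m
  cen : Nat.card 𝒞[g] ≤ c

theorem TY.conj {u w g h : G} {m c d : ℕ} (a : TY u g m c) (b : TY w h m d) (e : IsConj g h) :
    ∃ n, n * u * n⁻¹ = w ∧ n * g * n⁻¹ = h := by
  obtain ⟨n, rfl⟩ := isConj_iff.1 e
  exact ⟨n, by rw [← a.pow, ← b.pow, conj_pow], rfl⟩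

namespace AM

variable {M : AM G} {g : G} {v c : ℕ}

/-- the class in the centraliser -/
def cl (M : AM G) (g : G) : Set G := {y | ∃ n ∈ 𝒞[M.u], n * g * n⁻¹ = y}

theorem cl_conj {y n : G} (h : y ∈ M.cl g) (hn : Commute M.u n) : n * y * n⁻¹ ∈ M.cl g := by
  obtain ⟨m, a, rfl⟩ := h
  exact ⟨n * m, mul_mem (mem_cent_iff.2 hn.symm) a, by group⟩

theorem cen_le {k m : ℕ} (hs : ∀ d ∈ DD, ∃ g, Commute M.u g ∧ M.π g = d) (hg : Commute M.u g) (hk : k ≤ kDD (M.π g))
    (hm : m ≤ {y ∈ M.cl g | M.π y = M.π g}.ncard) : Nat.card ↥(𝒞[M.u] ⊓ 𝒞[g]) * (k * m) ≤ Nat.card 𝒞[M.u] := by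
  rw [← ncard_conj 𝒞[M.u] g, mul_comm]
  refine Nat.mul_le_mul_right _ ((Nat.mul_le_mul hk hm).trans ?_)
  have : ∀ x, ∃ n, Commute M.u n ∧ ((∃ d ∈ DD, d * M.π g * d⁻¹ = x) → M.π n * M.π g * (M.π n)⁻¹ = x) := fun x => by
    by_cases e : ∃ d ∈ DD, d * M.π g * d⁻¹ = x
    · obtain ⟨d, a, b⟩ := e
      obtain ⟨n, e, rfl⟩ := hs d a
      exact ⟨n, e, fun _ => b⟩
    · exact ⟨1, Commute.one_right _, fun f => absurd f e⟩
  choose n a b using this
  rw [kDD, ← Set.ncard_prod]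
  have e : ∀ x y, (∃ d ∈ DD, d * M.π g * d⁻¹ = x) → y ∈ M.cl g ∧ M.π y = M.π g → M.π (n x * y * (n x)⁻¹) = x := by
    rintro x _ hx ⟨⟨s, hs, rfl⟩, f⟩
    rw [π_conj ((com_conj (mem_cent_iff.1 hs).symm).2 hg) (a x), f, b x hx]
  refine Set.ncard_le_ncard_of_injOn (fun p => n p.1 * p.2 * (n p.1)⁻¹) (fun p hp => cl_conj hp.2.1 (a _)) fun p hp q hq f => ?_
  have i : p.1 = q.1 := (e _ _ hp.1 hp.2).symm.trans ((congrArg M.π f).trans (e _ _ hq.1 hq.2))
  exact Prod.ext i (by simpa [i] using f)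

/-- the multiplicity of the codes in a class -/
def DB (M : AM G) (g : G) (δ : ℕ) : Prop := δ = 1 ∨ δ = 2 ∧ M.R M.u 0 cone ∧ g * M.u ∈ M.cl g

theorem codes_le {δ : ℕ} (hδ : M.DB g δ) {T : Finset ℕ} {f : ℕ → ℕ} (inj : Set.InjOn f T)
    (h : ∀ e ∈ T, ∃ y ∈ M.cl g, M.R y (f e) c) {S : Set G} (hS : ∀ y ∈ M.cl g, ∀ e ∈ T, M.R y (f e) c → y ∈ S) :
    T.card * δ ≤ S.ncard := by
  choose! y a b using h
  have r : ∀ e ∈ T, ∀ i < δ, y e * M.u ^ i ∈ M.cl g ∧ M.R (y e * M.u ^ i) (f e) c := fun e he i hi => by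
    rcases i with _ | i
    · simpa using ⟨a e he, b e he⟩
    obtain ⟨rfl, d, k⟩ := hδ.resolve_left (by omega)
    obtain ⟨n, hn, s⟩ := a e he
    rw [show i = 0 by omega, zero_add, pow_one]
    exact ⟨by rw [← s, ← conj_eq_iff_commute.2 (mem_cent_iff.1 hn), ← cjm]; exact cl_conj k (mem_cent_iff.1 hn).symm,
      AB.mulk (b e he) d⟩
  rw [← Finset.card_range δ, ← Finset.card_product, ← Set.ncard_coe_finset]
  refine Set.ncard_le_ncard_of_injOn (fun p => y p.1 * M.u ^ p.2) (fun p hp => ?_) fun p hp q hq e => ?_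
  · have := Finset.mem_product.1 hp
    exact hS _ (r _ this.1 _ (Finset.mem_range.1 this.2)).1 _ this.1 (r _ this.1 _ (Finset.mem_range.1 this.2)).2
  have hp := Finset.mem_product.1 hp
  have hq := Finset.mem_product.1 hq
  simp only [Finset.mem_range] at hp hq e
  have i := inj hp.1 hq.1 (M.uniq (r _ hp.1 _ hp.2).2 (e ▸ (r _ hq.1 _ hq.2).2)).1
  rw [i, mul_right_inj] at e
  have := mod_of_zpow M.u2 M.u1 e
  exact Prod.ext i (by rcases hδ with d | ⟨d, -⟩ <;> omega)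

theorem orb_le {δ s r : ℕ} (hδ : M.DB g δ) (hb : M.b = 2 ^ s) (a : M.R g v c) {Q : List (ℕ × ℕ × ℕ)} {ws : List (List ℕ × ℕ)}
    (H : orbChk M.l Q M.b r v c ws = true) : ws.length * (2 ^ r * δ) ≤ {y ∈ M.cl g | M.π y = M.π g}.ncard := by
  simp only [orbChk, band_eq_true, allL_eq_true, anyL_eq_true, force_eq, beq_iff, ble_iff] at H
  rw [← List.length_map Prod.snd]
  refine mul_le_ncard (fun y k => ∃ v c, M.R y v c ∧ key Q r v c = k) (by
    rintro y _ _ ⟨_, _, e, rfl⟩ ⟨_, _, f, rfl⟩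
    rw [(M.uniq e f).1, (M.uniq e f).2]) (incL_nodup H.1.2.2) fun k hk => ?_
  obtain ⟨w, hw, rfl⟩ := List.mem_map.1 hk
  obtain ⟨n, ⟨_, b⟩, d⟩ := M.cj M.b0 w.1
  replace d := d g v c a
  obtain ⟨e, f⟩ := H.2 w hw
  have q := H.1.1 _ (lk_mem e)
  generalize cc M.l w.1 c = c' at *
  generalize cv M.l 0 w.1 v c = v' at *
  simp only [qOK, band_eq_true, allR_eq_true, force_eq, beq_iff, blt'_eq_true, Nat.xor_eq] at q
  have lt : ∀ x < 2 ^ r, x < 4096 := fun x hx => hx.trans_le (Nat.pow_le_pow_right (n := 2) (by norm_num) H.1.2.1)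
  have u : ∀ x < 2 ^ r, ap (lk Q c').1 (ap ((lk Q c').2 ^^^ mm (fs c') (lk Q c').2) x) = x :=
    xor_induction _ (by rw [ap_zero, ap_zero]) (fun x y _ _ i j => by rw [ap_xor, ap_xor, i, j])
      fun i hi => by rw [ap_two_pow _ (hi.trans_le H.1.2.1), q.2.2 i hi]
  rw [← Finset.card_range (2 ^ r)]
  refine codes_le (c := c') (f := fun x => v' ^^^ ap ((lk Q c').2 ^^^ mm (fs c') (lk Q c').2) x) hδ (fun x hx y hy i => ?_)
    (fun x hx => ?_) fun y hy x hx i => ⟨⟨hy, code_inj (by rw [M.cp i, M.cp a, q.1])⟩, _, _, i, ?_⟩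
  · rw [← u x (by simpa using hx), Nat.xor_right_inj.1 i, u y (by simpa using hy)]
  · have l := lt x (by simpa using hx)
    obtain ⟨m, ⟨_, i⟩, j⟩ := M.cj (e := ap (lk Q c').2 x) (vec_induction (fun x => ap _ x < M.b) (by rw [ap_zero]; exact M.b0)
      (fun x y _ _ i j => by rw [ap_xor, hb] at *; exact Nat.xor_lt_two_pow i j)
      (fun i hi => by rw [ap_two_pow _ hi]; exact q.2.1 i hi) x l) []
    refine ⟨_, cl_conj ⟨n, mem_cent_iff.2 (M.com b).symm, rfl⟩ (M.com i), ?_⟩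
    have := j _ _ _ d
    simp only [cv, cc, lw, lwi, force_eq, fs_cone, AB.cone_mul d, AB.mul_cone d, Nat.xor_eq] at this
    rwa [ap_mone (xor_lt (xor_lt (ap_lt _ _) (M.lt d)) (ap_lt _ _)), Nat.xor_comm _ v', Nat.xor_assoc, ← ap_mm _ _ l,
      ← ap_xor_left _ _ l] at this
  · rw [← f, key, key, ap_xor, u x (by simpa using hx)]
    congr 1
    refine Nat.shiftRight_xor_distrib.trans ?_
    rw [Nat.shiftRight_eq_zero x r (by simpa using hx), Nat.xor_zero]; rfl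

theorem pow_u (hu : M.R M.u 0 cone) (a : M.R g v c) {k : ℕ} (H : evOK M.χ v c k = true) : g ^ (2 * k) = M.u := by
  rw [evOK, npow_eq] at H
  simp only [band_eq_true, bor_eq_true, force_eq, beq_iff, bne'_eq_true] at H
  have b := AB.pow a k
  have n : ∀ x, M.R x 0 cone → g ^ k ≠ x := fun x e f => H.1.2.elim (· (M.uniq b (f ▸ e)).1) (· (M.uniq b (f ▸ e)).2)
  obtain ⟨w, d, e, f, i⟩ := M.chi b H.1.1 (n 1 M.one)
  have s := M.mul b b
  rw [H.1.1, H.2.2, Nat.xor_self] at s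
  rw [two_mul, pow_add]
  exact (M.ker s).resolve_left fun j => n _ hu ((inv_unique (mem_zpowers _) d j (n 1 M.one) e f).trans (i.2 H.2.1))

theorem ty {m k n b : ℕ} (hs : ∀ d ∈ DD, ∃ g, Commute M.u g ∧ M.π g = d) (a : M.R g v c) (h : g ^ m = M.u)
    (H : ordChk v c m = true) (hk : k ≤ kDD (M.π g)) (hn : n ≤ {y ∈ M.cl g | M.π y = M.π g}.ncard)
    (e : b * (k * n) = Nat.card 𝒞[M.u]) : TY M.u g m b := by
  refine ⟨h, by_contra fun f => ?_, Nat.le_of_mul_le_mul_right ?_ (Nat.pos_of_mul_pos_left (e ▸ Nat.card_pos))⟩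
  · have d : orderOf g ∣ 2 * m := orderOf_dvd_of_pow_eq_one (by rw [two_mul, pow_add, h, M.u2])
    have m0 : m ≠ 0 := fun i => M.u1 (by rw [← h, i, pow_zero])
    have := allR_eq_true.1 H _ ((Nat.le_of_dvd (by omega) d).lt_of_ne f)
    have b := AB.pow a (orderOf g)
    rw [pow_orderOf_eq_one] at b
    rw [npow_eq] at this
    simp only [bor_eq_true, beq_iff, bne'_eq_true] at this
    rcases this with i | i | i | i
    exacts [i (Nat.mod_eq_zero_of_dvd d), M.u1 (h ▸ orderOf_dvd_iff_pow_eq_one.1 (Nat.dvd_of_mod_eq_zero i)),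
      i (M.uniq b M.one).1, i (M.uniq b M.one).2]
  · rw [e, ← inf_of_le_right (show 𝒞[g] ≤ 𝒞[M.u] from cent_singleton_le_of_mem_zpowers (h ▸ pow_mem (mem_zpowers g) m))]
    exact cen_le hs (M.com a) hk hn

end AM

end

end CA.J4o

theorem CA.J4o.realizeEqnsCls : True := by
  have := @CA.J4o.ordChk.eq_1
  have := @CA.J4o.ordChk.eq_def
  have := @CA.J4o.ordChk.congr_simp
  have := @CA.J4o.kDD.eq_1
  have := @CA.J4o.kDD.eq_def
  have := @CA.J4o.kDD.congr_simp
  have := @CA.J4o.qOK.eq_1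
  have := @CA.J4o.qOK.eq_def
  have := @CA.J4o.qOK.congr_simp
  have := @CA.J4o.CBK.eq_1.{0}
  have := @CA.J4o.CBK.eq_def.{0}
  have := @CA.J4o.CBK.congr_simp.{0}
  have := @CA.J4o.AM.DB.eq_1.{0}
  have := @CA.J4o.AM.DB.eq_def.{0}
  have := @CA.J4o.AM.DB.congr_simp.{0}
  have := @CA.J4o.key.eq_1
  have := @CA.J4o.key.eq_def
  have := @CA.J4o.key.congr_simp
  have := @CA.J4o.kDDC.eq_1
  have := @CA.J4o.kDDC.eq_def
  have := @CA.J4o.kDDC.congr_simp
  have := @CA.J4o.AM.cl.eq_1.{0}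
  have := @CA.J4o.AM.cl.eq_def.{0}
  have := @CA.J4o.AM.cl.congr_simp.{0}
  have := @CA.J4o.lk.eq_1
  have := @CA.J4o.lk.eq_def
  have := @CA.J4o.lk.congr_simp
  have := @CA.J4o.orbChk.eq_1
  have := @CA.J4o.orbChk.eq_def
  have := @CA.J4o.orbChk.congr_simp
  have := @CA.J4o.evOK.eq_1
  have := @CA.J4o.evOK.eq_def
  have := @CA.J4o.evOK.congr_simp
  have := @CA.J4o.conjE.eq_1
  have := @CA.J4o.conjE.eq_def
  have := @CA.J4o.conjE.congr_simp
  trivial
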