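/-
A subgroup isomorphic to `PGL₂(23)`.
-/
import Cfsg.Agent.J4o.Big

set_option autoImplicit false
set_option maxRecDepth 100000
set_option linter.unusedSectionVars false

namespace CA.J4o

open CA.Fi CA.FG CA.J4 Cfsg Subgroup Matrix

noncomputable section

variable {G : Type*} [Group G] [Finite G]

instance f23 : Fact (Nat.Prime 23) := ⟨by norm_num⟩

/-- powers indexed by residues -/
def ey (y : G) (k : ZMod 23) : G := y ^ k.val

/-- the points of the projective line -/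
def PP (y : G) (Z : Subgroup G) (v : Fin 2 → ZMod 23) : Subgroup G := if v 1 = 0 then zpowers y else Z :^ ey y (v 0 / v 1)

variable {y g : G} {Z : Subgroup G}

theorem ey_nat (o : orderOf y = 23) (n : ℕ) : ey y n = y ^ n := by rw [ey, ZMod.val_natCast, ← o, pow_mod_orderOf]

theorem ey_add (o : orderOf y = 23) (k l : ZMod 23) : ey y (k + l) = ey y k * ey y l := by
  rw [ey.eq_1 y k, ey.eq_1 y l, ← pow_add, ← ey_nat o, Nat.cast_add, ZMod.natCast_zmod_val, ZMod.natCast_zmod_val]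

theorem ey_mem (k : ZMod 23) : ey y k ∈ zpowers y := pow_mem (mem_zpowers y) _

theorem ey0 : ey y 0 = 1 := pow_zero y

theorem ey1 : ey y 1 = y := pow_one y

theorem ex_ey (o : orderOf y = 23) (h : g ∈ zpowers y) : ∃ k, ey y k = g := by
  obtain ⟨n, rfl⟩ := (mem_powers_iff_mem_zpowers.2 h :)
  exact ⟨n, ey_nat o n⟩

theorem ey_conj (o : orderOf y = 23) (h : g ∈ 𝒩(zpowers y)) : ∃ b, ∀ k, g * ey y k * g⁻¹ = ey y (b * k) := by
  obtain ⟨b, e⟩ := ex_ey o (conj_mem_of_mem_norm h (mem_zpowers y))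
  refine ⟨b, fun k => ?_⟩
  rw [ey, ← conj_pow, ← e, ey, ← pow_mul, ← ey_nat o, Nat.cast_mul, ZMod.natCast_zmod_val, ZMod.natCast_zmod_val]

theorem P_act {b : ZMod 23} (h : g ∈ 𝒩(Z)) (e : ∀ k, g * ey y k * g⁻¹ = ey y (b * k)) (k : ZMod 23) :
    (Z :^ ey y k) :^ g = Z :^ ey y (b * k) := by
  rw [← e, conjg_mul, conjg_mul, conjg_of_mem_norm (inv_mem h)]

theorem P_inj (o : orderOf y = 23) (h : y ∉ 𝒩(Z)) {k l : ZMod 23} (e : Z :^ ey y k = Z :^ ey y l) : k = l := by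
  rw [conjg_eq_conjg_iff, ← sub_add_cancel k l, add_comm, ey_add o, inv_mul_cancel_left] at e
  by_contra d
  exact h (zpowers_le.2 e ((eq_zpowers_of_card_prime (by rw [Nat.card_zpowers, o]; norm_num) (ey_mem (y := y) (k - l))
    fun f => d (sub_eq_zero.1 ((ZMod.val_eq_zero _).1 (Nat.eq_zero_of_dvd_of_lt
      (o.symm.dvd.trans (orderOf_dvd_of_pow_eq_one f)) (ZMod.val_lt _))))).le (mem_zpowers y)))

theorem P_ne (h : y ∉ 𝒩(Z)) (k : ZMod 23) : Z :^ ey y k ≠ zpowers y := fun e => by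
  rw [conjg_eq_iff, conjg_of_mem (inv_mem (ey_mem k))] at e
  exact h (le_normalizer (e ▸ mem_zpowers y))

theorem fix1 (o : orderOf y = 23) (cy : 𝒞[y] ≤ zpowers y) (h : y ∉ 𝒩(Z)) (a : g ∈ 𝒩(Z)) (e : g * ey y 1 * g⁻¹ = ey y 1) :
    g = 1 := by
  rw [ey1] at e
  obtain ⟨k, rfl⟩ := ex_ey o (cy (mem_cent_iff.2 (conj_eq_iff_commute.1 e)))
  rw [P_inj o h (k := k) (l := 0) (by rw [ey0, conjg_one, conjg_of_mem_norm a]), ey0]

/-- `g` acts on the points as the matrix does -/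
def RR (y : G) (Z : Subgroup G) (M : Matrix (Fin 2) (Fin 2) (ZMod 23)) (g : G) : Prop :=
  ∀ v ≠ 0, PP y Z v :^ g = PP y Z (M *ᵥ v)

theorem RR.mul {A B : Matrix (Fin 2) (Fin 2) (ZMod 23)} {a b : G} (d : det B ≠ 0) (e : RR y Z A a) (f : RR y Z B b) :
    RR y Z (A * B) (a * b) := fun v hv => by
  rw [conjg_mul, f v hv, e _ fun i => hv (eq_zero_of_mulVec_eq_zero d i), mulVec_mulVec]

theorem RR_up (o : orderOf y = 23) (b : ZMod 23) : RR y Z !![1, b; 0, 1] (ey y b) := fun v _ => by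
  by_cases e : v 1 = 0 <;> simp [PP, mulVec, dotProduct, e, conjg_of_mem (ey_mem b), ← conjg_mul, ← ey_add o, add_div, add_comm]

theorem RR_diag {b : ZMod 23} {D : Fin 2 → ZMod 23} (d : D 1 ≠ 0) (f : D 0 = b * D 1) (a : g ∈ 𝒩(zpowers y)) (h : g ∈ 𝒩(Z))
    (e : ∀ k, g * ey y k * g⁻¹ = ey y (b * k)) : RR y Z (diagonal D) g := fun v _ => by
  by_cases i : v 1 = 0
  · simp [PP, mulVec_diagonal, i, conjg_of_mem_norm a]
  · simp only [PP, mulVec_diagonal, i, d, mul_eq_zero, or_self, if_false, P_act h e, f]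
    congr 2
    field_simp

theorem RR_w {c : ZMod 23} (a : zpowers y :^ g = Z) (b : Z :^ g = zpowers y)
    (e : ∀ k ≠ 0, (Z :^ ey y k) :^ g = Z :^ ey y (c / k)) : RR y Z !![0, c; 1, 0] g := fun v hv => by
  by_cases i : v 1 = 0 <;> by_cases k : v 0 = 0
  · exact absurd (funext (Fin.forall_fin_two.2 ⟨k, i⟩)) hv
  · simp [PP, mulVec, dotProduct, i, k, a, ey0, conjg_one]
  · simp [PP, mulVec, dotProduct, i, k, b, ey0, conjg_one]
  · simp [PP, mulVec, dotProduct, i, k, e _ (div_ne_zero k i), div_div_eq_mul_div]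

theorem RR_one (o : orderOf y = 23) (cy : 𝒞[y] ≤ zpowers y) (h : y ∉ 𝒩(Z)) (e : RR y Z 1 g) : g = 1 := by
  have a := e ![1, 0] (by decide)
  have b := e ![0, 1] (by decide)
  have c := e ![1, 1] (by decide)
  simp [PP, ey0, conjg_one, conjg_eq_self_iff] at a b
  simp only [PP, one_mulVec] at c
  obtain ⟨k, d⟩ := ey_conj o a
  rw [if_neg (by decide), P_act b d] at c
  exact fix1 o cy h b (by rw [d, show k * 1 = 1 by simpa using P_inj o h c])

theorem RR_ker (o : orderOf y = 23) (h : y ∉ 𝒩(Z)) (M : GL (Fin 2) (ZMod 23)) :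
    RR y Z M 1 ↔ M ∈ center (GL (Fin 2) (ZMod 23)) := by
  rw [GeneralLinearGroup.mem_center_iff_val_mem_range_scalar]
  refine ⟨fun e => ?_, fun ⟨r, e⟩ => ?_⟩
  · have a := e ![1, 0] (by decide)
    have b := e ![0, 1] (by decide)
    have c := e ![1, 1] (by decide)
    simp only [PP, conjg_one] at a b c
    simp [mulVec, dotProduct] at a b c
    have d : M 1 0 = 0 := by_contra fun d => P_ne h _ (a d).symm
    have f : M 1 1 ≠ 0 := fun f => P_ne h _ (b.trans (if_pos f))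
    rw [if_neg f] at b
    rw [d, zero_add, if_neg f] at c
    have i := (div_eq_zero_iff.1 (P_inj o h b).symm).resolve_right f
    have k := P_inj o h c
    rw [i, add_zero, eq_div_iff f, one_mul] at k
    exact ⟨M 1 1, by rw [eta_fin_two M.val, d, i, ← k]; ext i j; fin_cases i <;> fin_cases j <;> rfl⟩
  · have := M.det_ne_zero
    rw [← e] at this ⊢
    exact RR_diag (b := 1) (by simpa using this) (one_mul _).symm (one_mem _) (one_mem _) (by simp)

theorem RR_tot {j : G} {c : ZMod 23} (o : orderOf y = 23) (c0 : c ≠ 0) (w : RR y Z !![0, c; 1, 0] j)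
    (hd : ∀ b ≠ 0, ∃ g ∈ 𝒩(zpowers y), g ∈ 𝒩(Z) ∧ ∀ k, g * ey y k * g⁻¹ = ey y (b * k)) (M : GL (Fin 2) (ZMod 23)) :
    ∃ g, RR y Z M g := by
  have dg : ∀ D : Fin 2 → ZMod 23, det (diagonal D) ≠ 0 → ∃ g, RR y Z (diagonal D) g := fun D d => by
    rw [det_diagonal, Fin.prod_univ_two, mul_ne_zero_iff] at d
    obtain ⟨g, a, b, e⟩ := hd _ (div_ne_zero d.1 d.2)
    exact ⟨g, RR_diag d.2 (div_mul_cancel₀ _ d.2).symm a b e⟩
  refine diagonal_transvection_induction_of_det_ne_zero (fun M => ∃ g, RR y Z M g) _ M.det_ne_zero dg ?_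
    fun A B _ d ⟨_, e⟩ ⟨_, f⟩ => ⟨_, e.mul d f⟩
  obtain ⟨g, e⟩ := dg ![c⁻¹, c⁻¹] (by simpa using c0)
  rintro ⟨i, k, f, b⟩
  fin_cases i <;> fin_cases k
  · exact absurd rfl f
  · exact ⟨_, by convert RR_up o b using 1; ext i j; fin_cases i <;> fin_cases j <;> simp [TransvectionStruct.toMatrix, transvection]⟩
  · refine ⟨_, by
      convert ((e.mul (by simpa using c0) w).mul (by simp) (RR_up o (c * b))).mul (by simpa using c0) w using 1
      ext i j; fin_cases i <;> fin_cases j <;> simp [TransvectionStruct.toMatrix, transvection, mul_apply, c0]⟩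
  · exact absurd rfl f

theorem pgl_of (o : orderOf y = 23) (cy : 𝒞[y] ≤ zpowers y) (h : y ∉ 𝒩(Z)) (tot : ∀ M : GL (Fin 2) (ZMod 23), ∃ g, RR y Z M g) :
    ∃ K : Subgroup G, Nonempty (K ≃* GL (Fin 2) (ZMod 23) ⧸ center (GL (Fin 2) (ZMod 23))) := by
  choose φ hφ using tot
  have uq : ∀ (M : GL (Fin 2) (ZMod 23)) g, RR y Z M g → g = φ M := fun M g e => by
    have k : ∀ g, RR y Z M g → g = (φ M⁻¹)⁻¹ := fun g e => eq_inv_of_mul_eq_one_right (RR_one o cy h
      (by have := (hφ M⁻¹).mul M.det_ne_zero e; rwa [M.inv_mul] at this))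
    exact (k g e).trans (k _ (hφ M)).symm
  obtain ⟨ψ, e⟩ : ∃ ψ : GL (Fin 2) (ZMod 23) →* G, ∀ M, ψ M = φ M :=
    ⟨MonoidHom.mk' φ fun A B => (uq (A * B) _ ((hφ A).mul B.det_ne_zero (hφ B))).symm, fun _ => rfl⟩
  refine ⟨_, ⟨(QuotientGroup.quotientKerEquivRange ψ).symm.trans (QuotientGroup.quotientMulEquivOfEq
    (Subgroup.ext fun M => ?_))⟩⟩
  rw [MonoidHom.mem_ker, e, ← RR_ker o h]
  exact ⟨fun e => e ▸ hφ M, fun e => (uq _ _ e).symm⟩

theorem pgl23 {m j : G} {c : ZMod 23} (o : orderOf y = 23) (cy : 𝒞[y] ≤ zpowers y) (hm : m ∈ 𝒩(zpowers y)) (j2 : j * j = 1)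
    (jm : j * m * j⁻¹ = m⁻¹) (m2 : m ^ 2 ≠ 1) (m11 : m ^ 11 ≠ 1) (nj : y ∉ 𝒩(zpowers y :^ j))
    (hc : zpowers y :^ (j * y * j) = (zpowers y :^ j) :^ ey y c) :
    ∃ K : Subgroup G, Nonempty (K ≃* GL (Fin 2) (ZMod 23) ⧸ center (GL (Fin 2) (ZMod 23))) := by
  have mZ : m ∈ 𝒩(zpowers y :^ j) := by
    rw [← conjg_norm, ← inv_mem_iff, ← jm]; exact conj_mem_conjg j hm
  have jZ : (zpowers y :^ j) :^ j = zpowers y := by rw [← conjg_mul, j2, conjg_one]
  rw [conjg_mul, conjg_mul] at hc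
  generalize hZ : zpowers y :^ j = Z at *
  obtain ⟨a, ha⟩ := ey_conj o hm
  have hp : ∀ n k, m ^ n * ey y k * (m ^ n)⁻¹ = ey y (a ^ n * k) := fun n => by
    induction n with
    | zero => simp
    | succ n ih => exact fun k => by rw [pow_succ a, mul_assoc (a ^ n), ← ih, ← ha, pow_succ]; group
  have pr : ∀ b ≠ 0, ∃ n < 22, a ^ n = b := (by decide +kernel : ∀ a : ZMod 23, a ≠ 0 → a ^ 2 ≠ 1 → a ^ 11 ≠ 1 → ∀ b ≠ 0,
    ∃ n < 22, a ^ n = b) a (fun e => by
      have := ha 1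
      rw [e, zero_mul, ey0, ey1] at this
      have := orderOf_conj y m
      simp_all) (fun e => m2 (fix1 o cy nj (pow_mem mZ 2) (by rw [hp, e, one_mul])))
        fun e => m11 (fix1 o cy nj (pow_mem mZ 11) (by rw [hp, e, one_mul]))
  have c0 : c ≠ 0 := fun e => by
    rw [e, ey0, conjg_one] at hc
    exact P_ne nj 1 (by rw [ey1, ← conjg_inj (g := j), hc, hZ])
  refine pgl_of o cy nj (RR_tot o c0 (RR_w hZ jZ fun k hk => ?_) fun b hb => ?_)
  · obtain ⟨n, -, e⟩ := pr k hk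
    have := P_act (pow_mem mZ n) (hp n) (c / k)
    have d := P_act (pow_mem mZ n) (hp n) 1
    rw [e, mul_div_cancel₀ _ hk, ← hc, conjg_eq_iff] at this
    rw [e, mul_one, ey1] at d
    rw [← d, this, ← conjg_mul _ _ j, ← conjg_mul _ j, ← inv_pow, ← jm, conj_pow, inv_mul_cancel_right]
  · obtain ⟨n, -, rfl⟩ := pr b hb
    exact ⟨_, pow_mem hm n, pow_mem mZ n, hp n⟩

theorem count_cj {ι : Type} [Finite ι] {S A Y : Subgroup G} (r : ι → G) (hr : ∀ i, r i ∈ S) (a : A ≤ S) (b : A ≤ 𝒩(Y))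
    (inj : ∀ i k, Y :^ r i = Y :^ r k → i = k) : Nat.card ι * Nat.card A ≤ Nat.card S := by
  rw [← Nat.card_prod]
  refine Nat.card_le_card_of_injective (fun p => ⟨r p.1 * p.2, mul_mem (hr _) (a p.2.2)⟩) fun p q e => ?_
  have e := congrArg Subtype.val e
  have := inj p.1 q.1 (by
    rw [← conjg_of_mem_norm (b p.2.2), ← conjg_mul, show r p.1 * p.2 = _ from e, conjg_mul, conjg_of_mem_norm (b q.2.2),
      conjg_of_mem_norm (b p.2.2)])
  exact Prod.ext this (Subtype.ext (mul_left_cancel (a := r p.1) (e.trans (by rw [this]))))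

end

end CA.J4o

namespace CA.J4.HM

open CA.M24 CA.Fi CA.FG CA.J4o Cfsg Subgroup Equiv

variable {G : Type*} [Group G] [Finite G] (X : HM G) [hF : Fact X.Fu]

include hF in
theorem s5578 : ∃ K : Subgroup G, Nonempty (K ≃* GL (Fin 2) (ZMod 23) ⧸ center (GL (Fin 2) (ZMod 23))) := by
  obtain ⟨x, O, h⟩ := X.exists_X11
  have o := h.oz.ow
  obtain ⟨u, hu, u1, tu⟩ : ∃ u ∈ O, u ≠ 1 ∧ X.t * u * X.t⁻¹ = u⁻¹ := by
    by_contra! e
    have := card_le_of_le (show O ≤ zpowers x from fun g hg => by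
      obtain ⟨k, a, c, b, d, rfl⟩ := h.oz.dec hg
      rwa [not_ne_iff.1 fun f => e k a f d, one_mul])
    rw [h.card_O, Nat.card_zpowers, o] at this
    omega
  obtain ⟨j, S, Y, k⟩ := h.pair hu u1 tu
  obtain ⟨y, hy, oy⟩ := exists_mem_orderOf_eq (p := 23) (by norm_num) k.cY.symm.dvd
  obtain rfl := eq_zpowers_of_card_prime (by rw [k.cY]; norm_num) hy fun e => by simp [e] at oy
  have cy := (cent_zpowers y ▸ (big (X := X) (by decide) k.cY).1).le
  have ux := mem_cent_iff.1 (h.oz.le hu)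
  have x2 : x ^ 2 ≠ 1 := fun e => absurd (o ▸ orderOf_dvd_of_pow_eq_one e) (by norm_num)
  have xy : ∀ g ∈ zpowers y, g ^ 11 = 1 → g = 1 := fun g a b =>
    (pow_one g).symm.trans (pow_gcd_eq_one (n := 23).2 ⟨b, k.cY ▸ pow_card_eq_one_of_mem a⟩)
  have xN := k.nY k.xS
  have ni : ∀ i ∈ 𝒩(zpowers y), i * x * i⁻¹ ≠ x⁻¹ := fun i a e => x2 (xy _ (cy (mem_cent_iff.2 (Commute.inv_left_iff.1 (comm_cyc xN (inv_mem a) (by
    rw [← inv_mul_cancel_left i (x * i⁻¹), ← mul_assoc i, e]; group)))))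
      (by rw [← pow_mul, mul_comm, pow_mul, h.oz.zp (mem_zpowers x), one_pow]))
  have nj : y ∉ 𝒩(zpowers y :^ j) := fun e => ni j (conjg_eq_self_iff.1 (eq_of_le_of_card_ge ((syl_big (X := X) (by decide)
    ((card_conjg _ j).trans k.cY) le_normalizer).le_of_normal le_rfl (pGrp_of_card_eq (by norm_num) k.cY) (zpowers_le.2 e))
      (card_conjg _ j).le).symm) k.jx
  have all : ∀ g ∈ 𝒩(X.V) ⊓ 𝒩(X.V :^ u), zpowers y :^ g = zpowers y ∨ ∃ c, zpowers y :^ g = (zpowers y :^ j) :^ ey y c :=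
    fun g hg => by
    by_contra! e
    have := (count_cj (fun i : Option (Option (ZMod 23)) => i.elim g fun i => i.elim 1 fun c => ey y c * j) (by
      rintro (_ | _ | c)
      exacts [hg, one_mem _, mul_mem (k.le (k.Yle (ey_mem c))) k.jS]) k.le k.nY (by
        rintro (_ | _ | c) (_ | _ | d) f <;> simp only [Option.elim, conjg_one, conjg_mul] at f
        exacts [rfl, absurd f e.1, absurd f (e.2 d), absurd f.symm e.1, rfl, absurd f.symm (P_ne nj d), absurd f.symm (e.2 c),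
          absurd f (P_ne nj c), by rw [P_inj oy nj f]])).trans k.ub
    simp [k.card] at this
  have s2 : u * X.t * (u * X.t) = 1 := by
    rw [show u * X.t * (u * X.t) = u * (X.t * u * X.t⁻¹) * (X.t * X.t) by group, tu, X.t_sq]; group
  have sx : Commute (u * X.t) x := ux.mul_left h.oz.uw
  have sj : Commute j (u * X.t) := k.ju.mul_right k.jt
  have sV : X.V :^ (u * X.t) = X.V :^ u := by rw [conjg_mul, conjg_of_mem X.t_mem]
  have sS : u * X.t ∈ 𝒩(𝒩(X.V) ⊓ 𝒩(X.V :^ u)) := by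
    rw [← conjg_eq_self_iff, conjg_inf, conjg_norm, conjg_norm, sV, ← sV, ← conjg_mul, s2, conjg_one, inf_comm]
  have s1 : u * X.t ≠ 1 := fun e => u1 (h.oz.I_fix hu tu (by rw [eq_inv_of_mul_eq_one_left e]; exact (Commute.refl _).inv_right))
  generalize u * X.t = s at s2 sx sj sS s1
  have sN : s ∈ 𝒩(zpowers y) := by
    obtain ⟨g, a, b⟩ := sylow_trans (by norm_num) (syl_big (X := X) (by decide) k.cY (k.Yle.trans k.le))
      (syl_big (X := X) (by decide) ((card_conjg _ s).trans k.cY) (conjg_le_of_mem_norm (k.Yle.trans k.le) sS))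
    obtain ⟨c, d⟩ := ey_conj oy xN
    refine conjg_eq_self_iff.1 ((b ▸ all g a).resolve_right fun ⟨l, e⟩ => ?_)
    have xj : x ∈ 𝒩(zpowers y :^ j) := by
      rw [← conjg_norm, ← inv_mem_iff, ← k.jx]; exact conj_mem_conjg j xN
    have f := P_act xj d l
    rw [← e, ← conjg_mul, ← sx.eq, conjg_mul, conjg_of_mem_norm xN, e] at f
    rcases mul_left_eq_self₀.1 (P_inj oy nj f).symm with rfl | rfl
    · exact x2 (by rw [fix1 oy cy nj xj (by rw [d, one_mul]), one_pow])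
    · rw [ey0, conjg_one, conjg_eq_conjg_iff] at e
      exact ni _ (inv_mem e) (by
        rw [show (j⁻¹ * s)⁻¹ * x * (j⁻¹ * s)⁻¹⁻¹ = s⁻¹ * (j * x * j⁻¹) * s by group, k.jx, sx.inv_inv.eq, inv_mul_cancel_right])
  obtain ⟨c, e⟩ := (all _ (mul_mem (mul_mem k.jS (k.le (k.Yle hy))) k.jS)).resolve_left fun e => nj (by
    rw [conjg_mul, conjg_mul, conjg_eq_iff, inv_eq_of_mul_eq_one_right k.j2] at e
    exact conjg_eq_self_iff.1 e)
  refine pgl23 oy cy (mul_mem xN sN) k.j2 (by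
    rw [cjm, k.jx, conj_eq_iff_commute.2 sj, ← sx.eq, mul_inv_rev, inv_eq_of_mul_eq_one_right s2]) (by
    rwa [sx.symm.mul_pow, pow_two s, s2, mul_one]) (by
      rwa [sx.symm.mul_pow, h.oz.zp (mem_zpowers x), one_mul, pow_succ, pow_mul s 2 5, pow_two, s2, one_pow, one_mul]) nj e

end CA.J4.HM

theorem CA.J4o.realizeEqnsPGL : True := by
  have := @CA.J4o.ey.eq_1.{0}
  have := @CA.J4o.ey.eq_def.{0}
  have := @CA.J4o.ey.congr_simp.{0}
  have := @CA.J4o.RR.eq_1.{0}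
  have := @CA.J4o.RR.eq_def.{0}
  have := @CA.J4o.RR.congr_simp.{0}
  have := @CA.J4o.PP.eq_1.{0}
  have := @CA.J4o.PP.eq_def.{0}
  have := @CA.J4o.PP.congr_simp.{0}
  trivial
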