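/-
Representatives of the classes of elements of even order.
-/
import Cfsg.Agent.J4o.Cls

set_option autoImplicit false
set_option maxRecDepth 100000
set_option linter.unusedSectionVars false

namespace CA.J4o

open CA.M24 CA.Fi CA.FG CA.J4 Cfsg Subgroup Equiv

noncomputable section

/-- data for a class -/
structure CR where
  v : ℕ
  c : ℕ
  m : ℕ
  r : ℕ
  k : ℕ
  b : ℕ
  e : ℕ
  W : List ℕ
  Q : List (ℕ × ℕ × ℕ)
  ws : List (List ℕ × ℕ)

def CR.com (D : CR) (l : ℕ → ℕ) (b δ N : ℕ) : Bool := band (orbChk l D.Q b D.r D.v D.c D.ws) (band (ordChk D.v D.c D.m)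
  (Nat.beq (D.b * (D.k * (D.ws.length * (2 ^ D.r * δ)))) N))
def CR.chkE (D : CR) : Bool := band (D.com lH 4096 2 21799895040) (band (band (Nat.beq (lw lH D.W) D.c) (blt' D.v 4096))
  (band (band (evOK χH D.v D.c (D.m / 2)) (Nat.beq (2 * (D.m / 2)) D.m))
    (band (blt' D.e 4096) (band (Nat.beq (ap (fs D.c) D.e) D.e) (Nat.beq (phz D.v D.c D.e % 2) (1 % 2))))))
def CR.chkO (D : CR) : Bool := band (D.com lH 4096 1 21799895040) (band (band (Nat.beq (lw lH D.W) D.c) (Nat.beq D.v 0))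
  (band (Nat.beq (nJ D.c D.m) cone) (Nat.beq (D.m % 2) (1 % 2))))
def CR.chkN (D : CR) : Bool := band (D.com lN 2048 1 1816657920) (band (band (J4o.chkN D.c) (blt' D.v 2048))
  (band (Nat.beq (ap (nN D.c D.m) D.v) 4) (Nat.beq (nJ D.c D.m) cone)))

/-- no conjugating element -/
def ncChk (v c v' c' p P : ℕ) (W : List (List ℕ)) (CC : List ℕ) : Bool :=
  band (band (decide (W.map (lw lH) = CC)) (Nat.beq (mm P (fs c')) P)) (conjE (sn c) (sn c') p fun g => anyL (fun d =>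
    band (Nat.beq (sn d) g) (allR (fun i => force (cmul (cpow cO i) d) fun d => bor (bne' (cmul d c) (cmul c' d))
      (bne' (ap P (Nat.xor v' (ap (fs d) v))) 0)) 3)) CC)

def ncPow (v c k p P : ℕ) (W : List (List ℕ)) (CC : List ℕ) : Bool := npow c k fun N j => force (ap N v) fun a =>
  ncChk v c a j p P W CC

variable {G : Type*} [Group G] [Finite G] {u g h k l : G} {m n a b c d : ℕ}

theorem TY.pow' (u2 : u * u = 1) (h : TY u g m c) {k : ℕ} (hk : k.Coprime (2 * m)) : TY u (g ^ k) m c := by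
  refine ⟨?_, (Nat.Coprime.orderOf_pow (h.ord ▸ hk.symm)).trans h.ord, (card_le_of_le (cent_singleton_le_of_mem_zpowers
    (mem_zpowers_pow_iff.2 (h.ord ▸ hk)))).trans h.cen⟩
  obtain ⟨j, rfl⟩ := Nat.coprime_two_right.1 (Nat.Coprime.coprime_mul_right_right hk)
  rw [← pow_mul, mul_comm, pow_mul, h.pow, pow_succ, pow_mul, pow_two, u2, one_pow, one_mul]

theorem TY.inv (u2 : u * u = 1) (h : TY u g m c) : TY u g⁻¹ m c :=
  ⟨by rw [inv_pow, h.pow, inv_eq_of_mul_eq_one_right u2], (orderOf_inv g).trans h.ord,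
    (card_le_of_le (cent_singleton_le_of_mem_zpowers (by simp))).trans h.cen⟩

theorem TY.of_odd (u2 : u * u = 1) (u1 : u ≠ 1) (o : orderOf g = m) (hm : Odd m) (e : Commute u g)
    (h : Nat.card ↥(𝒞(zpowers g) ⊓ 𝒞[u]) = c) : TY u (g * u) m c := by
  have := Fact.mk Nat.prime_two
  have a : (g * u) ^ m = u := by
    obtain ⟨j, rfl⟩ := hm
    rw [e.symm.mul_pow, ← o, pow_orderOf_eq_one, o, one_mul, pow_succ, pow_mul, pow_two, u2, one_pow, one_mul]
  have ou := orderOf_eq_prime ((pow_two u).trans u2) u1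
  refine ⟨a, by rw [e.symm.orderOf_mul_eq_mul_orderOf_of_coprime (by rwa [o, ou, Nat.coprime_two_right]), o, ou, mul_comm],
    h ▸ card_le_of_le fun x hx => ?_⟩
  have b := cent_singleton_le_of_mem_zpowers (a ▸ pow_mem (mem_zpowers (g * u)) m) hx
  exact ⟨cent_zpowers g ▸ mem_cent_iff.2 (by simpa using (mem_cent_iff.1 hx).mul_right (mem_cent_iff.1 b).inv_right), b⟩

theorem BK1 (o : orderOf g = n) (e : Nat.card 𝒞[g] ≤ a) : CBK G n [a] := ⟨[g], by simp, by simp [o, e]⟩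

theorem BK2 (o : orderOf g = n) (e : Nat.card 𝒞[g] ≤ a) (o' : orderOf h = n) (e' : Nat.card 𝒞[h] ≤ b) (i : ¬ IsConj g h) :
    CBK G n [a, b] := ⟨[g, h], List.pairwise_pair.2 i, by simp [o, e, o', e']⟩

theorem BK3 {w x : G} (p : TY u g m a) (q : TY w h m b) (r : TY x k m c) (i : ¬ IsConj g h) (j : ¬ IsConj g k)
    (l : ¬ IsConj h k) : CBK G (2 * m) [a, b, c] :=
  ⟨[g, h, k], List.pairwise_cons.2 ⟨List.forall_mem_cons.2 ⟨i, List.forall_mem_singleton.2 j⟩, List.pairwise_pair.2 l⟩,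
    by simp [p.ord, p.cen, q.ord, q.cen, r.ord, r.cen]⟩

theorem TY.bk1 (p : TY u g m a) : CBK G (2 * m) [a] := BK1 p.ord p.cen

theorem TY.bk2 {w : G} (p : TY u g m a) (q : TY w h m b) (i : ¬ IsConj g h) : CBK G (2 * m) [a, b] :=
  BK2 p.ord p.cen q.ord q.cen i

theorem BK_prime {p e r : ℕ} (hp : p.Prime) (o : orderOf g = p) (h : Nat.card 𝒞(zpowers g) ≤ c)
    (he : Nat.card 𝒩(zpowers g) = e * Nat.card 𝒞(zpowers g)) (hr : r * e < p) : CBK G p (List.replicate r c) := by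
  have cg := (Nat.card_zpowers g).trans o
  have k : ∀ y ∈ zpowers g, y ≠ 1 → zpowers g = zpowers y := fun y => eq_zpowers_of_card_prime (cg ▸ hp)
  suffices ∃ l : List G, l.Pairwise (fun a b => ¬ IsConj a b) ∧ l.length = r ∧ ∀ y ∈ l, y ∈ zpowers g ∧ y ≠ 1 by
    obtain ⟨l, a, rfl, b⟩ := this
    refine ⟨l, a, List.forall₂_iff_get.2 ⟨by simp, fun i _ _ => ?_⟩⟩
    have := k _ (b _ (List.get_mem l _)).1 (b _ (List.get_mem l ⟨i, ‹_›⟩)).2
    rw [← Nat.card_zpowers, ← cent_zpowers, ← this]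
    exact ⟨cg, by simpa using h⟩
  induction r with
  | zero => exact ⟨[], by simp⟩
  | succ r ih =>
    obtain ⟨l, a, rfl, b⟩ := ih (by rw [Nat.succ_mul] at hr; omega)
    have s : ∀ l : List G, (∀ y ∈ l, y ∈ zpowers g ∧ y ≠ 1) →
        {x | x ∈ zpowers g ∧ (x = 1 ∨ ∃ y ∈ l, IsConj y x)}.ncard ≤ l.length * e + 1 := fun l b => by
      induction l with
      | nil => exact (Set.ncard_le_ncard (t := {1}) fun x a => by simpa using a.2).trans (by simp)
      | cons y l ih =>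
        have f := ncard_conj 𝒩(zpowers g) y
        have i := b y List.mem_cons_self
        rw [← cent_zpowers, ← k y i.1 i.2, inf_of_le_right (cent_le_norm _), he] at f
        refine (Set.ncard_le_ncard (t := {x | ∃ c ∈ 𝒩(zpowers g), c * y * c⁻¹ = x} ∪
          {x | x ∈ zpowers g ∧ (x = 1 ∨ ∃ y ∈ l, IsConj y x)}) ?_).trans ((Set.ncard_union_le _ _).trans ?_)
        · rintro x ⟨hx, j | ⟨w, hw, j⟩⟩
          · exact .inr ⟨hx, .inl j⟩
          rcases List.mem_cons.1 hw with rfl | hw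
          · obtain ⟨n, rfl⟩ := isConj_iff.1 j
            exact .inl ⟨n, conjg_eq_self_iff.1 (by
              rw [k _ i.1 i.2, conjg_zpowers, ← k _ hx (ne_of_conj i.2 j), k _ i.1 i.2]), rfl⟩
          · exact .inr ⟨hx, .inr ⟨w, hw, j⟩⟩
        · have := ih fun y hy => b y (List.mem_cons_of_mem _ hy)
          rw [Nat.eq_of_mul_eq_mul_right Nat.card_pos f, List.length_cons, Nat.succ_mul]
          omega
    obtain ⟨x, i, j⟩ := Set.exists_mem_notMem_of_ncard_lt_ncard (t := (zpowers g : Set G)) ((s l b).trans_lt (by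
      have : 0 < e := Nat.pos_of_mul_pos_right (he ▸ Nat.card_pos)
      rw [Nat.succ_mul] at hr
      rw [show (zpowers g : Set G).ncard = p from cg]
      omega))
    exact ⟨x :: l, List.pairwise_cons.2 ⟨fun y hy f => j ⟨i, .inr ⟨y, hy, f.symm⟩⟩, a⟩, rfl,
      List.forall_mem_cons.2 ⟨⟨i, fun f => j ⟨i, .inl f⟩⟩, b⟩⟩

end

end CA.J4o

namespace CA.J4.HM

open CA.M24 CA.Fi CA.FG CA.J4o Cfsg Subgroup Equiv

noncomputable section

variable {G : Type*} [Group G] [Finite G] {X : HM G} [hF : Fact X.Fu] {g h : G} {v c w d m a b : ℕ}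

theorem hsH : ∀ d ∈ DD, ∃ g, Commute X.amH.u g ∧ X.amH.π g = d := fun _ h => by
  obtain ⟨n, c, a, b⟩ := exists_lift (X := X) h
  exact ⟨n, a.zc, b⟩

theorem hsN : ∀ d ∈ DD, ∃ g, Commute X.amN.u g ∧ X.amN.π g = d := fun d h => by
  obtain ⟨c, a⟩ := exists_CN (X := X) (DD_le h)
  have r : X.RN _ 0 c := ⟨by norm_num, ⟨d, DD_le h⟩, h, a, rfl⟩
  exact ⟨_, r.tc, code_inj ((X.amN.cp r).trans a.sn)⟩

include hF in
theorem kDD_inv {j k : ℕ} (H : sumT (fun a => bif' (Nat.beq (lb IT L0 a) j) 1 0) IT = k) (x : Perm Pt) (e : code x = dd j) :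
    k ≤ kDD x := by
  have a : k = (IT.keys.filter fun a => lb IT L0 a = j).toFinset.card := by
    rw [List.toFinset_card_of_nodup ((Tr.srt_nodup IT_srt).filter _), ← H, sumT_eq, ← List.countP_eq_length_filter]
    induction IT.keys with
    | nil => rfl
    | cons a l ih => rw [List.map_cons, List.sum_cons, ih, List.countP_cons, bif'_eq, add_comm]; simp [beq_iff]
  rw [a, ← Set.ncard_coe_finset]
  have v : ∀ a ∈ (IT.keys.filter fun a => lb IT L0 a = j).toFinset, a ∈ IT.keys ∧ lb IT L0 a = j := by simp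
  have c := fun a h => code_perm (Tr.all_eq_true.1 IT_val a (v a h).1)
  refine Set.ncard_le_ncard_of_injOn perm (fun a h => ?_) fun a h b h' e => by rw [← c a h, e, c b h']
  refine tab_ind tabH (fun k r => ∀ x y, code x = r → code y = k → ∃ d ∈ DD, d * x * d⁻¹ = y)
    (fun k x y a b => ⟨1, one_mem _, by simpa using code_inj (a.trans b.symm)⟩) (fun p hp k _ r ih x y a b => ?_)
    (v a h).1 x _ ((v a h).2 ▸ e) (c a h)
  obtain ⟨s, i, rfl⟩ : InH DD p := by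
    simp only [List.mem_cons, List.not_mem_nil, or_false] at hp
    rcases hp with rfl | rfl | rfl | rfl
    exacts [InH.one _, (ex_lw (X := X) _).inD, (ex_lw (X := X) _).inD, (ex_lw (X := X) _).inD]
  obtain ⟨d, j, f⟩ := ih x _ a (b ▸ cjp_code s y).symm
  exact ⟨s⁻¹ * d, mul_mem (inv_mem i) j, by rw [← inv_mul_cancel_left s y, ← mul_inv_cancel_right (s * y) s⁻¹, ← f]; group⟩

theorem dbH (r : X.Rq g v c) {e : ℕ} (he : e < 4096) (a : ap (fs c) e = e) (b : phz v c e % 2 = 1 % 2) : X.amH.DB g 2 :=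
  .inr ⟨rfl, X.rc_z.rq, X.s e, mem_cent_iff.2 (X.zs e).symm, by
    rw [r.conj_s he, a, Nat.xor_self, X.s_zero, one_mul, X.zmod b, pow_one]; exact r.zc.eq⟩

theorem repE {D : CR} (H : D.chkE = true) (hk : ∀ x, code x = sn D.c → D.k ≤ kDD x) :
    ∃ g, X.Rq g D.v D.c ∧ TY X.z g D.m D.b := by
  simp only [CR.chkE, CR.com, band_eq_true, beq_iff, blt'_eq_true] at H
  obtain ⟨⟨h1, h2, h3⟩, ⟨h4, h5⟩, ⟨h6, h7⟩, h8, h9, h10⟩ := H
  obtain ⟨n, r⟩ := h4 ▸ ex_lw (X := X) D.W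
  have r : X.Rq _ D.v D.c := ⟨h5, n, r, rfl⟩
  exact ⟨_, r, AM.ty (M := X.amH) hsH r (h7 ▸ AM.pow_u (M := X.amH) X.rc_z.rq r h6) h2 (hk _ r.code_π)
    (AM.orb_le (M := X.amH) (s := 12) (dbH r h8 h9 h10) rfl r h1) (h3.trans X.card_H.symm)⟩

theorem repO {D : CR} (H : D.chkO = true) (hk : ∀ x, code x = sn D.c → D.k ≤ kDD x) :
    ∃ g, X.Rq g D.v D.c ∧ TY X.z g D.m D.b := by
  simp only [CR.chkO, CR.com, band_eq_true, beq_iff, blt'_eq_true] at H
  obtain ⟨⟨h1, h2, h3⟩, ⟨h4, h5⟩, h6, h7⟩ := H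
  obtain ⟨g, r, e⟩ : ∃ g, X.Rq g D.v D.c ∧ g ^ D.m = X.z := by
    obtain ⟨n, r⟩ := h4 ▸ ex_lw (X := X) D.W
    have a := AB.pow (M := X.amH.toAB) r.rq D.m
    rw [ap_zero, h6] at a
    rw [h5]
    exact (X.amH.ker a).elim (fun e => ⟨_, r.rq.mulz 1, by
      rw [pow_one, r.zc.symm.mul_pow, e, one_mul, X.zmod h7, pow_one]⟩) fun e => ⟨n, r.rq, e⟩
  exact ⟨_, r, AM.ty (M := X.amH) hsH r e h2 (hk _ r.code_π) (AM.orb_le (M := X.amH) (s := 12) (.inl rfl) rfl r h1)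
    (h3.trans X.card_H.symm)⟩

theorem repN {D : CR} (H : D.chkN = true) (hk : ∀ x, code x = sn D.c → D.k ≤ kDD x) : ∃ g, TY X.t g D.m D.b := by
  simp only [CR.chkN, CR.com, band_eq_true, beq_iff, blt'_eq_true] at H
  obtain ⟨⟨h1, h2, h3⟩, ⟨h4, h5⟩, h6, h7⟩ := H
  obtain ⟨g, r⟩ := RN.of_chk (X := X) h4 h5
  have a := AB.pow (M := X.amN.toAB) r D.m
  rw [h6, h7] at a
  exact ⟨_, AM.ty (M := X.amN) hsN r (RN.eq a (RN.ev (by norm_num))) h2 (hk _ (X.amN.cp r))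
    (AM.orb_le (M := X.amN) (s := 11) (.inl rfl) rfl r h1) (h3.trans X.card_Ct.symm)⟩

theorem rep4A : TY X.z (X.s 1) 2 5406720 := by
  have r := X.rq_s (v := 1) (by norm_num)
  have d := dbH r (e := 2) (by norm_num) (by decide +kernel) (by decide +kernel)
  refine AM.ty (M := X.amH) (k := 1) (n := 2016 * 2) hsH r (AM.pow_u (M := X.amH) (k := 1) X.rc_z.rq r
    (by decide +kernel : evOK χH 1 cone 1 = true))
    (by decide +kernel) (kDD_one _) ?_ (X.card_H.trans (by norm_num)).symm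
  rw [← (by decide +kernel : ((List.range 4096).filter fun v => olab v = 1).length = 2016),
    ← List.toFinset_card_of_nodup (List.nodup_range.filter _)]
  refine AM.codes_le (c := cone) (f := id) d (Set.injOn_id _) (fun e he => ?_) fun y a e _ b =>
    ⟨a, code_inj ((Rq.code_π b).trans r.code_π.symm)⟩
  simp only [List.mem_toFinset, List.mem_filter, List.mem_range, decide_eq_true_eq] at he
  obtain ⟨n, a, k, b⟩ := X.conj_of_olab (v := 1) (by norm_num) he.1 (he.2.symm ▸ by decide +kernel) 0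
  exact ⟨_, ⟨n, mem_cent_iff.2 a.symm, by rwa [pow_zero, mul_one] at b⟩, (X.rq_s he.1).mulz k⟩

theorem nc_zt (p : TY X.z g m a) (q : TY X.t h m b) : ¬ IsConj g h := fun e => by
  obtain ⟨n, f, -⟩ := p.conj q e
  exact X.not_conj_t (isConj_iff.2 ⟨n, f⟩)

theorem nc_π (p : TY X.z g m a) (q : TY X.z h m b) (r : X.Rq g v c) (s : X.Rq h w d) (k : ℕ) (e : sn (nJ c k) = pone)
    (f : sn (nJ d k) ≠ pone) : ¬ IsConj g h := fun i => by
  obtain ⟨n, j, rfl⟩ := p.conj q i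
  have r' := AB.pow (M := X.amH.toAB) r k
  rw [← Rq.code_π (AB.pow (M := X.amH.toAB) s k), conj_pow] at f
  have := AM.π_conj (M := X.amH) (Rq.zc r') (conj_eq_iff_commute.1 j).symm
  rw [show X.amH.π (g ^ k) = 1 from code_inj ((Rq.code_π r').trans (e.trans code_one.symm)), mul_one, mul_inv_cancel] at this
  exact f ((congrArg code this).trans code_one)

theorem nc_chk (p : TY X.z g m a) (q : TY X.z h m b) (r : X.Rq g v c) (s : X.Rq h w d) {k P : ℕ} {W : List (List ℕ)}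
    {CC : List ℕ} (H : ncChk v c w d k P W CC = true) : ¬ IsConj g h := fun i => by
  obtain ⟨n, j, e⟩ := p.conj q i
  have j := (conj_eq_iff_commute.1 j).symm
  rw [mul_inv_eq_iff_eq_mul] at e
  simp only [ncChk, band_eq_true, decide_eq_true_eq, beq_iff, ← r.code_π, ← s.code_π] at H
  have := conjE_spec H.2 (X.π_mem n j) (by rw [← X.π_mul _ _ j r.zc, e, X.π_mul _ _ s.zc j])
  simp only [anyL_eq_true, band_eq_true, beq_iff, allR_eq_true, force_eq, bor_eq_true, bne'_eq_true] at this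
  obtain ⟨x, c1, c2, c3⟩ := this
  obtain ⟨y, -, rfl⟩ := List.mem_map.1 (H.1.1 ▸ c1)
  obtain ⟨u, f, t⟩ := exists_rq j
  obtain ⟨i, hi, rfl⟩ := t.ex.eq_of_sn (ex_lw y) (t.code_π.symm.trans c2.symm)
  obtain ⟨l1, l2⟩ := (t.mul r).unique (e ▸ s.mul t)
  refine (c3 i hi).elim (· l2) (· ?_)
  rw [← Nat.xor_xor_cancel_left u (ap _ v), l1, Nat.xor_eq, Nat.xor_left_comm, Nat.xor_xor_cancel_left, ap_xor,
    ← ap_mm _ _ t.lt, H.1.2, Nat.xor_self]

theorem nc_pow (p : TY X.z g m a) (r : X.Rq g v c) {j k P : ℕ} (hj : j.Coprime (2 * m)) {W : List (List ℕ)}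
    {CC : List ℕ} (H : ncPow v c j k P W CC = true) : ¬ IsConj g (g ^ j) := by
  rw [ncPow, npow_eq, force_eq] at H
  exact nc_chk p (p.pow' X.z_sq hj) r (AB.pow (M := X.amH.toAB) r j) H

theorem pow_ρ (r : X.Rq g v c) {j : ℕ} (e : ap (nN c j) v = 0) (f : nJ c j = cO) : (g ^ 2) ^ (2 * j) = X.ρ := by
  obtain ⟨k, a⟩ := X.rc_ρ.rq.eq (e ▸ f ▸ AB.pow (M := X.amH.toAB) r j)
  rw [← pow_mul, show 2 * (2 * j) = j * (2 * 2) by ring, pow_mul, a, (X.zρ.symm.pow_right k).mul_pow, pow_mul (X.z ^ k),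
    pow_two (X.z ^ k), X.zz, one_pow, mul_one, show 2 * 2 = 3 + 1 from rfl, pow_succ, X.ρ_cube, one_mul]

theorem half (p : TY X.z g m a) (hm : Odd m) {j : ℕ} (e : (g ^ 2) ^ j = X.ρ) : orderOf (g ^ 2) = m ∧
    Nat.card 𝒞[g ^ 2] ≤ a ∧ ∀ k, Odd k → IsConj (g ^ 2) ((g ^ k) ^ 2) → IsConj g (g ^ k) := by
  obtain ⟨i, rfl⟩ := hm
  have f : g = (g ^ 2) ^ (i + 1) * X.z⁻¹ := by rw [← p.pow]; group
  refine ⟨by rw [orderOf_pow_of_dvd (by norm_num) (p.ord ▸ dvd_mul_right _ _), p.ord, Nat.mul_div_cancel_left _ two_pos],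
    (card_le_of_le fun x hx => mem_cent_iff.2 ?_).trans p.cen, fun k ⟨l, hk⟩ s => ?_⟩
  · rw [f]
    exact ((mem_cent_iff.1 hx).pow_right _).mul_right (mem_cent_iff.1 (X.cent_ρ
      (cent_singleton_le_of_mem_zpowers (e ▸ pow_mem (mem_zpowers _) j) hx))).inv_right
  obtain ⟨n, s⟩ := isConj_iff.1 s
  have t := X.norm_ρ (mem_norm_of_forall (a := n) (by
    rintro _ ⟨y, rfl⟩
    rw [← conj_zpow, ← e, ← conj_pow, s, ← pow_mul g k, mul_comm k, pow_mul, ← pow_mul _ k, mul_comm k, pow_mul]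
    exact zpow_mem (pow_mem (mem_zpowers _) _) _))
  refine isConj_iff.2 ⟨n, ?_⟩
  conv_lhs => rw [f, cjm, ← conj_pow, s, conj_eq_iff_commute.2 (mem_cent_iff.1 t).inv_right]
  have : (g ^ (2 * i + 1)) ^ (2 * l) = 1 := by rw [p.pow, pow_mul, X.z_two, one_pow]
  rw [← p.pow]
  conv_rhs => rw [← mul_one (g ^ k), ← this]
  rw [hk]
  group

include hF in
theorem nc7 (h : 7 ∣ orderOf g) : ¬ IsConj g g⁻¹ := fun e => by
  obtain ⟨n, e⟩ := isConj_iff.1 e
  have o := orderOf_pow_orderOf_div (orderOf_pos g).ne' h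
  replace e : n * g ^ (orderOf g / 7) * n⁻¹ = (g ^ (orderOf g / 7))⁻¹ := by rw [← conj_pow, e, inv_pow]
  generalize g ^ (orderOf g / 7) = y at o e
  have c := (Nat.card_zpowers y).trans o
  have a := card_mul_relIndex (cent_le_norm (zpowers y))
  rw [card_N7 (X := X) c, card_C7 (X := X) c] at a
  have m : n ∈ 𝒩(zpowers y) := mem_norm_of_forall (by
    rintro _ ⟨k, rfl⟩
    rw [← conj_zpow, e]; exact zpow_mem (inv_mem (mem_zpowers y)) k)
  have d : Commute (n ^ 2) y := conj_eq_iff_commute.1 (by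
    rw [pow_two, show n * n * y * (n * n)⁻¹ = n * (n * y * n⁻¹) * n⁻¹ by group, e, ← conj_inv, e, inv_inv])
  have f := BG.P04.pow_mem_of_relIndex (p := 3) (norm_cent le_rfl) (cent_le_norm (zpowers y)) (by omega) m
  rw [cent_zpowers, mem_cent_iff, pow_succ] at f
  replace f := conj_eq_iff_commute.2 (d.inv_left.mul_left f)
  rw [inv_mul_cancel_left, e, inv_eq_iff_mul_eq_one, ← pow_two] at f
  exact absurd (o ▸ orderOf_dvd_of_pow_eq_one f) (by norm_num)

end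

end CA.J4.HM

theorem CA.J4o.realizeEqnsRep : True := by
  have := @CA.J4o.CR.chkN.eq_1
  have := @CA.J4o.CR.chkN.eq_def
  have := @CA.J4o.CR.chkN.congr_simp
  have := @CA.J4o.ncPow.eq_1
  have := @CA.J4o.ncPow.eq_def
  have := @CA.J4o.ncPow.congr_simp
  have := @CA.J4o.ncChk.eq_1
  have := @CA.J4o.ncChk.eq_def
  have := @CA.J4o.ncChk.congr_simp
  have := @CA.J4o.CR.com.eq_1
  have := @CA.J4o.CR.com.eq_def
  have := @CA.J4o.CR.com.congr_simp
  have := @CA.J4o.CR.chkE.eq_1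
  have := @CA.J4o.CR.chkE.eq_def
  have := @CA.J4o.CR.chkE.congr_simp
  have := @CA.J4o.CR.chkO.eq_1
  have := @CA.J4o.CR.chkO.eq_def
  have := @CA.J4o.CR.chkO.congr_simp
  trivial
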